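import Mathlib
import Cfsg.Agent.Lib.Asch.Forms

/-!
# Reflexive sesquilinear forms and the adjoint of a matrix
-/

set_option autoImplicit false

namespace Cfsg.Agent.Lib.AschF.Adj

open Matrix Module Cfsg Cfsg.Geo
open Cfsg.Agent.Lib.Asch.Forms

universe u

variable {ι : Type} [Fintype ι] [DecidableEq ι] {F : Type u} [Field F]

/-- A non-degenerate `σ`-sesquilinear form which is `ε`-Hermitian. -/
structure HF (σ : F ≃+* F) (ε : F) (f : (ι → F) → (ι → F) → F) : Prop where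
  sesq : Sesq σ f
  nd : IsNondegenerateForm f
  herm : ∀ u v, f v u = ε * σ (f u v)
  invol : ∀ a : F, σ (σ a) = a

section
variable {σ : F ≃+* F} {ε : F} {f : (ι → F) → (ι → F) → F}

omit [Fintype ι] [DecidableEq ι] in
theorem Sesq_zero_left (hf : Sesq σ f) (v : ι → F) : f 0 v = 0 := by
  simpa using hf.smul_left 0 0 v

omit [Fintype ι] [DecidableEq ι] in
theorem Sesq_zero_right (hf : Sesq σ f) (v : ι → F) : f v 0 = 0 := by
  simpa using hf.smul_right 0 v 0

omit [Fintype ι] [DecidableEq ι] in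
theorem Sesq_sub_left (hf : Sesq σ f) (x y v : ι → F) : f (x - y) v = f x v - f y v := by
  have h := hf.add_left (x - y) y v
  rw [sub_add_cancel] at h
  rw [h]
  ring

omit [Fintype ι] [DecidableEq ι] in
theorem Sesq_sub_right (hf : Sesq σ f) (v x y : ι → F) : f v (x - y) = f v x - f v y := by
  have h := hf.add_right v (x - y) y
  rw [sub_add_cancel] at h
  rw [h]
  ring

omit [Fintype ι] [DecidableEq ι] in
theorem Sesq_sum_left (hf : Sesq σ f) {κ : Type*} (s : Finset κ) (g : κ → ι → F) (v : ι → F) :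
    f (∑ a ∈ s, g a) v = ∑ a ∈ s, f (g a) v := by
  classical
  induction s using Finset.induction_on with
  | empty => simp [Sesq_zero_left hf]
  | insert a s ha ih => rw [Finset.sum_insert ha, Finset.sum_insert ha, hf.add_left, ih]

omit [Fintype ι] [DecidableEq ι] in
theorem Sesq_sum_right (hf : Sesq σ f) {κ : Type*} (s : Finset κ) (g : κ → ι → F) (v : ι → F) :
    f v (∑ a ∈ s, g a) = ∑ a ∈ s, f v (g a) := by
  classical
  induction s using Finset.induction_on with
  | empty => simp [Sesq_zero_right hf]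
  | insert a s ha ih => rw [Finset.sum_insert ha, Finset.sum_insert ha, hf.add_right, ih]

omit [Fintype ι] [DecidableEq ι] in
/-- Non-degeneracy on the right: a vector orthogonal to everything is zero. -/
theorem HF.eq_zero_of_right (hf : HF σ ε f) {v : ι → F} (h : ∀ u, f u v = 0) : v = 0 := by
  by_contra hv
  obtain ⟨⟨x, hx⟩, -⟩ := hf.nd v hv
  exact hx (h x)

omit [Fintype ι] [DecidableEq ι] in
theorem HF.eq_zero_of_left (hf : HF σ ε f) {v : ι → F} (h : ∀ u, f v u = 0) : v = 0 := by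
  by_contra hv
  obtain ⟨-, ⟨x, hx⟩⟩ := hf.nd v hv
  exact hx (h x)

omit [Fintype ι] [DecidableEq ι] in
/-- Reflexivity of the form. -/
theorem HF.refl (hf : HF σ ε f) {u v : ι → F} (h : f u v = 0) : f v u = 0 := by
  rw [hf.herm u v, h, map_zero, mul_zero]

/-- The adjoint matrix. -/
noncomputable def Ad (σ : F ≃+* F) (f : (ι → F) → (ι → F) → F) (x : Matrix ι ι F) : Matrix ι ι F :=
  (((gram f)⁻¹ * xᵀ * gram f).map σ.symm)

theorem ad_spec (hf : HF σ ε f) (x : Matrix ι ι F) (u v : ι → F) :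
    f (x *ᵥ u) v = f u (Ad σ f x *ᵥ v) := by
  have hG := gram_unit hf.sesq hf.nd
  have hdet : IsUnit (gram f).det := (Matrix.isUnit_iff_isUnit_det _).1 hG
  rw [eq_gram hf.sesq, eq_gram hf.sesq u, comp_mulVec]
  have h1 : (Ad σ f x).map σ = (gram f)⁻¹ * xᵀ * gram f := by
    ext i j
    simp only [Ad, Matrix.map_apply]
    exact σ.apply_symm_apply _
  rw [h1, Matrix.mulVec_mulVec, ← mul_assoc, ← mul_assoc, Matrix.mul_nonsing_inv _ hdet, one_mul,
    ← Matrix.mulVec_mulVec, Matrix.dotProduct_mulVec u, Matrix.vecMul_transpose]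

theorem ad_unique (hf : HF σ ε f) {x y : Matrix ι ι F} (h : ∀ u v, f (x *ᵥ u) v = f u (y *ᵥ v)) :
    y = Ad σ f x := by
  apply Matrix.ext_of_mulVec_single
  intro j
  have : y *ᵥ Pi.single j 1 - Ad σ f x *ᵥ Pi.single j 1 = 0 := by
    apply hf.eq_zero_of_right
    intro u
    rw [Sesq_sub_right hf.sesq, ← h, ← ad_spec hf, sub_self]
  exact sub_eq_zero.1 this

theorem ad_one (hf : HF σ ε f) : Ad σ f (1 : Matrix ι ι F) = 1 := by
  symm
  apply ad_unique hf
  intro u v
  simp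

theorem ad_mul (hf : HF σ ε f) (x y : Matrix ι ι F) : Ad σ f (x * y) = Ad σ f y * Ad σ f x := by
  symm
  apply ad_unique hf
  intro u v
  rw [← Matrix.mulVec_mulVec, ad_spec hf, ad_spec hf y, Matrix.mulVec_mulVec]

theorem ad_add (hf : HF σ ε f) (x y : Matrix ι ι F) : Ad σ f (x + y) = Ad σ f x + Ad σ f y := by
  symm
  apply ad_unique hf
  intro u v
  rw [Matrix.add_mulVec, Matrix.add_mulVec, hf.sesq.add_left, hf.sesq.add_right, ad_spec hf, ad_spec hf y]

theorem ad_zero (hf : HF σ ε f) : Ad σ f (0 : Matrix ι ι F) = 0 := by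
  symm
  apply ad_unique hf
  intro u v
  simp [Sesq_zero_left hf.sesq, Sesq_zero_right hf.sesq]

theorem ad_smul (hf : HF σ ε f) (c : F) (x : Matrix ι ι F) : Ad σ f (c • x) = σ.symm c • Ad σ f x := by
  symm
  apply ad_unique hf
  intro u v
  rw [Matrix.smul_mulVec, Matrix.smul_mulVec, hf.sesq.smul_left, hf.sesq.smul_right, ad_spec hf]
  simp

theorem ad_ad (hf : HF σ ε f) (x : Matrix ι ι F) : Ad σ f (Ad σ f x) = x := by
  symm
  apply ad_unique hf
  intro u v
  rw [hf.herm v (Ad σ f x *ᵥ u), ← ad_spec hf x v u, ← hf.herm (x *ᵥ v) u]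

theorem ad_pow (hf : HF σ ε f) (x : Matrix ι ι F) (k : ℕ) : Ad σ f (x ^ k) = (Ad σ f x) ^ k := by
  induction k with
  | zero => simp [ad_one hf]
  | succ k ih => rw [pow_succ, ad_mul hf, ih, pow_succ']

theorem ad_isom (hf : HF σ ε f) (g : GL ι F)
    (hg : ∀ u v, f ((g : Matrix ι ι F) *ᵥ u) ((g : Matrix ι ι F) *ᵥ v) = f u v) :
    Ad σ f (g : Matrix ι ι F) = ((g⁻¹ : GL ι F) : Matrix ι ι F) := by
  symm
  apply ad_unique hf
  intro u v
  rw [← hg u _, Matrix.mulVec_mulVec, ← Units.val_mul, mul_inv_cancel, Units.val_one, Matrix.one_mulVec]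

theorem ad_conj (hf : HF σ ε f) (g : GL ι F)
    (hg : ∀ u v, f ((g : Matrix ι ι F) *ᵥ u) ((g : Matrix ι ι F) *ᵥ v) = f u v) (x : Matrix ι ι F) :
    Ad σ f ((g : Matrix ι ι F) * x * ((g⁻¹ : GL ι F) : Matrix ι ι F)) =
      (g : Matrix ι ι F) * Ad σ f x * ((g⁻¹ : GL ι F) : Matrix ι ι F) := by
  have hgi : ∀ u v, f (((g⁻¹ : GL ι F) : Matrix ι ι F) *ᵥ u) (((g⁻¹ : GL ι F) : Matrix ι ι F) *ᵥ v) = f u v := by
    intro u v
    rw [← hg, Matrix.mulVec_mulVec, Matrix.mulVec_mulVec, ← Units.val_mul, mul_inv_cancel, Units.val_one,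
      Matrix.one_mulVec, Matrix.one_mulVec]
  rw [ad_mul hf, ad_mul hf, ad_isom hf g hg, ad_isom hf g⁻¹ hgi, inv_inv, mul_assoc]

end

end Cfsg.Agent.Lib.AschF.Adj
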