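import Mathlib
import Cfsg.Agent.Lib.AschF.Adj
import Cfsg.Agent.Lib.Asch.Idem
import Cfsg.Agent.Lib.Asch.Semi

/-!
# Clifford theory relative to a form
-/

set_option autoImplicit false

namespace Cfsg.Agent.Lib.AschF.Cliff

open Matrix Module Cfsg Cfsg.Geo
open Cfsg.Agent.Lib.Asch.Forms Cfsg.Agent.Lib.Asch.Basic Cfsg.Agent.Lib.Asch.Idem Cfsg.Agent.Lib.Asch.Semi
open Cfsg.Agent.Lib.AschF.Adj

universe u

variable {ι : Type} [Fintype ι] [DecidableEq ι] {F : Type u} [Field F]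

section Perp
variable {σ : F ≃+* F} {ε : F} {f : (ι → F) → (ι → F) → F}

/-- The right orthogonal complement. -/
def perp (hf : Sesq σ f) (W : Submodule F (ι → F)) : Submodule F (ι → F) where
  carrier := {v | ∀ w ∈ W, f w v = 0}
  add_mem' := by
    intro a b ha hb w hw
    rw [hf.add_right, ha w hw, hb w hw, add_zero]
  zero_mem' := fun w _ => Sesq_zero_right hf w
  smul_mem' := by
    intro c v hv w hw
    rw [hf.smul_right, hv w hw, mul_zero]

omit [Fintype ι] [DecidableEq ι] in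
theorem mem_perp {hf : Sesq σ f} {W : Submodule F (ι → F)} {v : ι → F} : v ∈ perp hf W ↔ ∀ w ∈ W, f w v = 0 :=
  Iff.rfl

/-- A subspace invariant under a group of isometries has an invariant orthogonal complement. -/
theorem perp_inv (hf : Sesq σ f) (H : Subgroup (GL ι F))
    (hfix : ∀ g ∈ H, ∀ u v, f ((g : Matrix ι ι F) *ᵥ u) ((g : Matrix ι ι F) *ᵥ v) = f u v)
    {W : Submodule F (ι → F)} (hW : ∀ g ∈ H, ∀ v ∈ W, (g : Matrix ι ι F) *ᵥ v ∈ W) :
    ∀ g ∈ H, ∀ v ∈ perp hf W, (g : Matrix ι ι F) *ᵥ v ∈ perp hf W := by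
  intro g hg v hv w hw
  have h1 := hW g⁻¹ (H.inv_mem hg) w hw
  have h2 := hfix g hg (((g⁻¹ : GL ι F) : Matrix ι ι F) *ᵥ w) v
  rw [Matrix.mulVec_mulVec, ← Units.val_mul, mul_inv_cancel, Units.val_one, Matrix.one_mulVec] at h2
  rw [h2]
  exact hv _ h1

/-- An invariant subspace contains an invariant totally singular subspace or is non-degenerate. -/
theorem reducible_cases (hf : HF σ ε f) (H : Subgroup (GL ι F))
    (hfix : ∀ g ∈ H, ∀ u v, f ((g : Matrix ι ι F) *ᵥ u) ((g : Matrix ι ι F) *ᵥ v) = f u v)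
    {W : Submodule F (ι → F)} (hW : ∀ g ∈ H, ∀ v ∈ W, (g : Matrix ι ι F) *ᵥ v ∈ W) :
    (∃ W' : Submodule F (ι → F), W' ≠ ⊥ ∧ IsTotallySingularFor f W' ∧ ∀ g ∈ H, ∀ v ∈ W', (g : Matrix ι ι F) *ᵥ v ∈ W') ∨
      IsNondegenerateOn f W := by
  by_cases h0 : W ⊓ perp hf.sesq W = ⊥
  · right
    intro w hw hw0
    have h1 : w ∉ perp hf.sesq W := by
      intro h2
      have h3 : w ∈ W ⊓ perp hf.sesq W := ⟨hw, h2⟩
      rw [h0] at h3
      exact hw0 (by simpa using h3)
    simp only [mem_perp] at h1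
    push Not at h1
    obtain ⟨x, hx, hxw⟩ := h1
    exact ⟨⟨x, hx, hxw⟩, ⟨x, hx, fun h => hxw (hf.refl h)⟩⟩
  · left
    refine ⟨_, h0, ?_, ?_⟩
    · rintro u ⟨hu, -⟩ v ⟨-, hv⟩
      exact hv u hu
    · rintro g hg v ⟨hv, hv'⟩
      exact ⟨hW g hg v hv, perp_inv hf.sesq H hfix hW g hg v hv'⟩

end Perp

variable [Fintype F]

/-- A system of primitive idempotents. -/
theorem exists_prim_system (H : Subgroup (GL ι F)) (hIrr : ActsIrreducibly (matrixSet H)) (K : Set (Matrix ι ι F))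
    (hcomm : ∀ x ∈ K, ∀ y ∈ K, x * y = y * x) (hmul : ∀ x ∈ K, ∀ y ∈ K, x * y ∈ K)
    (hconj : ∀ g ∈ H, ∀ k ∈ K, (g : Matrix ι ι F) * k * ((g⁻¹ : GL ι F) : Matrix ι ι F) ∈ K)
    (e : Matrix ι ι F) (heK : e ∈ K) (hee : e * e = e) (he0 : e ≠ 0) (he1 : e ≠ 1) :
    ∃ (t : ℕ) (x : Fin t → Matrix ι ι F), IdemSystem H K t x ∧
      ∀ i, ∀ y ∈ K, y * y = y → y * x i = 0 ∨ y * x i = x i := by
  classical
  let E : Set (Matrix ι ι F) := {y | y ∈ K ∧ y * y = y ∧ y ≠ 0}
  obtain ⟨e₀, he₀, hmin⟩ := Set.exists_min_image E Matrix.rank (Set.toFinite _) ⟨e, heK, hee, he0⟩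
  obtain ⟨he₀K, he₀e, he₀0⟩ := he₀
  let φ : GL ι F → Matrix ι ι F := fun g => (g : Matrix ι ι F) * e₀ * ((g⁻¹ : GL ι F) : Matrix ι ι F)
  have hφ : ∀ g ∈ H, φ g ∈ K ∧ φ g * φ g = φ g ∧ φ g ≠ 0 ∧ (φ g).rank = e₀.rank := by
    intro g hg
    refine ⟨hconj g hg _ he₀K, ?_, ?_, rank_conj g e₀⟩
    · simp only [φ]
      rw [Cfsg.Agent.Lib.Asch.Idem.conj_mul, he₀e]
    · intro h0
      apply he₀0
      have := conj_inv_conj g e₀
      rw [← this]
      change ((g⁻¹ : GL ι F) : Matrix ι ι F) * φ g * _ = 0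
      rw [h0]
      simp
  have key : ∀ g ∈ H, ∀ y ∈ K, y * y = y → y * φ g = 0 ∨ y * φ g = φ g := by
    intro g hg y hy hyy
    obtain ⟨h1, h2, h3, h4⟩ := hφ g hg
    by_cases hc : y * φ g = 0
    · exact Or.inl hc
    right
    have hcomm' : y * φ g = φ g * y := hcomm y hy _ h1
    have hcK : y * φ g ∈ K := hmul y hy _ h1
    have hcc : y * φ g * (y * φ g) = y * φ g := by
      calc y * φ g * (y * φ g) = y * (φ g * y) * φ g := by simp only [mul_assoc]
        _ = y * (y * φ g) * φ g := by rw [hcomm']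
        _ = (y * y) * (φ g * φ g) := by simp only [mul_assoc]
        _ = y * φ g := by rw [hyy, h2]
    have hr1 : e₀.rank ≤ (y * φ g).rank := hmin _ ⟨hcK, hcc, hc⟩
    have hr2 : (y * φ g).rank ≤ (φ g).rank := Matrix.rank_mul_le_right _ _
    apply idem_eq_of_rank (a := φ g)
    · rw [← mul_assoc, ← hcomm', mul_assoc, h2]
    · rw [mul_assoc, h2]
    · exact hcc
    · omega
  have he₀1 : e₀ ≠ 1 := by
    rintro rfl
    apply he1
    apply idem_eq_of_rank (a := 1) (one_mul e) (mul_one e) hee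
    have h1 : (1 : Matrix ι ι F).rank ≤ e.rank := hmin e ⟨heK, hee, he0⟩
    have h2 : e.rank ≤ (1 : Matrix ι ι F).rank := by
      rw [Matrix.rank_one]
      exact Matrix.rank_le_card_height e
    omega
  let K₂ : Set (Matrix ι ι F) := {y | y = 0 ∨ ∃ g ∈ H, φ g = y}
  have hK₂ : ∀ y ∈ K₂, y ≠ 0 → ∃ g ∈ H, φ g = y := by
    rintro y (rfl | h) h0
    · exact absurd rfl h0
    · exact h
  obtain ⟨t, x, hx⟩ := exists_idemSystem H hIrr K₂
    (by
      rintro _ (rfl | ⟨g, hg, rfl⟩) _ (rfl | ⟨g', hg', rfl⟩)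
      · simp
      · simp
      · simp
      · exact hcomm _ (hφ g hg).1 _ (hφ g' hg').1)
    (by
      rintro _ (rfl | ⟨g, hg, rfl⟩) _ (rfl | ⟨g', hg', rfl⟩)
      · left; simp
      · left; simp
      · left; simp
      · rcases key g' hg' _ (hφ g hg).1 (hφ g hg).2.1 with h | h
        · left; exact h
        · right; exact ⟨g', hg', h.symm⟩)
    (by
      rintro g hg _ (rfl | ⟨g', hg', rfl⟩)
      · left; simp
      · right
        refine ⟨g * g', H.mul_mem hg hg', ?_⟩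
        simp only [φ]
        rw [Cfsg.Agent.Lib.Asch.Idem.conj_conj])
    e₀ (Or.inr ⟨1, H.one_mem, by simp [φ]⟩) he₀e he₀0 he₀1
  refine ⟨t, x, ⟨?_, hx.idem, hx.ne, hx.orth, hx.sum, hx.perm, hx.trans, hx.two⟩, ?_⟩
  · intro i
    obtain ⟨g, hg, hgi⟩ := hK₂ _ (hx.mem i) (hx.ne i)
    rw [← hgi]
    exact (hφ g hg).1
  · intro i y hy hyy
    obtain ⟨g, hg, hgi⟩ := hK₂ _ (hx.mem i) (hx.ne i)
    rw [← hgi]
    exact key g hg y hy hyy

section Star
variable {σ : F ≃+* F} {ε : F} {f : (ι → F) → (ι → F) → F}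

/-- The adjoint permutes a system of primitive idempotents. -/
theorem star_perm (hf : HF σ ε f) (H : Subgroup (GL ι F)) {K : Set (Matrix ι ι F)}
    (hcomm : ∀ x ∈ K, ∀ y ∈ K, x * y = y * x) (hK : ∀ k ∈ K, Ad σ f k ∈ K) {t : ℕ} {x : Fin t → Matrix ι ι F}
    (hx : IdemSystem H K t x) (hprim : ∀ i, ∀ y ∈ K, y * y = y → y * x i = 0 ∨ y * x i = x i) (i : Fin t) :
    ∃ j, Ad σ f (x i) = x j := by
  classical
  set z := Ad σ f (x i) with hz
  have hzK : z ∈ K := hK _ (hx.mem i)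
  have hzz : z * z = z := by
    rw [hz, ← ad_mul hf, hx.idem]
  have hz0 : z ≠ 0 := by
    intro h0
    apply hx.ne i
    rw [← ad_ad hf (x i), ← hz, h0, ad_zero hf]
  have hzprim : ∀ y ∈ K, y * y = y → y * z = 0 ∨ y * z = z := by
    intro y hy hyy
    have hAy := hK y hy
    have hAyy : Ad σ f y * Ad σ f y = Ad σ f y := by rw [← ad_mul hf, hyy]
    have h1 : z * y = Ad σ f (Ad σ f y * x i) := by
      rw [ad_mul hf, ad_ad hf]
    rw [hcomm y hy z hzK, h1]
    rcases hprim i _ hAy hAyy with h | h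
    · left
      rw [h, ad_zero hf]
    · right
      rw [h]
  have hsum : z = ∑ j, z * x j := by
    rw [← Finset.mul_sum, hx.sum, mul_one]
  obtain ⟨j, -, hj⟩ : ∃ j ∈ Finset.univ, z * x j ≠ 0 := by
    apply Finset.exists_ne_zero_of_sum_ne_zero
    rw [← hsum]
    exact hz0
  refine ⟨j, ?_⟩
  have h1 : z * x j = x j := (hprim j z hzK hzz).resolve_left hj
  have h2 : x j * z = z := by
    rcases hzprim _ (hx.mem j) (hx.idem j) with h | h
    · exfalso
      apply hj
      rw [hcomm z hzK _ (hx.mem j), h]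
    · exact h
  rw [← h2, hcomm _ (hx.mem j) z hzK, h1]

theorem range_conj (x : Matrix ι ι F) (g : GL ι F) :
    (LinearMap.range x.mulVecLin).map (Matrix.toLin' (g : Matrix ι ι F)) =
      LinearMap.range ((g : Matrix ι ι F) * x * ((g⁻¹ : GL ι F) : Matrix ι ι F)).mulVecLin := by
  apply le_antisymm
  · rintro _ ⟨_, ⟨w, rfl⟩, rfl⟩
    refine ⟨(g : Matrix ι ι F) *ᵥ w, ?_⟩
    simp only [Matrix.mulVecLin_apply, Matrix.toLin'_apply, Matrix.mulVec_mulVec]
    rw [mul_assoc, ← Units.val_mul, inv_mul_cancel, Units.val_one, mul_one]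
  · rintro _ ⟨w, rfl⟩
    refine ⟨x *ᵥ (((g⁻¹ : GL ι F) : Matrix ι ι F) *ᵥ w), ⟨_, rfl⟩, ?_⟩
    simp only [Matrix.toLin'_apply, Matrix.mulVecLin_apply, Matrix.mulVec_mulVec]
    rw [mul_assoc]

/-- A system of self-adjoint idempotents gives a non-degenerate decomposition. -/
theorem sys_selfadj (hf : HF σ ε f) (H : Subgroup (GL ι F)) {K : Set (Matrix ι ι F)} {t : ℕ} {x : Fin t → Matrix ι ι F}
    (hx : IdemSystem H K t x) (hsa : ∀ i, Ad σ f (x i) = x i) :
    ∃ (k : ℕ) (D : Fin t → Submodule F (ι → F)), IsNondegenerateMDecomposition f k D ∧ H ≤ decompositionStabilizer D ∧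
      ∀ i j, ∃ g ∈ H, (D i).map (Matrix.toLin' (g : Matrix ι ι F)) = D j := by
  obtain ⟨m, D, hD, hle, hr⟩ := decomp_of_system H hx
  have hxw : ∀ i, ∀ w ∈ D i, x i *ᵥ w = w := by
    intro i w hw
    rw [hr] at hw
    obtain ⟨a, rfl⟩ := hw
    simp only [Matrix.mulVecLin_apply, Matrix.mulVec_mulVec, hx.idem]
  have hmem : ∀ i (a : ι → F), x i *ᵥ a ∈ D i := by
    intro i a
    rw [hr]
    exact ⟨a, rfl⟩
  refine ⟨m, D, ⟨hD, ?_, ?_⟩, hle, ?_⟩
  · intro i w hw hw0
    constructor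
    · obtain ⟨⟨u, hu⟩, -⟩ := hf.nd w hw0
      refine ⟨x i *ᵥ u, hmem i u, ?_⟩
      rw [ad_spec hf, hsa, hxw i w hw]
      exact hu
    · obtain ⟨-, ⟨v, hv⟩⟩ := hf.nd w hw0
      refine ⟨x i *ᵥ v, hmem i v, ?_⟩
      have h1 := ad_spec hf (x i) w v
      rw [hsa, hxw i w hw] at h1
      rw [← h1]
      exact hv
  · intro i j hij u hu v hv
    rw [← hxw i u hu, ad_spec hf, hsa, ← hxw j v hv, Matrix.mulVec_mulVec, hx.orth i j hij, Matrix.zero_mulVec,
      Sesq_zero_right hf.sesq]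
  · intro i j
    obtain ⟨g, hg, hgx⟩ := hx.trans i j
    refine ⟨g, hg, ?_⟩
    rw [hr, hr, range_conj, hgx]

/-- The main dichotomy for a non-trivial idempotent. -/
theorem idem_false (hf : HF σ ε f) (H : Subgroup (GL ι F)) (hIrr : ActsIrreducibly (matrixSet H))
    (hfix : ∀ g ∈ H, ∀ u v, f ((g : Matrix ι ι F) *ᵥ u) ((g : Matrix ι ι F) *ᵥ v) = f u v)
    (K : Set (Matrix ι ι F))
    (hcomm : ∀ x ∈ K, ∀ y ∈ K, x * y = y * x) (hmul : ∀ x ∈ K, ∀ y ∈ K, x * y ∈ K)
    (hconj : ∀ g ∈ H, ∀ k ∈ K, (g : Matrix ι ι F) * k * ((g⁻¹ : GL ι F) : Matrix ι ι F) ∈ K)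
    (hK : ∀ k ∈ K, Ad σ f k ∈ K)
    (e : Matrix ι ι F) (heK : e ∈ K) (hee : e * e = e) (he0 : e ≠ 0) (he1 : e ≠ 1)
    (hDec : ∀ (t k : ℕ) (D : Fin t → Submodule F (ι → F)), IsNondegenerateMDecomposition f k D →
      H ≤ decompositionStabilizer D → (∀ i j, ∃ g ∈ H, (D i).map (Matrix.toLin' (g : Matrix ι ι F)) = D j) → False)
    (hPair : ∀ (k : ℕ) (D : Fin 2 → Submodule F (ι → F)), IsMDecomposition k D → (∀ i, IsTotallySingularFor f (D i)) →
      H ≤ decompositionStabilizer D → False) : False := by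
  classical
  obtain ⟨t, x, hx, hprim⟩ := exists_prim_system H hIrr K hcomm hmul hconj e heK hee he0 he1
  have hstar := star_perm hf H hcomm hK hx hprim
  choose τ hτ using hstar
  have hxinj : ∀ i j, x i = x j → i = j := by
    intro i j hij
    by_contra hne
    have h := hx.orth i j hne
    rw [hij, hx.idem] at h
    exact hx.ne j h
  have hττ : ∀ i, τ (τ i) = i := by
    intro i
    apply hxinj
    rw [← hτ, ← hτ, ad_ad hf]
  by_cases hall : ∀ i, τ i = i
  · obtain ⟨k, D, hD, hle, htr⟩ := sys_selfadj hf H hx (fun i => by rw [hτ, hall])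
    exact hDec t k D hD hle htr
  push Not at hall
  obtain ⟨i₀, hi₀⟩ := hall
  have hne : ∀ i, τ i ≠ i := by
    intro i hi
    obtain ⟨g, hg, hgx⟩ := hx.trans i i₀
    apply hi₀
    apply hxinj
    rw [← hτ, ← hgx, ad_conj hf g (hfix g hg), hτ, hi]
  let y : Fin t → Matrix ι ι F := fun i => x i + x (τ i)
  have hyy : ∀ i j, y i * y j = 0 ∨ y i * y j = y j := by
    intro i j
    simp only [y, add_mul, mul_add]
    by_cases h1 : i = j
    · subst h1
      right
      rw [hx.idem, hx.idem, hx.orth _ _ (hne i).symm, hx.orth _ _ (hne i)]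
      simp
    by_cases h2 : i = τ j
    · subst h2
      right
      rw [hττ, hx.idem, hx.idem, hx.orth _ _ (hne j), hx.orth _ _ (hne j).symm]
      simp [add_comm]
    left
    have h3 : τ i ≠ j := fun h => h2 (by rw [← h, hττ])
    have h4 : τ i ≠ τ j := fun h => h1 (by rw [← hττ i, h, hττ])
    rw [hx.orth _ _ h1, hx.orth _ _ h2, hx.orth _ _ h3, hx.orth _ _ h4]
    simp
  have hycomm : ∀ i j, x i * x j = x j * x i := fun i j => hcomm _ (hx.mem i) _ (hx.mem j)
  have hyconj : ∀ g ∈ H, ∀ i, ∃ j, (g : Matrix ι ι F) * y i * ((g⁻¹ : GL ι F) : Matrix ι ι F) = y j := by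
    intro g hg i
    obtain ⟨π, hπ⟩ := hx.perm g hg
    refine ⟨π i, ?_⟩
    have h1 : x (π (τ i)) = x (τ (π i)) := by
      rw [← hπ (τ i), ← hτ i, ← hτ (π i), ← hπ i, ad_conj hf g (hfix g hg)]
    simp only [y]
    rw [mul_add, add_mul, hπ, hπ, h1]
  have hyad : ∀ i, Ad σ f (y i) = y i := by
    intro i
    simp only [y]
    rw [ad_add hf, hτ, hτ, hττ, add_comm]
  by_cases hy1 : y i₀ = 1
  · -- a pair of totally singular subspaces
    have ht : t = 2 := by
      have hall2 : ∀ j, j = i₀ ∨ j = τ i₀ := by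
        intro j
        by_contra hcon
        push Not at hcon
        apply hx.ne j
        have := congrArg (fun m => x j * m) hy1
        simp only [y, mul_add, mul_one] at this
        rw [hx.orth _ _ hcon.1, hx.orth _ _ hcon.2, add_zero] at this
        exact this.symm
      have hcard : Fintype.card (Fin t) ≤ 2 := by
        have : (Finset.univ : Finset (Fin t)) ⊆ {i₀, τ i₀} := by
          intro j _
          rcases hall2 j with h | h <;> simp [h]
        calc Fintype.card (Fin t) = (Finset.univ : Finset (Fin t)).card := rfl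
          _ ≤ ({i₀, τ i₀} : Finset (Fin t)).card := Finset.card_le_card this
          _ ≤ 2 := Finset.card_le_two
      have := hx.two
      simp at hcard
      omega
    subst ht
    obtain ⟨m, D, hD, hle, hr⟩ := decomp_of_system H hx
    refine hPair m D hD (fun i => ?_) hle
    rintro u hu v hv
    rw [hr] at hu hv
    obtain ⟨a, rfl⟩ := hu
    obtain ⟨b, rfl⟩ := hv
    simp only [Matrix.mulVecLin_apply]
    rw [ad_spec hf, hτ, Matrix.mulVec_mulVec, hx.orth _ _ (hne i), Matrix.zero_mulVec, Sesq_zero_right hf.sesq]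
  · -- a new system of self-adjoint idempotents
    have hy0 : y i₀ ≠ 0 := by
      intro h0
      have h1 := congrArg (fun m => x i₀ * m) h0
      simp only [y, mul_add, mul_zero] at h1
      rw [hx.idem, hx.orth _ _ (hne i₀).symm, add_zero] at h1
      exact hx.ne i₀ h1
    let K₂ : Set (Matrix ι ι F) := {z | z = 0 ∨ ∃ i, y i = z}
    obtain ⟨t', z, hz⟩ := exists_idemSystem H hIrr K₂
      (by
        rintro _ (rfl | ⟨i, rfl⟩) _ (rfl | ⟨j, rfl⟩)
        · simp
        · simp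
        · simp
        · simp only [y, add_mul, mul_add]
          rw [hycomm i j, hycomm i (τ j), hycomm (τ i) j, hycomm (τ i) (τ j)]
          abel)
      (by
        rintro _ (rfl | ⟨i, rfl⟩) _ (rfl | ⟨j, rfl⟩)
        · left; simp
        · left; simp
        · left; simp
        · rcases hyy i j with h | h
          · left; exact h
          · right; exact ⟨j, h.symm⟩)
      (by
        rintro g hg _ (rfl | ⟨i, rfl⟩)
        · left; simp
        · right
          obtain ⟨j, hj⟩ := hyconj g hg i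
          exact ⟨j, hj.symm⟩)
      (y i₀) (Or.inr ⟨i₀, rfl⟩)
      (by
        rcases hyy i₀ i₀ with h | h
        · exfalso
          apply hy0
          simp only [y, add_mul, mul_add] at h
          rw [hx.idem, hx.idem, hx.orth _ _ (hne i₀).symm, hx.orth _ _ (hne i₀)] at h
          simpa [y] using h
        · exact h) hy0 hy1
    obtain ⟨k, D, hD, hle, htr⟩ := sys_selfadj hf H hz (fun i => by
      rcases hz.mem i with h | ⟨j, h⟩
      · exact absurd h (hz.ne i)
      · rw [← h, hyad])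
    exact hDec t' k D hD hle htr

end Star

end Cfsg.Agent.Lib.AschF.Cliff
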