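import Mathlib
import Cfsg.Agent.Lib.Asch.FieldSub

/-!
# The canonical subfield of prime degree, with its description by powers
-/

set_option autoImplicit false

namespace Cfsg.Agent.Lib.AschF.FieldP

open Matrix Module Cfsg Cfsg.Geo
open Cfsg.Agent.Lib.Asch.FieldSub

universe u

variable {F : Type u} [Field F] [Fintype F] {ι : Type} [Fintype ι] [DecidableEq ι]

/-- A field subalgebra of degree greater than one contains a canonical subfield of prime degree. -/
theorem exists_prime_subalgebra' (p : ℕ) [hp : Fact p.Prime] [CharP F p] [Nonempty ι] {d : ℕ}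
    (K : Subalgebra F (Matrix ι ι F)) (hK : IsFieldSubalgebra d K) (hd : 1 < d) :
    ∃ (r : ℕ) (K₁ : Subalgebra F (Matrix ι ι F)), r.Prime ∧ IsFieldSubalgebra r K₁ ∧ K₁ ≤ K ∧
      (∀ g : GL ι F, (∀ k, k ∈ K ↔ (g : Matrix ι ι F) * k * ((g⁻¹ : GL ι F) : Matrix ι ι F) ∈ K) →
        (∀ k, k ∈ K₁ ↔ (g : Matrix ι ι F) * k * ((g⁻¹ : GL ι F) : Matrix ι ι F) ∈ K₁)) ∧
      ∀ k, k ∈ K₁ ↔ k ∈ K ∧ k ^ (Fintype.card F ^ r) = k := by
  classical
  haveI : CharP (Matrix ι ι F) p := Matrix.charP p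
  obtain ⟨f, -, hf⟩ := FiniteField.card F p
  let r := d.minFac
  have hr : r.Prime := Nat.minFac_prime (by omega)
  obtain ⟨j, hj⟩ : r ∣ d := Nat.minFac_dvd d
  let Q := Fintype.card F ^ r
  have hQ : Q = p ^ ((f : ℕ) * r) := by
    simp only [Q]
    rw [hf, ← pow_mul]
  have hF2 : 2 ≤ Fintype.card F := Fintype.one_lt_card
  have hQ2 : 2 ≤ Q := le_trans hF2 (Nat.le_self_pow hr.ne_zero _)
  have hcomm : ∀ a ∈ K, ∀ b ∈ K, Commute a b := fun a ha b hb => hK.comm a ha b hb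
  let K₁ : Subalgebra F (Matrix ι ι F) :=
    { carrier := {k | k ∈ K ∧ k ^ Q = k}
      mul_mem' := by
        rintro a b ⟨ha, ha'⟩ ⟨hb, hb'⟩
        refine ⟨K.mul_mem ha hb, ?_⟩
        rw [(hcomm a ha b hb).mul_pow, ha', hb']
      add_mem' := by
        rintro a b ⟨ha, ha'⟩ ⟨hb, hb'⟩
        refine ⟨K.add_mem ha hb, ?_⟩
        rw [hQ, add_pow_char_pow_of_commute p _ (hcomm a ha b hb), ← hQ, ha', hb']
      algebraMap_mem' := by
        intro c
        refine ⟨K.algebraMap_mem c, ?_⟩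
        rw [← map_pow]
        congr 1
        exact FiniteField.pow_card_pow r c }
  have hmemK₁ : ∀ k, k ∈ K₁ ↔ k ∈ K ∧ k ^ Q = k := fun k => Iff.rfl
  have hnt : Nontrivial K := inferInstance
  have hKfield : IsField K :=
    { exists_pair_ne := exists_pair_ne K
      mul_comm := fun x y => Subtype.ext (hK.comm _ x.2 _ y.2)
      mul_inv_cancel := by
        intro x hx
        obtain ⟨y, hy, hxy⟩ := hK.inv x.1 x.2 (fun h => hx (Subtype.ext h))
        exact ⟨⟨y, hy⟩, Subtype.ext hxy⟩ }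
  letI : Fintype K := Fintype.ofFinite _
  have hcardK : Fintype.card K = Fintype.card F ^ d := by
    rw [card_eq_pow_finrank (K := F) (V := K), hK.finrank_eq]
  have hdvd : Q - 1 ∣ Fintype.card K - 1 := by
    rw [hcardK, hj, pow_mul]
    have := Nat.sub_dvd_pow_sub_pow Q 1 j
    simpa using this
  have hcount : Nat.card K₁ = Q := by
    letI fld : Field K := hKfield.toField
    have h1 := card_pow_fix (L := K) hQ2 hdvd
    rw [← h1, ← Fintype.card_subtype, ← Nat.card_eq_fintype_card]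
    apply Nat.card_congr
    refine ⟨fun x => ⟨⟨x.1, x.2.1⟩, Subtype.ext x.2.2⟩, fun x => ⟨x.1.1, x.1.2, ?_⟩, ?_, ?_⟩
    · exact congrArg Subtype.val x.2
    · intro x; rfl
    · intro x; rfl
  refine ⟨r, K₁, hr, ⟨?_, ?_, ?_⟩, fun k hk => hk.1, ?_, hmemK₁⟩
  · intro x hx y hy
    exact hK.comm x hx.1 y hy.1
  · rintro x ⟨hxK, hxQ⟩ hx0
    obtain ⟨y, hy, hxy⟩ := hK.inv x hxK hx0
    refine ⟨y, ⟨hy, ?_⟩, hxy⟩
    have hyx : y * x = 1 := by rw [← hK.comm x hxK y hy]; exact hxy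
    have h1 : x * y ^ Q = 1 := by
      have h2 : (x * y) ^ Q = 1 := by rw [hxy, one_pow]
      rw [(hcomm x hxK y hy).mul_pow, hxQ] at h2
      exact h2
    calc y ^ Q = (y * x) * y ^ Q := by rw [hyx, one_mul]
      _ = y * (x * y ^ Q) := mul_assoc _ _ _
      _ = y := by rw [h1, mul_one]
  · letI : Fintype K₁ := Fintype.ofFinite _
    have h1 : Fintype.card K₁ = Fintype.card F ^ finrank F K₁ := card_eq_pow_finrank
    rw [← Nat.card_eq_fintype_card, hcount] at h1
    exact (Nat.pow_right_injective hF2 h1).symm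
  · intro g hg k
    rw [hmemK₁, hmemK₁, ← hg k]
    have hpow : ((g : Matrix ι ι F) * k * ((g⁻¹ : GL ι F) : Matrix ι ι F)) ^ Q =
        (g : Matrix ι ι F) * k ^ Q * ((g⁻¹ : GL ι F) : Matrix ι ι F) := by
      have h2 : ((g⁻¹ : GL ι F) : Matrix ι ι F) = ((g : GL ι F)⁻¹ : (Matrix ι ι F)ˣ).val := rfl
      exact Units.conj_pow g k Q
    rw [hpow]
    constructor
    · rintro ⟨h1, h2⟩
      exact ⟨h1, by rw [h2]⟩
    · rintro ⟨h1, h2⟩
      refine ⟨h1, ?_⟩
      have h3 : (g : Matrix ι ι F) * k ^ Q = (g : Matrix ι ι F) * k := by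
        have := congrArg (fun m => m * (g : Matrix ι ι F)) h2
        simpa [mul_assoc] using this
      exact (Units.mul_right_inj g).1 h3

end Cfsg.Agent.Lib.AschF.FieldP
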