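import Mathlib
import Cfsg.Agent.Lib.AschF.Cliff
import Cfsg.Agent.Lib.Asch.Kr
import Cfsg.Agent.Lib.NotMax.Tensor

/-!
# Invariant forms of absolutely irreducible sets; factorisation of forms on tensor products
-/

set_option autoImplicit false

namespace Cfsg.Agent.Lib.AschF.Inv

open Matrix Module Cfsg Cfsg.Geo
open scoped Kronecker
open Cfsg.Agent.Lib.Asch.Forms Cfsg.Agent.Lib.Asch.Basic Cfsg.Agent.Lib.Asch.Kr
open Cfsg.Agent.Lib.NotMax.Tensor
open Cfsg.Agent.Lib.AschF.Adj

universe u

variable {F : Type u} [Field F]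

section General
variable {κ : Type} [Fintype κ] [DecidableEq κ] {σ : F ≃+* F}

/-- A non-zero form fixed by an absolutely irreducible set of invertible matrices is non-degenerate and reflexive. -/
theorem inv_form_HF (hinv : ∀ a : F, σ (σ a) = a) {A : (κ → F) → (κ → F) → F} (hS : Sesq σ A)
    {R : Set (Matrix κ κ F)} (hR : ActsAbsolutelyIrreducibly R) (hunit : ∀ r ∈ R, IsUnit r)
    (hfix : FixesForm R A) (h0 : ∃ x y, A x y ≠ 0) : ∃ ε₁ : F, ε₁ ≠ 0 ∧ HF σ ε₁ A := by
  classical
  have hsurj : ∀ r ∈ R, ∀ y : κ → F, ∃ z, r *ᵥ z = y := by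
    intro r hr y
    obtain ⟨u, rfl⟩ := hunit r hr
    exact ⟨((u⁻¹ : (Matrix κ κ F)ˣ) : Matrix κ κ F) *ᵥ y, by
      rw [Matrix.mulVec_mulVec, Units.mul_inv, Matrix.one_mulVec]⟩
  -- the left radical
  let L : Submodule F (κ → F) :=
    { carrier := {x | ∀ y, A x y = 0}
      add_mem' := fun {a b} ha hb y => by rw [hS.add_left, ha y, hb y, add_zero]
      zero_mem' := fun y => Sesq_zero_left hS y
      smul_mem' := fun c x hx y => by rw [hS.smul_left, hx y, mul_zero] }
  let Rr : Submodule F (κ → F) :=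
    { carrier := {y | ∀ x, A x y = 0}
      add_mem' := fun {a b} ha hb x => by rw [hS.add_right, ha x, hb x, add_zero]
      zero_mem' := fun x => Sesq_zero_right hS x
      smul_mem' := fun c y hy x => by rw [hS.smul_right, hy x, mul_zero] }
  have hL : L = ⊥ := by
    rcases (irr_iff _).1 hR.1 L (by
      intro r hr x hx y
      obtain ⟨z, rfl⟩ := hsurj r hr y
      rw [hfix r hr]
      exact hx z) with h | h
    · exact h
    · exfalso
      obtain ⟨x, y, hxy⟩ := h0
      have : x ∈ L := by rw [h]; trivial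
      exact hxy (this y)
  have hRr : Rr = ⊥ := by
    rcases (irr_iff _).1 hR.1 Rr (by
      intro r hr y hy x
      obtain ⟨z, rfl⟩ := hsurj r hr x
      rw [hfix r hr]
      exact hy z) with h | h
    · exact h
    · exfalso
      obtain ⟨x, y, hxy⟩ := h0
      have : y ∈ Rr := by rw [h]; trivial
      exact hxy (this x)
  have hnd : IsNondegenerateForm A := by
    intro v hv
    constructor
    · by_contra hcon
      push Not at hcon
      have : v ∈ Rr := hcon
      rw [hRr] at this
      exact hv (by simpa using this)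
    · by_contra hcon
      push Not at hcon
      have : v ∈ L := hcon
      rw [hL] at this
      exact hv (by simpa using this)
  let g : (κ → F) → (κ → F) → F := fun u v => σ (A v u)
  have hg : Sesq σ g := by
    refine ⟨fun x y v => ?_, fun c x v => ?_, fun v x y => ?_, fun c v x => ?_⟩
    · simp only [g, hS.add_right, map_add]
    · simp only [g, hS.smul_right, map_mul, hinv]
    · simp only [g, hS.add_left, map_add]
    · simp only [g, hS.smul_left, map_mul]
  have hfixg : FixesForm R g := fun r hr u v => by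
    simp only [g]
    rw [hfix r hr]
  obtain ⟨c, hc⟩ := forms_proportional hS hg hnd hR hfix hfixg
  have hc0 : c ≠ 0 := by
    rintro rfl
    obtain ⟨x, y, hxy⟩ := h0
    have := hc y x
    simp only [g, zero_mul] at this
    exact hxy ((map_eq_zero σ).1 this)
  refine ⟨c⁻¹, inv_ne_zero hc0, ⟨hS, hnd, fun u v => ?_, hinv⟩⟩
  have := hc v u
  simp only [g] at this
  rw [this]
  field_simp

end General

variable {ι : Type} [Fintype ι] [DecidableEq ι] {σ : F ≃+* F} {ε : F} {f : (ι → F) → (ι → F) → F} {a b : ℕ}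

/-- Factorisation of an invariant form on a tensor product. -/
theorem form_factor [Nonempty ι] (hf : HF σ ε f) (e : ι ≃ Fin a × Fin b) (P : GL ι F)
    {R : Set (Matrix (Fin a) (Fin a) F)} (hR : ActsAbsolutelyIrreducibly R) (hunit : ∀ r ∈ R, IsUnit r)
    (hinv : ∀ r ∈ R, ∀ x x' y y', f (TT e P (r *ᵥ x) y) (TT e P (r *ᵥ x') y') = f (TT e P x y) (TT e P x' y')) :
    ∃ (f₁ : (Fin a → F) → (Fin a → F) → F) (f₂ : (Fin b → F) → (Fin b → F) → F) (ε₁ ε₂ : F),
      HF σ ε₁ f₁ ∧ HF σ ε₂ f₂ ∧ ε₁ * ε₂ = ε ∧ FixesForm R f₁ ∧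
        ∀ x x' y y', f (TT e P x y) (TT e P x' y') = f₁ x x' * f₂ y y' := by
  classical
  have hfS := hf.sesq
  -- a non-zero value
  have hex : ∃ x₀ x₀' y₀ y₀', f (TT e P x₀ y₀) (TT e P x₀' y₀') ≠ 0 := by
    by_contra hcon
    push Not at hcon
    obtain ⟨i⟩ := ‹Nonempty ι›
    have h1 : ∀ w x' y', f w (TT e P x' y') = 0 := by
      intro w x' y'
      refine span_TT e P (fun w => f w (TT e P x' y') = 0) (Sesq_zero_left hfS _) ?_ (fun x y => hcon x x' y y') w
      intro u v hu hv
      rw [hfS.add_left, hu, hv, add_zero]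
    have h2 : ∀ w w', f w w' = 0 := by
      intro w w'
      refine span_TT e P (fun w' => f w w' = 0) (Sesq_zero_right hfS _) ?_ (fun x y => h1 w x y) w'
      intro u v hu hv
      rw [hfS.add_right, hu, hv, add_zero]
    have he : (Pi.single i 1 : ι → F) ≠ 0 := by
      intro h
      have := congrFun h i
      simp at this
    obtain ⟨⟨x, hx⟩, -⟩ := hf.nd _ he
    exact hx (h2 _ _)
  obtain ⟨x₀, x₀', y₀, y₀', h₀⟩ := hex
  set d := f (TT e P x₀ y₀) (TT e P x₀' y₀') with hd
  have hslot : ∀ y y', Sesq σ (fun x x' => f (TT e P x y) (TT e P x' y')) := by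
    intro y y'
    refine ⟨fun u v w => ?_, fun c u w => ?_, fun u v w => ?_, fun c u w => ?_⟩
    · simp only [TT_add_left, hfS.add_left]
    · simp only [TT_smul_left, hfS.smul_left]
    · simp only [TT_add_left, hfS.add_right]
    · simp only [TT_smul_left, hfS.smul_right]
  let f₁ : (Fin a → F) → (Fin a → F) → F := fun x x' => f (TT e P x y₀) (TT e P x' y₀')
  have hf₁S : Sesq σ f₁ := hslot y₀ y₀'
  have hf₁fix : FixesForm R f₁ := fun r hr u v => hinv r hr u v y₀ y₀'
  obtain ⟨ε₁, hε₁, hf₁⟩ := inv_form_HF hf.invol hf₁S hR hunit hf₁fix ⟨x₀, x₀', h₀⟩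
  have hprop : ∀ y y', ∃ κ : F, ∀ x x', f (TT e P x y) (TT e P x' y') = κ * f₁ x x' := fun y y' =>
    forms_proportional hf₁S (hslot y y') hf₁.nd hR hf₁fix (fun r hr u v => hinv r hr u v y y')
  let f₂ : (Fin b → F) → (Fin b → F) → F := fun y y' => f (TT e P x₀ y) (TT e P x₀' y') / d
  have hlaw : ∀ x x' y y', f (TT e P x y) (TT e P x' y') = f₁ x x' * f₂ y y' := by
    intro x x' y y'
    obtain ⟨κ, hκ⟩ := hprop y y'
    simp only [f₂]
    rw [hκ, hκ x₀ x₀']
    have : f₁ x₀ x₀' = d := rfl
    rw [this]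
    field_simp
  have hf₂S : Sesq σ f₂ := by
    refine ⟨fun u v w => ?_, fun c u w => ?_, fun u v w => ?_, fun c u w => ?_⟩
    · simp only [f₂, TT_add_right, hfS.add_left, add_div]
    · simp only [f₂, TT_smul_right, hfS.smul_left, mul_div_assoc]
    · simp only [f₂, TT_add_right, hfS.add_right, add_div]
    · simp only [f₂, TT_smul_right, hfS.smul_right, mul_div_assoc]
  have hx₀ : x₀ ≠ 0 := by
    rintro rfl
    apply h₀
    have := TT_smul_left e P (0 : F) 0 y₀
    simp only [zero_smul] at this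
    rw [hd, this, Sesq_zero_left hfS]
  have hx₀' : x₀' ≠ 0 := by
    rintro rfl
    apply h₀
    have := TT_smul_left e P (0 : F) 0 y₀'
    simp only [zero_smul] at this
    rw [hd, this, Sesq_zero_right hfS]
  have hf₂nd : IsNondegenerateForm f₂ := by
    intro y hy
    constructor
    · by_contra hcon
      push Not at hcon
      have h1 : ∀ w, f w (TT e P x₀' y) = 0 := by
        intro w
        refine span_TT e P (fun w => f w (TT e P x₀' y) = 0) (Sesq_zero_left hfS _) ?_ (fun u v => ?_) w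
        · intro u v hu hv
          rw [hfS.add_left, hu, hv, add_zero]
        · change f (TT e P u v) (TT e P x₀' y) = 0
          rw [hlaw, hcon v, mul_zero]
      exact TT_ne_zero e P hx₀' hy (hf.eq_zero_of_right h1)
    · by_contra hcon
      push Not at hcon
      have h1 : ∀ w, f (TT e P x₀ y) w = 0 := by
        intro w
        refine span_TT e P (fun w => f (TT e P x₀ y) w = 0) (Sesq_zero_right hfS _) ?_ (fun u v => ?_) w
        · intro u v hu hv
          rw [hfS.add_right, hu, hv, add_zero]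
        · change f (TT e P x₀ y) (TT e P u v) = 0
          rw [hlaw, hcon v, mul_zero]
      exact TT_ne_zero e P hx₀ hy (hf.eq_zero_of_left h1)
  have hd1 : f₁ x₀ x₀' ≠ 0 := h₀
  refine ⟨f₁, f₂, ε₁, ε / ε₁, hf₁, ⟨hf₂S, hf₂nd, fun y y' => ?_, hf.invol⟩, by field_simp, hf₁fix, hlaw⟩
  have h1 := hlaw x₀' x₀ y' y
  rw [hf.herm, hlaw, map_mul, hf₁.herm x₀ x₀'] at h1
  have h2 : σ (f₁ x₀ x₀') ≠ 0 := (map_ne_zero σ).2 hd1
  have h3 : ε₁ * σ (f₁ x₀ x₀') * f₂ y' y = σ (f₁ x₀ x₀') * (ε * σ (f₂ y y')) := by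
    rw [← h1]
    ring
  have h4 : ε₁ * f₂ y' y = ε * σ (f₂ y y') := by
    apply mul_left_cancel₀ h2
    linear_combination h3
  field_simp
  linear_combination h4

/-- The law on pure tensors gives the formula of the tensor structure. -/
theorem tensor_structure {σf : F → F} (hσf : ∀ x, σf x = σ x) (hf : HF σ ε f) (e : ι ≃ Fin a × Fin b) (P : GL ι F)
    {f₁ : (Fin a → F) → (Fin a → F) → F} {f₂ : (Fin b → F) → (Fin b → F) → F}
    (hlaw : ∀ x x' y y', f (TT e P x y) (TT e P x' y') = f₁ x x' * f₂ y y') :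
    IsTensorFormStructure σf f f₁ f₂ e P := by
  classical
  refine ⟨1, one_ne_zero, fun x y => ?_⟩
  rw [one_mul]
  have hfS := hf.sesq
  let Φ : (Fin a × Fin b → F) → (Fin a × Fin b → F) → F :=
    fun z z' => f ((P : Matrix ι ι F) *ᵥ (z ∘ e)) ((P : Matrix ι ι F) *ᵥ (z' ∘ e))
  have hΦ := formOfGram_eq σf Φ
    (fun u v w => by
      simp only [Φ]
      have : (u + v) ∘ e = u ∘ e + v ∘ e := rfl
      rw [this, Matrix.mulVec_add, hfS.add_left])
    (fun c u w => by
      simp only [Φ]
      have : (c • u) ∘ e = c • (u ∘ e) := rfl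
      rw [this, Matrix.mulVec_smul, hfS.smul_left])
    (fun u v w => by
      simp only [Φ]
      have : (v + w) ∘ e = v ∘ e + w ∘ e := rfl
      rw [this, Matrix.mulVec_add, hfS.add_right])
    (fun c u w => by
      simp only [Φ]
      have : (c • w) ∘ e = c • (w ∘ e) := rfl
      rw [this, Matrix.mulVec_smul, hfS.smul_right, hσf])
    x y
  have hgram : gramMatrix Φ = gramMatrix f₁ ⊗ₖ gramMatrix f₂ := by
    ext c d
    simp only [gramMatrix, Matrix.kroneckerMap_apply]
    rw [← hlaw]
    simp only [Φ, TT]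
    have hsingle : ∀ c : Fin a × Fin b, (Pi.single c 1 : Fin a × Fin b → F) = pureT (Pi.single c.1 1) (Pi.single c.2 1) := by
      intro c
      funext z
      simp only [pureT, Pi.single_apply]
      by_cases h1 : z.1 = c.1
      · by_cases h2 : z.2 = c.2
        · have : z = c := Prod.ext h1 h2
          simp [this]
        · have : z ≠ c := fun h => h2 (by rw [h])
          simp [this, h2]
      · have : z ≠ c := fun h => h1 (by rw [h])
        simp [this, h1]
    rw [hsingle c, hsingle d]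
  rw [← hgram]
  exact hΦ.symm

end Cfsg.Agent.Lib.AschF.Inv
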