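import Mathlib
import Cfsg.Agent.Lib.AschF.Inv
import Cfsg.Agent.Lib.AschF.FieldP
import Cfsg.Agent.Lib.Asch.H1

/-!
# Normal subgroups of a group of isometries in no class
-/

set_option autoImplicit false

namespace Cfsg.Agent.Lib.AschF.Dich

open Matrix Module Cfsg Cfsg.Geo
open Cfsg.Agent.Lib.Asch.Forms Cfsg.Agent.Lib.Asch.Basic Cfsg.Agent.Lib.Asch.Kr Cfsg.Agent.Lib.Asch.Semi
  Cfsg.Agent.Lib.Asch.TD Cfsg.Agent.Lib.Asch.H1 Cfsg.Agent.Lib.Asch.Idem
open Cfsg.Agent.Lib.NotMax.Tensor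
open Cfsg.Agent.Lib.AschF.Adj Cfsg.Agent.Lib.AschF.Cliff Cfsg.Agent.Lib.AschF.Inv Cfsg.Agent.Lib.AschF.FieldP

universe u

variable {ι : Type} [Fintype ι] [DecidableEq ι] {F : Type u} [Field F] {σ : F ≃+* F} {ε : F}
  {f : (ι → F) → (ι → F) → F}

omit [Fintype ι] in
theorem kr_one_scalar' [Fintype ι] {b : ℕ} (e : ι ≃ Fin 1 × Fin b) (X : Matrix (Fin 1) (Fin 1) F) :
    kr e X 1 = X 0 0 • 1 := by
  ext i j
  rw [kr_apply, Matrix.smul_apply, Matrix.one_apply, Matrix.one_apply, smul_eq_mul, Subsingleton.elim (e i).1 0, Subsingleton.elim (e j).1 0]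
  congr 1
  by_cases hij : i = j
  · subst hij
    simp
  · rw [if_neg hij, if_neg]
    intro h2
    apply hij
    apply e.injective
    exact Prod.ext (Subsingleton.elim _ _) h2

theorem Kc_ad (hf : HF σ ε f) {S : Set (Matrix ι ι F)} (hS : ∀ s ∈ S, Ad σ f s ∈ S) {k : Matrix ι ι F} (hk : k ∈ Kc S) :
    Ad σ f k ∈ Kc S := by
  obtain ⟨hk1, hk2⟩ := mem_Kc.1 hk
  have hCm : ∀ c, (∀ s ∈ S, s * c = c * s) → ∀ s ∈ S, s * Ad σ f c = Ad σ f c * s := by
    intro c hc s hs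
    have h1 := hc _ (hS s hs)
    have h2 := congrArg (Ad σ f) h1
    rw [ad_mul hf, ad_mul hf, ad_ad hf] at h2
    exact h2.symm
  refine mem_Kc.2 ⟨hCm k hk1, fun c hc => ?_⟩
  have h1 := hk2 _ (hCm c hc)
  have h2 := congrArg (Ad σ f) h1
  rw [ad_mul hf, ad_mul hf, ad_ad hf] at h2
  exact h2.symm

variable [Fintype F]

/-- Structures relative to the form that a subgroup in no class does not preserve. -/
structure NoStr (f : (ι → F) → (ι → F) → F) (σ : F ≃+* F) (ε : F) (H : Subgroup (GL ι F)) : Prop where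
  irr : ActsIrreducibly (matrixSet H)
  dec : ∀ (t k : ℕ) (D : Fin t → Submodule F (ι → F)), IsNondegenerateMDecomposition f k D →
      H ≤ decompositionStabilizer D → (∀ i j, ∃ g ∈ H, (D i).map (Matrix.toLin' (g : Matrix ι ι F)) = D j) → False
  pair : ∀ (k : ℕ) (D : Fin 2 → Submodule F (ι → F)), IsMDecomposition k D → (∀ i, IsTotallySingularFor f (D i)) →
      H ≤ decompositionStabilizer D → False
  fld : ∀ (r : ℕ) (K : Subalgebra F (Matrix ι ι F)), r.Prime → IsFieldSubalgebra r K → IsAdjointClosedFor f K →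
      H ≤ subalgebraNormalizer K → False
  ten : ∀ (a b : ℕ) (e : ι ≃ Fin a × Fin b) (P : GL ι F) (f₁ : (Fin a → F) → (Fin a → F) → F)
      (f₂ : (Fin b → F) → (Fin b → F) → F) (ε₁ ε₂ : F), 2 ≤ a → 2 ≤ b → HF σ ε₁ f₁ → HF σ ε₂ f₂ → ε₁ * ε₂ = ε →
      (∀ x x' y y', f (TT e P x y) (TT e P x' y') = f₁ x x' * f₂ y y') →
      (∀ h ∈ H, ∃ (α : GL (Fin a) F) (β : GL (Fin b) F),
        (h : Matrix ι ι F) * (P : Matrix ι ι F) = (P : Matrix ι ι F) * kr e α β) → False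

/-- The main dichotomy for a normal subgroup. -/
theorem normal_dichotomy_form [Nonempty ι] (hf : HF σ ε f) (H : Subgroup (GL ι F))
    (hfix : ∀ g ∈ H, ∀ u v, f ((g : Matrix ι ι F) *ᵥ u) ((g : Matrix ι ι F) *ᵥ v) = f u v) (hNo : NoStr f σ ε H)
    (N : Subgroup (GL ι F)) (hNH : N ≤ H) (hN : ∀ h ∈ H, ∀ x ∈ N, h * x * h⁻¹ ∈ N) :
    N ≤ scalars ι F ∨ ActsAbsolutelyIrreducibly (matrixSet N) := by
  classical
  have hIrr := hNo.irr
  set S := matrixSet N with hS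
  haveI hss : IsSemisimpleModule (AT S) (ι → F) := semisimple_of_irred H N hIrr hN
  have hconj1 : ∀ h ∈ H, ∀ s ∈ S, (h : Matrix ι ι F) * s * ((h⁻¹ : GL ι F) : Matrix ι ι F) ∈ S := by
    rintro h hh _ ⟨x, hx, rfl⟩
    exact ⟨_, hN h hh x hx, by simp [Units.val_mul]⟩
  have hconj2 : ∀ h ∈ H, ∀ s ∈ S, ((h⁻¹ : GL ι F) : Matrix ι ι F) * s * (h : Matrix ι ι F) ∈ S := by
    intro h hh s hs
    have := hconj1 h⁻¹ (H.inv_mem hh) s hs
    rwa [inv_inv] at this
  have hKconj : ∀ h ∈ H, ∀ k ∈ Kc S, (h : Matrix ι ι F) * k * ((h⁻¹ : GL ι F) : Matrix ι ι F) ∈ Kc S :=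
    fun h hh k hk => Kc_conj h (hconj2 h hh) (hconj1 h hh) hk
  have hSad : ∀ s ∈ S, Ad σ f s ∈ S := by
    rintro _ ⟨x, hx, rfl⟩
    exact ⟨x⁻¹, N.inv_mem hx, (ad_isom hf x (hfix x (hNH hx))).symm⟩
  have hKad : ∀ k ∈ Kc S, Ad σ f k ∈ Kc S := fun k hk => Kc_ad hf hSad hk
  by_cases hiso : IsIsotypic (AT S) (ι → F)
  swap
  · obtain ⟨e, heK, hee, he0, he1⟩ := exists_idem_of_not_isotypic hiso
    exact (idem_false hf H hIrr hfix (Kc S : Set (Matrix ι ι F)) (fun a ha b hb => Kc_comm ha hb)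
      (fun a ha b hb => (Kc S).mul_mem ha hb) hKconj hKad e heK hee he0 he1 hNo.dec hNo.pair).elim
  have hfield := Kc_isField hiso
  set d := Module.finrank F (Kc S) with hd
  have hone : (1 : Matrix ι ι F) ≠ 0 := one_ne_zero
  by_cases hd1 : 1 < d
  · obtain ⟨p, hp⟩ := CharP.exists F
    haveI hpp : Fact p.Prime := ⟨CharP.char_is_prime F p⟩
    obtain ⟨r, K₁, hr, hK₁, -, hnorm, hmemK₁⟩ := exists_prime_subalgebra' p (Kc S) hfield hd1
    exfalso
    refine hNo.fld r K₁ hr hK₁ ?_ ?_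
    · intro k hk
      obtain ⟨hk1, hk2⟩ := (hmemK₁ k).1 hk
      refine ⟨Ad σ f k, (hmemK₁ _).2 ⟨hKad k hk1, ?_⟩, fun u v => ad_spec hf k u v⟩
      rw [← ad_pow hf, hk2]
    · intro h hh
      refine hnorm h fun k => ⟨fun hk => hKconj h hh k hk, fun hk => ?_⟩
      have := hKconj h⁻¹ (H.inv_mem hh) _ hk
      rwa [conj_inv_conj] at this
  have hscal : ∀ k ∈ Kc S, ∃ c : F, k = c • 1 := by
    have h1mem : (1 : Kc S) ≠ 0 := by
      intro h
      apply hone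
      have := congrArg (Subtype.val) h
      simpa using this
    have hd' : d = 1 := by
      have hpos : 0 < d := Module.finrank_pos_iff.2 (by
        exact ⟨⟨1, 0, h1mem⟩⟩)
      omega
    intro k hk
    obtain ⟨c, hc⟩ := (finrank_eq_one_iff_of_nonzero' (1 : Kc S) h1mem).1 hd' ⟨k, hk⟩
    refine ⟨c, ?_⟩
    have := congrArg Subtype.val hc
    simpa using this.symm
  obtain ⟨a, b, e, P, ρ, hTD⟩ := exists_TD hiso hscal
  have hPi : ((P⁻¹ : GL ι F) : Matrix ι ι F) * (P : Matrix ι ι F) = 1 := by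
    rw [← Units.val_mul, inv_mul_cancel, Units.val_one]
  have hiP : (P : Matrix ι ι F) * ((P⁻¹ : GL ι F) : Matrix ι ι F) = 1 := by
    rw [← Units.val_mul, mul_inv_cancel, Units.val_one]
  have hcardn : Fintype.card ι = a * b := by
    have := Fintype.card_congr e
    simpa using this
  have hcard0 : Fintype.card ι ≠ 0 := Fintype.card_ne_zero
  have ha0 : a ≠ 0 := by
    rintro rfl
    omega
  have hb0 : b ≠ 0 := by
    rintro rfl
    omega
  by_cases ha1 : a = 1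
  · subst ha1
    left
    intro x hx
    have h1 := hTD.conj _ (mem_matrixSet hx)
    rw [kr_one_scalar', Matrix.mul_smul, mul_one] at h1
    have h2 : (x : Matrix ι ι F) = ρ x 0 0 • 1 := by
      have := congrArg (· * ((P⁻¹ : GL ι F) : Matrix ι ι F)) h1
      simp only [mul_assoc, hiP, mul_one, Matrix.smul_mul] at this
      exact this
    have h3 : ρ x 0 0 ≠ 0 := by
      intro h0
      have h4 : (x : Matrix ι ι F) = 0 := by rw [h2, h0, zero_smul]
      have h5 : IsUnit (x : Matrix ι ι F) := x.isUnit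
      rw [h4] at h5
      exact not_isUnit_zero h5
    rw [mem_scalars_iff]
    exact ⟨Units.mk0 _ h3, h2⟩
  by_cases hb1 : b = 1
  · subst hb1
    right
    let e' : ι ≃ Fin a := e.trans (Equiv.prodUnique (Fin a) (Fin 1))
    refine absIrr_of_conj e' P S ρ (fun s hs => ?_) hTD.abs
    rw [hTD.conj s hs]
    congr 1
    ext i j
    rw [kr_apply, Matrix.submatrix_apply, Subsingleton.elim (e i).2 (e j).2, Matrix.one_apply_eq, mul_one]
    rfl
  -- the tensor decomposition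
  exfalso
  have hmem : ∀ h ∈ H, ∃ (α : GL (Fin a) F) (β : GL (Fin b) F),
      (h : Matrix ι ι F) * (P : Matrix ι ι F) = (P : Matrix ι ι F) * kr e α β := by
    intro h hh
    have hT : IsUnit (((P⁻¹ : GL ι F) : Matrix ι ι F) * (h : Matrix ι ι F) * (P : Matrix ι ι F)).det :=
      Matrix.isUnits_det_units (P⁻¹ * h * P)
    obtain ⟨α, β, hαβ⟩ := exists_kr_of_normalises e _ hT (ρ '' S) hTD.abs (by
      rintro _ ⟨s, hs, rfl⟩
      refine ⟨ρ ((h : Matrix ι ι F) * s * ((h⁻¹ : GL ι F) : Matrix ι ι F)), ?_⟩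
      have h1 := hTD.conj s hs
      have h2 := hTD.conj _ (hconj1 h hh s hs)
      have h3 : kr e (ρ s) 1 = ((P⁻¹ : GL ι F) : Matrix ι ι F) * (s * (P : Matrix ι ι F)) := by
        rw [h1, ← mul_assoc, hPi, one_mul]
      have h4 : kr e (ρ ((h : Matrix ι ι F) * s * ((h⁻¹ : GL ι F) : Matrix ι ι F))) 1 =
          ((P⁻¹ : GL ι F) : Matrix ι ι F) * ((h : Matrix ι ι F) * s * ((h⁻¹ : GL ι F) : Matrix ι ι F) * (P : Matrix ι ι F)) := by
        rw [h2, ← mul_assoc, hPi, one_mul]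
      rw [h3, h4]
      have hih : ((h⁻¹ : GL ι F) : Matrix ι ι F) * (h : Matrix ι ι F) = 1 := by
        rw [← Units.val_mul, inv_mul_cancel, Units.val_one]
      exact conj_aux _ _ _ _ _ hiP hih)
    refine ⟨α, β, ?_⟩
    rw [← hαβ]
    simp only [← mul_assoc, hiP, one_mul]
  have ha2 : 2 ≤ a := by omega
  have hb2 : 2 ≤ b := by omega
  -- the forms
  have hTT : ∀ s ∈ S, ∀ x y, s *ᵥ TT e P x y = TT e P (ρ s *ᵥ x) y := by
    intro s hs x y
    simp only [TT]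
    rw [Matrix.mulVec_mulVec, hTD.conj s hs, ← Matrix.mulVec_mulVec, kr_mulVec, kronecker_mulVec_pure, Matrix.one_mulVec]
  have hunit : ∀ r ∈ ρ '' S, IsUnit r := by
    rintro _ ⟨_, ⟨x, hx, rfl⟩, rfl⟩
    have h1 := hTD.conj _ (mem_matrixSet hx)
    have h3 : kr e (ρ (x : Matrix ι ι F)) 1 = (((P⁻¹ * x * P : GL ι F)) : Matrix ι ι F) := by
      rw [Units.val_mul, Units.val_mul, mul_assoc, h1, ← mul_assoc, hPi, one_mul]
    have h4 : IsUnit (kr e (ρ (x : Matrix ι ι F)) 1).det := by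
      rw [h3]
      exact Matrix.isUnits_det_units _
    rw [det_kr, Matrix.det_one, one_pow, mul_one] at h4
    rw [Matrix.isUnit_iff_isUnit_det]
    exact (isUnit_pow_iff hb0).1 h4
  obtain ⟨f₁, f₂, ε₁, ε₂, hf₁, hf₂, hε, -, hlaw⟩ := form_factor hf e P hTD.abs hunit (by
    rintro _ ⟨s, hs, rfl⟩ x x' y y'
    rw [← hTT s hs, ← hTT s hs]
    obtain ⟨z, hz, rfl⟩ := hs
    exact hfix z (hNH hz) _ _)
  exact hNo.ten a b e P f₁ f₂ ε₁ ε₂ ha2 hb2 hf₁ hf₂ hε hlaw hmem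

end Cfsg.Agent.Lib.AschF.Dich
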