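import Mathlib
import Cfsg.Agent.Lib.Asch.XT

/-!
# Characteristic abelian subgroups of groups of exponent three with central cyclic commutators
-/

set_option autoImplicit false

namespace Cfsg.Agent.Lib.AschF.Exp3

open Matrix Module Cfsg Cfsg.Geo
open Cfsg.Agent.Lib.Asch.SC Cfsg.Agent.Lib.Asch.XT

universe u

section Abstract

variable {G : Type*} [Group G]

theorem pow_eq_of_mod {g : G} (h3 : g ^ 3 = 1) {i j : ℕ} (h : i % 3 = j % 3) : g ^ i = g ^ j := by
  rw [pow_eq_pow_mod i h3, pow_eq_pow_mod j h3, h]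

theorem char_false [Finite G] (h3 : ∀ x : G, x ^ 3 = 1) {a b c : G} (hc : ∀ x, c * x = x * c) (hc1 : c ≠ 1)
    (hab : a * b = c * (b * a)) (hcomm : ∀ x : G, ∃ m : ℕ, m < 3 ∧ x * b = c ^ m * (b * x)) (A : Subgroup G) (hA : A.Characteristic)
    (ha : a ∈ A) (hAc : IsMulCommutative A) : False := by
  classical
  choose m hm hmb using hcomm
  haveI : Fact (Nat.Prime 3) := ⟨Nat.prime_three⟩
  have hc3 := h3 c
  have hb3 := h3 b
  have hord : orderOf c = 3 := orderOf_eq_prime hc3 hc1
  have hinj : ∀ i j : ℕ, c ^ i = c ^ j → i % 3 = j % 3 := by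
    intro i j hij
    rw [← hord]
    exact pow_inj_mod.1 hij
  have hC : ∀ (k : ℕ) (x : G), c ^ k * x = x * c ^ k := by
    intro k x
    exact ((Commute.pow_left (hc x) k)).eq
  have hbpow : ∀ (y : G) (n : ℕ), y * b = c ^ n * (b * y) → ∀ k, y * b ^ k = c ^ (n * k) * (b ^ k * y) := by
    intro y n hy k
    induction k with
    | zero => simp
    | succ k ih =>
      calc y * b ^ (k + 1) = (y * b ^ k) * b := by rw [pow_succ, mul_assoc]
        _ = c ^ (n * k) * (b ^ k * y) * b := by rw [ih]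
        _ = c ^ (n * k) * (b ^ k * (y * b)) := by simp only [mul_assoc]
        _ = c ^ (n * k) * (b ^ k * (c ^ n * (b * y))) := by rw [hy]
        _ = c ^ (n * k) * (c ^ n * (b ^ k * (b * y))) := by
            rw [← mul_assoc (b ^ k), ← hC n (b ^ k), mul_assoc]
        _ = c ^ (n * (k + 1)) * (b ^ (k + 1) * y) := by
            rw [mul_add, mul_one, pow_add, pow_succ b k]
            simp only [mul_assoc]
  have hbpow' : ∀ (y : G) (n : ℕ), y * b = c ^ n * (b * y) → ∀ k, b ^ k * y = c ^ (2 * n * k) * (y * b ^ k) := by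
    intro y n hy k
    rw [hbpow y n hy k, ← mul_assoc, ← pow_add]
    have h5 : 2 * n * k + n * k = 3 * (n * k) := by ring
    rw [h5, pow_mul, hc3, one_pow, one_mul]
  let α : G → G := fun x => x * b ^ m x * c ^ (m x) ^ 2
  have hmul : ∀ x y, (m (x * y)) % 3 = (m x + m y) % 3 := by
    intro x y
    apply hinj
    have h1 : c ^ m (x * y) * (b * (x * y)) = c ^ (m x + m y) * (b * (x * y)) := by
      rw [← hmb]
      calc x * y * b = x * (y * b) := by rw [mul_assoc]
        _ = x * (c ^ m y * (b * y)) := by rw [hmb y]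
        _ = c ^ m y * (x * (b * y)) := by rw [← mul_assoc x, ← hC (m y) x, mul_assoc]
        _ = c ^ m y * ((x * b) * y) := by rw [mul_assoc]
        _ = c ^ m y * ((c ^ m x * (b * x)) * y) := by rw [hmb x]
        _ = c ^ (m x + m y) * (b * (x * y)) := by
            rw [add_comm, pow_add]
            simp only [mul_assoc]
    exact mul_right_cancel h1
  have hαmul : ∀ x y, α (x * y) = α x * α y := by
    intro x y
    simp only [α]
    have h1 : b ^ m (x * y) = b ^ (m x + m y) := pow_eq_of_mod hb3 (hmul x y)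
    have h5 : c ^ (m (x * y)) ^ 2 = c ^ (m x + m y) ^ 2 := by
      apply pow_eq_of_mod hc3
      rw [Nat.pow_mod, hmul x y, ← Nat.pow_mod]
    rw [h1, h5]
    have h6 : (m x + m y) ^ 2 = 2 * m y * m x + ((m y) ^ 2 + (m x) ^ 2) := by ring
    set M := m x with hM
    set N := m y with hN
    symm
    calc x * b ^ M * c ^ M ^ 2 * (y * b ^ N * c ^ N ^ 2) = x * b ^ M * (c ^ M ^ 2 * (y * b ^ N * c ^ N ^ 2)) := mul_assoc _ _ _
      _ = x * b ^ M * ((y * b ^ N * c ^ N ^ 2) * c ^ M ^ 2) := by rw [hC]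
      _ = x * (b ^ M * y) * b ^ N * (c ^ N ^ 2 * c ^ M ^ 2) := by simp only [mul_assoc]
      _ = x * (c ^ (2 * N * M) * (y * b ^ M)) * b ^ N * (c ^ N ^ 2 * c ^ M ^ 2) := by rw [hbpow' y N (hmb y) M]
      _ = x * ((y * b ^ M) * c ^ (2 * N * M)) * b ^ N * (c ^ N ^ 2 * c ^ M ^ 2) := by rw [hC]
      _ = x * y * b ^ M * (c ^ (2 * N * M) * b ^ N) * (c ^ N ^ 2 * c ^ M ^ 2) := by simp only [mul_assoc]
      _ = x * y * b ^ M * (b ^ N * c ^ (2 * N * M)) * (c ^ N ^ 2 * c ^ M ^ 2) := by rw [hC]
      _ = x * y * b ^ (M + N) * c ^ (M + N) ^ 2 := by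
          rw [h6, pow_add, pow_add, pow_add]
          simp only [mul_assoc]
  let φ₀ : G →* G := MonoidHom.mk' α hαmul
  have hφ₀ : ∀ x, φ₀ x = α x := fun _ => rfl
  have hφinj : Function.Injective φ₀ := by
    rw [injective_iff_map_eq_one]
    intro x hx
    rw [hφ₀] at hx
    simp only [α] at hx
    have hy : x * (b ^ m x * c ^ (m x) ^ 2) = 1 := by rw [← hx, mul_assoc]
    have hxe : x = (b ^ m x * c ^ (m x) ^ 2)⁻¹ := eq_inv_of_mul_eq_one_left hy
    have hcy : Commute (b ^ m x * c ^ (m x) ^ 2) b := by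
      refine Commute.mul_left ((Commute.refl b).pow_left _) ?_
      exact hC _ b
    have hcb : x * b = b * x := by
      rw [hxe]
      exact (hcy.inv_left).eq
    have h1 : c ^ m x * (b * x) = c ^ 0 * (b * x) := by
      rw [← hmb, hcb, pow_zero, one_mul]
    have h5 := hinj _ _ (mul_right_cancel h1)
    have h6 : m x = 0 := by
      rw [Nat.mod_eq_of_lt (hm x)] at h5
      exact h5
    rw [h6] at hx
    simpa using hx
  let φ : G ≃* G := MulEquiv.ofBijective φ₀ ⟨hφinj, Finite.injective_iff_surjective.1 hφinj⟩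
  have hφa : α a ∈ A := by
    have h1 := hA.fixed φ
    have h2 : a ∈ A.comap φ.toMonoidHom := by
      rw [h1]
      exact ha
    exact h2
  have hma : m a = 1 := by
    have h1 : c ^ m a * (b * a) = c ^ 1 * (b * a) := by
      rw [← hmb, hab, pow_one]
    have h5 := hinj _ _ (mul_right_cancel h1)
    rw [Nat.mod_eq_of_lt (hm a)] at h5
    exact h5
  have hαa : α a = a * b * c := by
    simp only [α]
    rw [hma]
    simp
  rw [hαa] at hφa
  have hc5 := hAc.is_comm.comm (⟨a, ha⟩ : A) ⟨_, hφa⟩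
  have hc6 : a * (a * b * c) = a * b * c * a := congrArg Subtype.val hc5
  have hc7 : a * b = b * a := by
    have h1 : a * b * c * a = a * (b * a) * c := by
      rw [mul_assoc (a * b), hc a]
      simp only [mul_assoc]
    have h5 : a * (a * b * c) = a * (a * b) * c := by simp only [mul_assoc]
    rw [h1, h5] at hc6
    exact mul_left_cancel (mul_right_cancel hc6)
  rw [hc7] at hab
  apply hc1
  exact (mul_eq_right.1 hab.symm)

end Abstract

section Matrix

variable {ι : Type} [Fintype ι] [DecidableEq ι] {F : Type u} [Field F] [Fintype F]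

/-- Characteristic abelian subgroups are cyclic. -/
theorem cyclic_of_exp3 [Nonempty ι] {R : Subgroup (GL ι F)} (hAb : ActsAbsolutelyIrreducibly (matrixSet R)) (hSC : ScC R)
    (hx : ∀ x ∈ R, x ^ 3 = 1) (A : Subgroup R) (hA : A.Characteristic) (hAc : IsMulCommutative A) : IsCyclic A := by
  classical
  by_cases hall : ∀ t : A, ((t : R) : GL ι F) ∈ scalars ι F
  · exact cyclic_of_scalars (R.subtype.comp A.subtype) (Subtype.val_injective.comp Subtype.val_injective) hall
  exfalso
  push Not at hall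
  obtain ⟨⟨a, ha⟩, hns⟩ := hall
  have hab : ∃ b ∈ R, (a : GL ι F) * b ≠ b * a := by
    by_contra hcon
    push Not at hcon
    exact hns (mem_scalars_of_comm hAb hcon)
  obtain ⟨b, hb, habne⟩ := hab
  have hR3 : ∀ x : R, x ^ 3 = 1 := fun x => Subtype.ext (by simpa using hx x x.2)
  -- commutators as scalars
  have hcm : ∀ x ∈ R, ∃ l : Fˣ, sc l ∈ R ∧ l ^ 3 = 1 ∧ x * b = sc l * (b * x) := by
    intro x hx'
    obtain ⟨c, hc⟩ := hSC x hx' b hb
    have hc0 : c ≠ 0 := by
      rintro rfl
      have h5 : IsUnit ((x : Matrix ι ι F) * (b : Matrix ι ι F)) := (x * b).isUnit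
      rw [hc, zero_smul] at h5
      obtain ⟨i⟩ := ‹Nonempty ι›
      exact not_isUnit_zero (M₀ := Matrix ι ι F) (by
        haveI : Nonempty ι := ⟨i⟩
        exact h5)
    have h1 : x * b = sc (Units.mk0 c hc0) * (b * x) := by
      apply Units.ext
      rw [Units.val_mul, Units.val_mul, Units.val_mul, sc_val, hc, Matrix.smul_mul, one_mul]
      rfl
    have hmem : sc (Units.mk0 c hc0) ∈ R := by
      have : sc (Units.mk0 c hc0) = x * b * x⁻¹ * b⁻¹ := by
        rw [h1]
        have hc' := sc_comm (ι := ι) (Units.mk0 c hc0)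
        group
      rw [this]
      exact R.mul_mem (R.mul_mem (R.mul_mem hx' hb) (R.inv_mem hx')) (R.inv_mem hb)
    refine ⟨_, hmem, ?_, h1⟩
    apply sc_inj (ι := ι)
    rw [map_pow, hx _ hmem, map_one]
  obtain ⟨κ, hκR, hκ3, hκab⟩ := hcm a a.2
  have hκ1 : κ ≠ 1 := by
    rintro rfl
    rw [map_one, one_mul] at hκab
    exact habne hκab
  have hκF : (κ : F) ≠ 1 := fun h => hκ1 (Units.ext h)
  have hκ3F : (κ : F) ^ 3 = 1 := by
    have := congrArg Units.val hκ3
    simpa using this
  have hκ2 : (κ : F) ^ 2 + κ + 1 = 0 := by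
    have h1 : ((κ : F) - 1) * ((κ : F) ^ 2 + κ + 1) = 0 := by linear_combination hκ3F
    exact (mul_eq_zero.1 h1).resolve_left (sub_ne_zero.2 hκF)
  refine char_false (G := R) hR3 (a := a) (b := ⟨b, hb⟩) (c := ⟨sc κ, hκR⟩) ?_ ?_ ?_ ?_ A hA ?_ hAc
  · intro x
    exact Subtype.ext (sc_comm κ x.1)
  · intro h
    apply hκ1
    apply sc_inj (ι := ι)
    rw [map_one]
    exact congrArg Subtype.val h
  · exact Subtype.ext hκab
  · intro x
    obtain ⟨l, hlR, hl3, hxl⟩ := hcm x x.2
    have hl3F : (l : F) ^ 3 = 1 := by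
      have := congrArg Units.val hl3
      simpa using this
    have hfac : ((l : F) - 1) * (((l : F) - κ) * ((l : F) - κ ^ 2)) = 0 := by
      linear_combination hl3F - hκ3F + (-(l : F) ^ 2 + (l : F) * κ) * hκ2
    have hcases : l = 1 ∨ l = κ ∨ l = κ ^ 2 := by
      rcases mul_eq_zero.1 hfac with h | h
      · left
        exact Units.ext (sub_eq_zero.1 h)
      · rcases mul_eq_zero.1 h with h | h
        · right; left
          exact Units.ext (sub_eq_zero.1 h)
        · right; right
          apply Units.ext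
          rw [Units.val_pow_eq_pow_val]
          exact sub_eq_zero.1 h
    rcases hcases with rfl | rfl | rfl
    · exact ⟨0, by norm_num, Subtype.ext (by simpa using hxl)⟩
    · exact ⟨1, by norm_num, Subtype.ext (by simpa using hxl)⟩
    · exact ⟨2, by norm_num, Subtype.ext (by simpa using hxl)⟩
  · exact ha

end Matrix

end Cfsg.Agent.Lib.AschF.Exp3
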