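import Mathlib
import Cfsg.Agent.Lib.AschF.Adj
import Cfsg.Agent.Lib.Asch.H1
import Cfsg.Agent.Lib.Asch.FStep
import Cfsg.Agent.Lib.Asch.FieldSub
import Cfsg.Agent.Lib.Geo.RatStruct

/-!
# Subfield structures relative to a form
-/

set_option autoImplicit false

namespace Cfsg.Agent.Lib.AschF.Sub

open Matrix Module Cfsg Cfsg.Geo
open Cfsg.Agent.Lib.Asch.Forms Cfsg.Agent.Lib.Asch.Cl Cfsg.Agent.Lib.Asch.FieldSub Cfsg.Agent.Lib.Geo.RatStruct
open Cfsg.Agent.Lib.AschF.Adj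

universe u

variable {ι : Type} [Fintype ι] [DecidableEq ι] {F : Type u} [Field F] [Fintype F]

/-- A group normalising an absolutely irreducible group realisable over a proper subfield lies in a subfield group
for a maximal subfield. -/
theorem subfield_mem [Nonempty ι] (H P₀ : Subgroup (GL ι F))
    (hA : ActsAbsolutelyIrreducibly (matrixSet P₀)) (hN : ∀ h ∈ H, ∀ x ∈ P₀, h * x * h⁻¹ ∈ P₀)
    (F₀ : Subfield F) (hF₀ : F₀ ≠ ⊤) (hR : RealisableOver F₀ (matrixSet P₀)) :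
    ∃ (B : GL ι F) (F₁ : Subfield F) (p s k : ℕ), p.Prime ∧ CharP F p ∧ F₀ ≤ F₁ ∧ s.Prime ∧
      Fintype.card F = Nat.card F₁ ^ s ∧ (∀ x, x ∈ F₁ ↔ x ^ p ^ k = x) ∧ H ≤ subfieldSubgroup F₁ B⁻¹ ∧
      ∀ x ∈ P₀, ∀ i j, ((B : Matrix ι ι F) * (x : Matrix ι ι F) * ((B⁻¹ : GL ι F) : Matrix ι ι F)) i j ∈ F₁ := by
  classical
  obtain ⟨p, hp⟩ := CharP.exists F
  haveI hpp : Fact p.Prime := ⟨CharP.char_is_prime F p⟩
  obtain ⟨B, hB⟩ := hR
  obtain ⟨F₁, s, k, hF₀₁, hs, hcard, -, hF₁⟩ := exists_max_subfield p F₀ hF₀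
  refine ⟨B, F₁, p, s, k, hpp.out, hp, hF₀₁, hs, hcard, hF₁, fun h hh => ?_, fun x hx i j => hF₀₁ (hB _ ⟨x, hx, rfl⟩ i j)⟩
  rw [mem_subfield_iff, inv_inv]
  -- notation
  set A : GL (ι) F := B * h * B⁻¹ with hA'
  let τ : Matrix (ι) (ι) F →+* Matrix (ι) (ι) F := (iterateFrobenius F p k).mapMatrix
  have hτa : ∀ X i j, τ X i j = (X i j) ^ p ^ k := by
    intro X i j
    simp [τ, iterateFrobenius_def]
  have hτfix : ∀ X, (∀ i j, X i j ∈ F₀) → τ X = X := by
    intro X hX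
    ext i j
    rw [hτa]
    exact (hF₁ _).1 (hF₀₁ (hX i j))
  have hBi : ((B⁻¹ : GL (ι) F) : Matrix (ι) (ι) F) * (B : Matrix (ι) (ι) F) = 1 := by
    rw [← Units.val_mul, inv_mul_cancel, Units.val_one]
  have hiB : (B : Matrix (ι) (ι) F) * ((B⁻¹ : GL (ι) F) : Matrix (ι) (ι) F) = 1 := by
    rw [← Units.val_mul, mul_inv_cancel, Units.val_one]
  have hAi : ((A⁻¹ : GL (ι) F) : Matrix (ι) (ι) F) * (A : Matrix (ι) (ι) F) = 1 := by
    rw [← Units.val_mul, inv_mul_cancel, Units.val_one]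
  have hiA : (A : Matrix (ι) (ι) F) * ((A⁻¹ : GL (ι) F) : Matrix (ι) (ι) F) = 1 := by
    rw [← Units.val_mul, mul_inv_cancel, Units.val_one]
  set T : Matrix (ι) (ι) F := (A : Matrix (ι) (ι) F) with hT
  set Ti : Matrix (ι) (ι) F := ((A⁻¹ : GL (ι) F) : Matrix (ι) (ι) F) with hTi
  have hτi : τ Ti * τ T = 1 := by
    rw [← map_mul, hAi, map_one]
  -- the commuting element
  let C : Matrix (ι) (ι) F := Ti * τ T
  have hCcomm : ∀ x ∈ P₀, ∀ Y : Matrix (ι) (ι) F,
      Y = (B : Matrix (ι) (ι) F) * (x : Matrix (ι) (ι) F) * ((B⁻¹ : GL (ι) F) : Matrix (ι) (ι) F) →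
      C * Y = Y * C := by
    intro x hx Y hY
    have hY1 : τ Y = Y := by
      apply hτfix
      rw [hY]
      exact hB _ ⟨x, hx, rfl⟩
    have hx' := hN h hh x hx
    have hY2 : τ (T * Y * Ti) = T * Y * Ti := by
      apply hτfix
      have h1 := hB _ ⟨h * x * h⁻¹, hx', rfl⟩
      have h2 : T * Y * Ti = (B : Matrix (ι) (ι) F) * ((h * x * h⁻¹ : GL (ι) F) : Matrix (ι) (ι) F) * ((B⁻¹ : GL (ι) F) : Matrix (ι) (ι) F) := by
        rw [hY, hT, hTi, hA']
        simp only [Units.val_mul, _root_.mul_inv_rev, inv_inv, mul_assoc]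
        rw [← mul_assoc ((B⁻¹ : GL (ι) F) : Matrix (ι) (ι) F), hBi, one_mul]
        rw [← mul_assoc ((B⁻¹ : GL (ι) F) : Matrix (ι) (ι) F), hBi, one_mul]
      rw [h2]
      exact h1
    have h3 : τ T * Y * τ Ti = T * Y * Ti := by
      rw [map_mul, map_mul, hY1] at hY2
      exact hY2
    calc C * Y = Ti * (τ T * Y * τ Ti) * τ T := by
          simp only [C, mul_assoc]
          rw [hτi, mul_one]
      _ = Ti * (T * Y * Ti) * τ T := by rw [h3]
      _ = Y * C := by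
          simp only [C, ← mul_assoc]
          rw [hAi, one_mul]
  -- so it is scalar
  obtain ⟨c, hc⟩ := hA.2 (((B⁻¹ : GL (ι) F) : Matrix (ι) (ι) F) * C * (B : Matrix (ι) (ι) F)) (by
    rintro _ ⟨x, hx, rfl⟩
    have h1 := hCcomm x hx _ rfl
    calc ((B⁻¹ : GL (ι) F) : Matrix (ι) (ι) F) * C * (B : Matrix (ι) (ι) F) * (x : Matrix (ι) (ι) F)
        = ((B⁻¹ : GL (ι) F) : Matrix (ι) (ι) F) * (C * ((B : Matrix (ι) (ι) F) * (x : Matrix (ι) (ι) F) * ((B⁻¹ : GL (ι) F) : Matrix (ι) (ι) F))) * (B : Matrix (ι) (ι) F) := by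
          simp only [mul_assoc]
          rw [hBi, mul_one]
      _ = ((B⁻¹ : GL (ι) F) : Matrix (ι) (ι) F) * (((B : Matrix (ι) (ι) F) * (x : Matrix (ι) (ι) F) * ((B⁻¹ : GL (ι) F) : Matrix (ι) (ι) F)) * C) * (B : Matrix (ι) (ι) F) := by rw [h1]
      _ = (x : Matrix (ι) (ι) F) * (((B⁻¹ : GL (ι) F) : Matrix (ι) (ι) F) * C * (B : Matrix (ι) (ι) F)) := by
          simp only [← mul_assoc]
          rw [hBi, one_mul])
  have hC : C = c • 1 := by
    calc C = (B : Matrix (ι) (ι) F) * (((B⁻¹ : GL (ι) F) : Matrix (ι) (ι) F) * C * (B : Matrix (ι) (ι) F)) * ((B⁻¹ : GL (ι) F) : Matrix (ι) (ι) F) := by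
          simp only [← mul_assoc]
          rw [hiB, one_mul, mul_assoc, hiB, mul_one]
      _ = c • 1 := by
          rw [hc, Matrix.mul_smul, Matrix.smul_mul, mul_one, hiB]
  have hτT : τ T = c • T := by
    calc τ T = T * C := by simp only [C]; rw [← mul_assoc, hiA, one_mul]
      _ = c • T := by rw [hC, Matrix.mul_smul, mul_one]
  -- a non-zero entry
  have hT0 : T ≠ 0 := by
    intro h0
    have h5 : IsUnit T := A.isUnit
    rw [h0] at h5
    exact not_isUnit_zero h5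
  obtain ⟨i₀, j₀, hd⟩ : ∃ i j, T i j ≠ 0 := by
    by_contra hcon
    push Not at hcon
    exact hT0 (Matrix.ext hcon)
  set d := T i₀ j₀ with hd'
  have hτd : d ^ p ^ k = c * d := by
    have := congrFun (congrFun hτT i₀) j₀
    rw [hτa, Matrix.smul_apply, smul_eq_mul] at this
    exact this
  have hc0 : c ≠ 0 := by
    rintro rfl
    rw [zero_mul] at hτd
    exact hd (pow_eq_zero_iff (pow_ne_zero _ hpp.out.ne_zero) |>.1 hτd)
  -- scaling
  let Z : GL (ι) F := (Units.map (Matrix.scalar (ι) : F →+* Matrix (ι) (ι) F).toMonoidHom) (Units.mk0 d hd)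
  have hZ : Z ∈ scalars (ι) F := ⟨_, rfl⟩
  have hZv : ((Z⁻¹ : GL (ι) F) : Matrix (ι) (ι) F) = d⁻¹ • 1 := by
    have h7 : ((Z⁻¹ : GL (ι) F) : Matrix (ι) (ι) F) = (Matrix.scalar (ι) (d⁻¹ : F)) := by
      simp [Z, ← map_inv]
    rw [h7, Matrix.smul_one_eq_diagonal]
    rfl
  have hrange : Z⁻¹ * A ∈ (Matrix.GeneralLinearGroup.map (F₁.subtype : F₁ →+* F)).range := by
    apply mem_range_of_entries
    intro i j
    rw [Units.val_mul, hZv, Matrix.smul_mul, one_mul, Matrix.smul_apply, smul_eq_mul, hF₁, mul_pow]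
    have h8 : (T i j) ^ p ^ k = c * T i j := by
      have := congrFun (congrFun hτT i) j
      rw [hτa, Matrix.smul_apply, smul_eq_mul] at this
      exact this
    change (d⁻¹) ^ p ^ k * (T i j) ^ p ^ k = d⁻¹ * T i j
    rw [h8, inv_pow, hτd]
    field_simp
  have hfin : A = Z * (Z⁻¹ * A) := by simp
  rw [hfin]
  exact Subgroup.mul_mem _ (Subgroup.mem_sup_right hZ) (Subgroup.mem_sup_left hrange)


/-- A fixed form is proportional to a form rational over the subfield. -/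
theorem rational_zeta {σ : F ≃+* F} {f : (ι → F) → (ι → F) → F} (hf : Sesq σ f) (hnd : IsNondegenerateForm f) [Nonempty ι]
    {P₀ : Subgroup (GL ι F)} (hA : ActsAbsolutelyIrreducibly (matrixSet P₀)) (hfix : FixesForm (matrixSet P₀) f)
    (B : GL ι F) (F₁ : Subfield F) (p k : ℕ) [Fact p.Prime] [CharP F p] (hF₁ : ∀ x, x ∈ F₁ ↔ x ^ p ^ k = x)
    (hB : ∀ x ∈ P₀, ∀ i j, ((B : Matrix ι ι F) * (x : Matrix ι ι F) * ((B⁻¹ : GL ι F) : Matrix ι ι F)) i j ∈ F₁) :
    ∃ ζ : F, ζ ≠ 0 ∧ IsFormRationalStructure f F₁ ζ B⁻¹ := by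
  classical
  let τ : F ≃+* F := Cfsg.Agent.Lib.Asch.FStep.frob p k
  have hτ : ∀ a, τ a = a ^ p ^ k := Cfsg.Agent.Lib.Asch.FStep.frob_apply p k
  have hτσ : ∀ a, τ (σ a) = σ (τ a) := by
    intro a
    rw [hτ, hτ, map_pow]
  have hτF : ∀ a, a ∈ F₁ ↔ τ a = a := by
    intro a
    rw [hF₁, hτ]
  have hτσs : ∀ a, τ.symm (σ a) = σ (τ.symm a) := by
    intro a
    apply τ.injective
    rw [RingEquiv.apply_symm_apply, hτσ, RingEquiv.apply_symm_apply]
  let Bi : Matrix ι ι F := ((B⁻¹ : GL ι F) : Matrix ι ι F)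
  let f' : (ι → F) → (ι → F) → F := fun u v => f (Bi *ᵥ u) (Bi *ᵥ v)
  let S' : Set (Matrix ι ι F) := (fun x : GL ι F => (B : Matrix ι ι F) * (x : Matrix ι ι F) * Bi) '' (P₀ : Set (GL ι F))
  have hBi : Bi * (B : Matrix ι ι F) = 1 := by
    simp only [Bi]
    rw [← Units.val_mul, inv_mul_cancel, Units.val_one]
  have hiB : (B : Matrix ι ι F) * Bi = 1 := by
    simp only [Bi]
    rw [← Units.val_mul, mul_inv_cancel, Units.val_one]
  have hf' : Sesq σ f' := by
    refine ⟨fun x y v => ?_, fun c x v => ?_, fun v x y => ?_, fun c v x => ?_⟩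
    · simp only [f', Matrix.mulVec_add, hf.add_left]
    · simp only [f', Matrix.mulVec_smul, hf.smul_left]
    · simp only [f', Matrix.mulVec_add, hf.add_right]
    · simp only [f', Matrix.mulVec_smul, hf.smul_right]
  have hBiinj : ∀ v, Bi *ᵥ v = 0 → v = 0 := by
    intro v hv
    have := congrArg (fun w => (B : Matrix ι ι F) *ᵥ w) hv
    simpa [Matrix.mulVec_mulVec, hiB] using this
  have hnd' : IsNondegenerateForm f' := by
    intro v hv
    have hv' : Bi *ᵥ v ≠ 0 := fun h => hv (hBiinj v h)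
    obtain ⟨⟨x, hx⟩, ⟨y, hy⟩⟩ := hnd _ hv'
    refine ⟨⟨(B : Matrix ι ι F) *ᵥ x, ?_⟩, ⟨(B : Matrix ι ι F) *ᵥ y, ?_⟩⟩
    · simpa [f', Matrix.mulVec_mulVec, hBi] using hx
    · simpa [f', Matrix.mulVec_mulVec, hBi] using hy
  have hAS' : ActsAbsolutelyIrreducibly S' := by
    refine Cfsg.Agent.Lib.Asch.H1.absIrr_of_conj (Equiv.refl ι) B S' (fun s => Bi * s * (B : Matrix ι ι F)) ?_ ?_
    · rintro s -
      simp only [Equiv.coe_refl, Matrix.submatrix_id_id]
      simp only [← mul_assoc, hiB, one_mul]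
    · have : (fun s => Bi * s * (B : Matrix ι ι F)) '' S' = matrixSet P₀ := by
        ext s
        constructor
        · rintro ⟨_, ⟨x, hx, rfl⟩, rfl⟩
          refine ⟨x, hx, ?_⟩
          simp only [← mul_assoc, hBi, one_mul]
          rw [mul_assoc, hBi, mul_one]
        · rintro ⟨x, hx, rfl⟩
          refine ⟨_, ⟨x, hx, rfl⟩, ?_⟩
          simp only [← mul_assoc, hBi, one_mul]
          rw [mul_assoc, hBi, mul_one]
      rw [this]
      exact hA
  have hfix' : FixesForm S' f' := by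
    rintro _ ⟨x, hx, rfl⟩ u v
    simp only [f', Matrix.mulVec_mulVec]
    have h1 : Bi * ((B : Matrix ι ι F) * (x : Matrix ι ι F) * Bi) = (x : Matrix ι ι F) * Bi := by
      rw [← mul_assoc, ← mul_assoc, hBi, one_mul]
    rw [h1, ← Matrix.mulVec_mulVec, ← Matrix.mulVec_mulVec]
    exact hfix _ ⟨x, hx, rfl⟩ _ _
  -- the Frobenius twist of the form
  let tw : (ι → F) → (ι → F) := fun u => τ.symm ∘ u
  have htw_add : ∀ u v, tw (u + v) = tw u + tw v := by
    intro u v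
    funext i
    simp [tw]
  have htw_smul : ∀ (c : F) u, tw (c • u) = τ.symm c • tw u := by
    intro c u
    funext i
    simp [tw]
  let G : (ι → F) → (ι → F) → F := fun u v => τ (f' (tw u) (tw v))
  have hG : Sesq σ G := by
    refine ⟨fun x y v => ?_, fun c x v => ?_, fun v x y => ?_, fun c v x => ?_⟩
    · simp only [G, htw_add, hf'.add_left, map_add]
    · simp only [G, htw_smul, hf'.smul_left, map_mul, RingEquiv.apply_symm_apply]
    · simp only [G, htw_add, hf'.add_right, map_add]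
    · simp only [G, htw_smul, hf'.smul_right, map_mul, hτσ, RingEquiv.apply_symm_apply]
  have hS'ent : ∀ s ∈ S', ∀ i j, τ (s i j) = s i j := by
    rintro _ ⟨x, hx, rfl⟩ i j
    exact (hτF _).1 (hB x hx i j)
  have htw_mul : ∀ s ∈ S', ∀ u, tw (s *ᵥ u) = s *ᵥ tw u := by
    intro s hs u
    funext i
    simp only [tw, Function.comp_apply, Matrix.mulVec, dotProduct, map_sum, map_mul]
    refine Finset.sum_congr rfl fun j _ => ?_
    congr 1
    apply τ.injective
    rw [RingEquiv.apply_symm_apply, hS'ent s hs]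
  have hfixG : FixesForm S' G := by
    intro s hs u v
    simp only [G]
    rw [htw_mul s hs, htw_mul s hs, hfix' s hs]
  obtain ⟨c, hc⟩ := forms_proportional hf' hG hnd' hAS' hfix' hfixG
  -- a non-zero Gram entry
  have hgram : ∃ i j, f' (Pi.single i 1) (Pi.single j 1) ≠ 0 := by
    by_contra hcon
    push Not at hcon
    obtain ⟨i₀⟩ := ‹Nonempty ι›
    have hv : (Pi.single i₀ 1 : ι → F) ≠ 0 := by
      intro h0
      have := congrFun h0 i₀
      simp at this
    obtain ⟨⟨x, hx⟩, -⟩ := hnd' _ hv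
    apply hx
    rw [eq_gram hf']
    have : gram f' = 0 := by
      ext i j
      rw [Matrix.zero_apply]
      exact hcon i j
    rw [this]
    simp
  obtain ⟨i₀, j₀, h0⟩ := hgram
  refine ⟨(f' (Pi.single i₀ 1) (Pi.single j₀ 1))⁻¹, inv_ne_zero h0, ?_⟩
  have htwR : ∀ u : ι → F, (∀ i, u i ∈ F₁) → tw u = u := by
    intro u hu
    funext i
    simp only [tw, Function.comp_apply]
    apply τ.injective
    rw [RingEquiv.apply_symm_apply]
    exact ((hτF _).1 (hu i)).symm ▸ rfl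
  have htwS : ∀ i : ι, tw (Pi.single i 1) = Pi.single i 1 := fun i => htwR _ (isRat_single i)
  have hc0 : τ (f' (Pi.single i₀ 1) (Pi.single j₀ 1)) = c * f' (Pi.single i₀ 1) (Pi.single j₀ 1) := by
    have := hc (Pi.single i₀ 1) (Pi.single j₀ 1)
    simpa only [G, htwS] using this
  intro u v hu hv
  rw [hτF]
  have h1 : τ (f' u v) = c * f' u v := by
    have := hc u v
    simpa only [G, htwR u hu, htwR v hv] using this
  change τ ((f' (Pi.single i₀ 1) (Pi.single j₀ 1))⁻¹ * f' u v) = (f' (Pi.single i₀ 1) (Pi.single j₀ 1))⁻¹ * f' u v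
  rw [map_mul, map_inv₀, h1, hc0]
  have hcne : c ≠ 0 := by
    intro h
    rw [h, zero_mul] at hc0
    exact h0 (τ.injective (by rw [hc0, map_zero]))
  field_simp

/-- Entries in a subfield give a determinant in the subfield. -/
theorem det_mem_of_entries (F₁ : Subfield F) (A : Matrix ι ι F) (hA : ∀ i j, A i j ∈ F₁) : A.det ∈ F₁ := by
  rw [Matrix.det_apply]
  refine F₁.sum_mem fun τ _ => ?_
  rw [Units.smul_def, zsmul_eq_mul]
  refine F₁.mul_mem ?_ (F₁.prod_mem fun i _ => hA _ _)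
  rcases Int.units_eq_one_or (Equiv.Perm.sign τ) with h | h <;> rw [h]
  · simpa using F₁.one_mem
  · simpa using F₁.neg_mem F₁.one_mem

/-- Changing the basis matrix by a scalar does not change the subfield group. -/
theorem subfield_scale (F₁ : Subfield F) (P : GL ι F) (l : F) (hl : l ≠ 0) {g : GL ι F} (hg : g ∈ subfieldSubgroup F₁ P)
    (P' : GL ι F) (hP' : (P' : Matrix ι ι F) = l • (P : Matrix ι ι F)) : g ∈ subfieldSubgroup F₁ P' := by
  rw [mem_subfield_iff] at hg ⊢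
  have : P'⁻¹ * g * P' = P⁻¹ * g * P := by
    have hP2 : P' = P * Matrix.GeneralLinearGroup.scalar ι (Units.mk0 l hl) := by
      ext1
      rw [Units.val_mul, hP']
      ext i j
      simp [Matrix.GeneralLinearGroup.scalar, Matrix.mul_apply, Matrix.diagonal_apply, mul_comm]
    have hcen : ∀ x : GL ι F, x * Matrix.GeneralLinearGroup.scalar ι (Units.mk0 l hl) = Matrix.GeneralLinearGroup.scalar ι (Units.mk0 l hl) * x := by
      intro x
      ext1
      ext i j
      simp [Matrix.GeneralLinearGroup.scalar, Matrix.mul_apply, Matrix.diagonal_apply, mul_comm]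
    obtain ⟨sc, hsc⟩ : ∃ sc, sc = Matrix.GeneralLinearGroup.scalar ι (Units.mk0 l hl) := ⟨_, rfl⟩
    rw [← hsc] at hP2 hcen
    rw [hP2]
    calc (P * sc)⁻¹ * g * (P * sc) = sc⁻¹ * (P⁻¹ * g * P * sc) := by group
      _ = sc⁻¹ * (sc * (P⁻¹ * g * P)) := by rw [hcen]
      _ = P⁻¹ * g * P := by group
  rw [this]
  exact hg

end Cfsg.Agent.Lib.AschF.Sub
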