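import Mathlib
import Cfsg.Agent.Lib.AschF.Sub
import Cfsg.Agent.Lib.Geo.QForm

/-!
# Rational structures carrying a quadratic form in odd dimension
-/

set_option autoImplicit false

namespace Cfsg.Agent.Lib.AschF.QuadR

open Matrix Module Cfsg Cfsg.Geo
open Cfsg.Agent.Lib.Asch.Forms Cfsg.Agent.Lib.AschF.Adj Cfsg.Agent.Lib.AschF.Sub Cfsg.Agent.Lib.Geo.RatStruct
open Cfsg.Agent.Lib.Geo.QForm (pol pol_self)

universe u

variable {ι : Type} [Fintype ι] [DecidableEq ι] {F : Type u} [Field F] [Fintype F]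

theorem ringChar_ne_two (h2 : (2 : F) ≠ 0) : ringChar F ≠ 2 := by
  intro h
  apply h2
  haveI : CharP F 2 := by rw [← h]; exact ringChar.charP F
  exact CharTwo.two_eq_zero

/-- The order of a subfield when `2` is invertible. -/
theorem card_sub_odd (h2 : (2 : F) ≠ 0) (F₁ : Subfield F) : Odd (Nat.card F₁) := by
  classical
  letI : Fintype F₁ := Fintype.ofFinite _
  rw [Nat.card_eq_fintype_card]
  have h2' : (2 : F₁) ≠ 0 := by
    intro h
    apply h2
    have h3 : (1 + 1 : F₁) = 0 := by rw [one_add_one_eq_two]; exact h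
    have h4 := congrArg Subtype.val h3
    change (1 : F) + 1 = 0 at h4
    rwa [one_add_one_eq_two] at h4
  exact Nat.odd_iff.2 (FiniteField.odd_card_of_char_ne_two (ringChar_ne_two h2'))

theorem sub_pow_card_sub_one (F₁ : Subfield F) {x : F} (hx : x ∈ F₁) (hx0 : x ≠ 0) : x ^ (Nat.card F₁ - 1) = 1 := by
  classical
  letI : Fintype F₁ := Fintype.ofFinite _
  rw [Nat.card_eq_fintype_card]
  have h0 : (⟨x, hx⟩ : F₁) ≠ 0 := fun h => hx0 (congrArg Subtype.val h)
  have := FiniteField.pow_card_sub_one_eq_one (⟨x, hx⟩ : F₁) h0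
  have h2 := congrArg Subtype.val this
  simpa using h2

/-- Every element of a subfield of index two is a square. -/
theorem isSquare_of_mem_index_two (h2 : (2 : F) ≠ 0) (F₁ : Subfield F) (hcard : Fintype.card F = Nat.card F₁ ^ 2)
    {x : F} (hx : x ∈ F₁) : IsSquare x := by
  by_cases hx0 : x = 0
  · rw [hx0]
    exact IsSquare.zero
  obtain ⟨t, ht⟩ := card_sub_odd h2 F₁
  rw [FiniteField.isSquare_iff (ringChar_ne_two h2) hx0, hcard, ht]
  have h1 : (2 * t + 1) ^ 2 / 2 = (2 * t) * (t + 1) := by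
    have : (2 * t + 1) ^ 2 = 2 * ((2 * t) * (t + 1)) + 1 := by ring
    omega
  rw [h1, pow_mul]
  have h3 := sub_pow_card_sub_one F₁ hx hx0
  rw [ht, Nat.add_sub_cancel] at h3
  rw [h3, one_pow]

/-- A subfield of odd index contains an element which is not a square in the field. -/
theorem exists_nonsquare_of_odd_index (h2 : (2 : F) ≠ 0) (F₁ : Subfield F) {s : ℕ} (hs : Odd s)
    (hcard : Fintype.card F = Nat.card F₁ ^ s) : ∃ a ∈ F₁, a ≠ 0 ∧ ¬ IsSquare a := by
  classical
  letI : Fintype F₁ := Fintype.ofFinite _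
  obtain ⟨t, ht⟩ := card_sub_odd h2 F₁
  obtain ⟨g, hg⟩ := IsCyclic.exists_generator (α := F₁ˣ)
  have hord : orderOf g = 2 * t := by
    rw [orderOf_eq_card_of_forall_mem_zpowers hg, Nat.card_eq_fintype_card, Fintype.card_units, ← Nat.card_eq_fintype_card, ht]
    simp
  have ht0 : 0 < t := by
    by_contra h
    have : t = 0 := by omega
    rw [this] at ht
    have h1 : Nat.card F₁ = 1 := by simpa using ht
    have h3 : 1 < Nat.card F₁ := Finite.one_lt_card
    omega
  have hne : g ^ t ≠ 1 := pow_ne_one_of_lt_orderOf (by omega) (by omega)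
  have hsq : (g ^ t) ^ 2 = 1 := by
    rw [← pow_mul, mul_comm, ← hord, pow_orderOf_eq_one]
  let a : F := ((g : F₁) : F)
  have haF : a ∈ F₁ := (g : F₁).2
  have ha0 : a ≠ 0 := by
    intro h
    have h1 : (g : F₁) = 0 := Subtype.ext h
    exact g.ne_zero h1
  have hat : a ^ t = -1 := by
    have h1 : a ^ t = (((g ^ t : F₁ˣ) : F₁) : F) := by simp [a]
    have h3 : (a ^ t) ^ 2 = 1 := by
      rw [h1]
      have := congrArg (fun u : F₁ˣ => ((u : F₁) : F)) hsq
      simpa using this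
    have h4 : a ^ t ≠ 1 := by
      rw [h1]
      intro h5
      apply hne
      ext
      simpa using h5
    have h5 : (a ^ t - 1) * (a ^ t + 1) = 0 := by linear_combination h3
    rcases mul_eq_zero.1 h5 with h6 | h6
    · exact absurd (sub_eq_zero.1 h6) h4
    · exact eq_neg_of_add_eq_zero_left h6
  refine ⟨a, haF, ha0, ?_⟩
  rw [FiniteField.isSquare_iff (ringChar_ne_two h2) ha0, hcard, ht]
  -- the exponent
  set S := ∑ i ∈ Finset.range s, (2 * t + 1) ^ i with hS
  have hSodd : Odd S := by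
    rw [hS, Finset.odd_sum_iff_odd_card_odd]
    have : (Finset.range s).filter (fun i => Odd ((2 * t + 1) ^ i)) = Finset.range s := by
      apply Finset.filter_true_of_mem
      intro i _
      exact Odd.pow ⟨t, rfl⟩
    rw [this, Finset.card_range]
    exact hs
  have hgeom : (2 * t + 1) ^ s = 2 * t * S + 1 := by
    have := Nat.geomSum_eq (m := 2 * t + 1) (by omega) s
    have h1 := geom_sum_mul_add (2 * t) s
    rw [← h1, mul_comm]
  have h1 : (2 * t + 1) ^ s / 2 = t * S := by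
    rw [hgeom]
    have : 2 * t * S + 1 = 2 * (t * S) + 1 := by ring
    omega
  rw [h1, pow_mul, hat, hSodd.neg_one_pow]
  intro h
  apply h2
  linear_combination -h

/-- Some element of `F₁` turns `ζ` into a square. -/
theorem exists_sq_mul (h2 : (2 : F) ≠ 0) (F₁ : Subfield F) {s : ℕ} (hs : Odd s)
    (hcard : Fintype.card F = Nat.card F₁ ^ s) {ζ : F} (hζ : ζ ≠ 0) : ∃ a ∈ F₁, a ≠ 0 ∧ IsSquare (a * ζ) := by
  by_cases hsq : IsSquare ζ
  · exact ⟨1, F₁.one_mem, one_ne_zero, by rwa [one_mul]⟩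
  obtain ⟨a, haF, ha0, ha⟩ := exists_nonsquare_of_odd_index h2 F₁ hs hcard
  refine ⟨a, haF, ha0, ?_⟩
  have hne := ringChar_ne_two h2
  rw [FiniteField.isSquare_iff hne (mul_ne_zero ha0 hζ), mul_pow]
  rw [FiniteField.isSquare_iff hne ha0] at ha
  rw [FiniteField.isSquare_iff hne hζ] at hsq
  have h3 := (FiniteField.pow_dichotomy hne ha0).resolve_left ha
  have h4 := (FiniteField.pow_dichotomy hne hζ).resolve_left hsq
  rw [h3, h4]
  ring

variable {Q : (ι → F) → F}

/-- The scalar `ζ` is a square for an index two subfield in odd dimension. -/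
theorem zeta_square (hQ : IsNondegenerateQuadraticForm Q) (h2 : (2 : F) ≠ 0) (hodd : Odd (Fintype.card ι))
    (hEnt : ∀ (F₁ : Subfield F) (a b : ι), pol Q (Pi.single a 1) (Pi.single b 1) ∈ F₁)
    (F₁ : Subfield F) (hcard : Fintype.card F = Nat.card F₁ ^ 2) (P : GL ι F) {ζ : F} (hζ : ζ ≠ 0)
    (hR : IsFormRationalStructure (pol Q) F₁ ζ P) : IsSquare ζ := by
  classical
  have hs : Sesq (RingEquiv.refl F) (pol Q) :=
    ⟨hQ.polar_bilinear.add_left, hQ.polar_bilinear.smul_left, hQ.polar_bilinear.add_right, hQ.polar_bilinear.smul_right⟩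
  have hG := gram_comp hs (P : Matrix ι ι F)
  have hmap : (P : Matrix ι ι F).map (RingEquiv.refl F) = P := by
    ext i j
    rfl
  rw [hmap] at hG
  set G' := gram (fun u v => pol Q ((P : Matrix ι ι F) *ᵥ u) ((P : Matrix ι ι F) *ᵥ v)) with hG'
  have hdet1 : (ζ • G').det ∈ F₁ := by
    apply det_mem_of_entries
    intro i j
    exact hR _ _ (isRat_single i) (isRat_single j)
  have hdet2 : (gram (pol Q)).det ∈ F₁ := det_mem_of_entries F₁ _ (hEnt F₁)
  have hdet3 : (gram (pol Q)).det ≠ 0 := by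
    have := (Matrix.isUnit_iff_isUnit_det _).1 (gram_unit hs hQ.nondegenerate)
    exact this.ne_zero
  have hP0 : (P : Matrix ι ι F).det ≠ 0 := by
    have := (Matrix.isUnit_iff_isUnit_det _).1 P.isUnit
    exact this.ne_zero
  have hval : (ζ • G').det = ζ ^ Fintype.card ι * ((P : Matrix ι ι F).det ^ 2 * (gram (pol Q)).det) := by
    rw [Matrix.det_smul, hG, Matrix.det_mul, Matrix.det_mul, Matrix.det_transpose]
    ring
  obtain ⟨r₁, hr₁⟩ := isSquare_of_mem_index_two h2 F₁ hcard hdet1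
  obtain ⟨r₂, hr₂⟩ := isSquare_of_mem_index_two h2 F₁ hcard hdet2
  have hr₂0 : r₂ ≠ 0 := by
    rintro rfl
    apply hdet3
    rw [hr₂]
    ring
  obtain ⟨t, ht⟩ := hodd
  have hfin : ζ * (ζ ^ t) ^ 2 * ((P : Matrix ι ι F).det * r₂) ^ 2 = r₁ * r₁ := by
    rw [← hr₁, hval, ht, hr₂]
    ring
  have hden : ζ ^ t * ((P : Matrix ι ι F).det * r₂) ≠ 0 :=
    mul_ne_zero (pow_ne_zero _ hζ) (mul_ne_zero hP0 hr₂0)
  refine ⟨r₁ / (ζ ^ t * ((P : Matrix ι ι F).det * r₂)), ?_⟩
  field_simp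
  linear_combination hfin

/-- A rational structure carrying a multiple of the polar form can be rescaled to carry the quadratic form. -/
theorem quad_rational (hQ : IsNondegenerateQuadraticForm Q) (h2 : (2 : F) ≠ 0) (hodd : Odd (Fintype.card ι))
    (hEnt : ∀ (F₁ : Subfield F) (a b : ι), pol Q (Pi.single a 1) (Pi.single b 1) ∈ F₁)
    (F₁ : Subfield F) {s : ℕ} (hs : s.Prime) (hcard : Fintype.card F = Nat.card F₁ ^ s) (P : GL ι F) {ζ : F} (hζ : ζ ≠ 0)
    (hR : IsFormRationalStructure (pol Q) F₁ ζ P) :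
    ∃ (l : F) (P' : GL ι F), l ≠ 0 ∧ (P' : Matrix ι ι F) = l • (P : Matrix ι ι F) ∧ IsQuadFormRationalStructure Q F₁ P' := by
  classical
  obtain ⟨a, haF, ha0, l, hl⟩ : ∃ a ∈ F₁, a ≠ 0 ∧ IsSquare (a * ζ) := by
    rcases hs.eq_two_or_odd' with rfl | hsodd
    · exact ⟨1, F₁.one_mem, one_ne_zero, by rw [one_mul]; exact zeta_square hQ h2 hodd hEnt F₁ hcard P hζ hR⟩
    · exact exists_sq_mul h2 F₁ hsodd hcard hζ
  have hl0 : l ≠ 0 := by
    rintro rfl
    rw [zero_mul] at hl
    exact mul_ne_zero ha0 hζ hl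
  let P' : GL ι F := P * Matrix.GeneralLinearGroup.scalar ι (Units.mk0 l hl0)
  have hP' : (P' : Matrix ι ι F) = l • (P : Matrix ι ι F) := by
    simp only [P', Units.val_mul]
    ext i j
    simp [Matrix.GeneralLinearGroup.scalar, Matrix.mul_apply, Matrix.diagonal_apply, mul_comm]
  refine ⟨l, P', hl0, hP', fun u hu => ?_⟩
  rw [hP', Matrix.smul_mulVec, hQ.smul]
  have h3 : ζ * pol Q ((P : Matrix ι ι F) *ᵥ u) ((P : Matrix ι ι F) *ᵥ u) ∈ F₁ := hR u u hu hu
  rw [pol_self hQ] at h3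
  have h4 : l ^ 2 * Q ((P : Matrix ι ι F) *ᵥ u) = a * (ζ * (2 * Q ((P : Matrix ι ι F) *ᵥ u))) * (2 : F)⁻¹ := by
    have : l ^ 2 = a * ζ := by rw [hl]; ring
    rw [this]
    field_simp
  rw [h4]
  have h5 : (2 : F) ∈ F₁ := by
    have := F₁.add_mem F₁.one_mem F₁.one_mem
    rwa [one_add_one_eq_two] at this
  exact F₁.mul_mem (F₁.mul_mem haF h3) (F₁.inv_mem h5)

end Cfsg.Agent.Lib.AschF.QuadR
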