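import Mathlib
import Cfsg.Agent.Lib.AschF.Dich
import Cfsg.Agent.Lib.Asch.Ten

/-!
# Forms on tensor powers; the tensor induced case relative to a form
-/

set_option autoImplicit false

namespace Cfsg.Agent.Lib.AschF.TenF

open Matrix Module Cfsg Cfsg.Geo
open Cfsg.Agent.Lib.Asch.Basic Cfsg.Agent.Lib.Asch.GT Cfsg.Agent.Lib.Asch.H1 Cfsg.Agent.Lib.Asch.Semi
  Cfsg.Agent.Lib.Asch.Kr Cfsg.Agent.Lib.Asch.TD Cfsg.Agent.Lib.Asch.TS Cfsg.Agent.Lib.Asch.Cl Cfsg.Agent.Lib.Asch.Ten
  Cfsg.Agent.Lib.Asch.Forms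
open Cfsg.Agent.Lib.AschF.Adj Cfsg.Agent.Lib.AschF.Inv Cfsg.Agent.Lib.AschF.Dich

open scoped commutatorElement

universe u

variable {F : Type u} [Field F]

/-- The product formula for a function of several indices which is proportional to `G` in each slot. -/
theorem slot_product {k a : ℕ} (T : (Fin k → Fin a) → (Fin k → Fin a) → F) (G : Fin a → Fin a → F) (a₀ b₀ : Fin a)
    (hs : ∀ i u v, ∃ κ : F, ∀ c d, T (Function.update u i c) (Function.update v i d) = κ * G c d)
    (u v : Fin k → Fin a) :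
    T u v * (G a₀ b₀) ^ k = T (fun _ => a₀) (fun _ => b₀) * ∏ i, G (u i) (v i) := by
  classical
  let U : Finset (Fin k) → Fin k → Fin a := fun s j => if j ∈ s then u j else a₀
  let V : Finset (Fin k) → Fin k → Fin a := fun s j => if j ∈ s then v j else b₀
  have key : ∀ s : Finset (Fin k), T (U s) (V s) * (G a₀ b₀) ^ s.card = T (fun _ => a₀) (fun _ => b₀) * ∏ i ∈ s, G (u i) (v i) := by
    intro s
    induction s using Finset.induction_on with
    | empty => simp [U, V]
    | insert j s hj ih =>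
      obtain ⟨κ, hκ⟩ := hs j (U s) (V s)
      have h1 : U (insert j s) = Function.update (U s) j (u j) := by
        funext l
        by_cases hl : l = j
        · subst hl
          simp [U]
        · simp [U, Function.update_of_ne hl, hl]
      have h2 : V (insert j s) = Function.update (V s) j (v j) := by
        funext l
        by_cases hl : l = j
        · subst hl
          simp [V]
        · simp [V, Function.update_of_ne hl, hl]
      have h3 : U s = Function.update (U s) j a₀ := by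
        funext l
        by_cases hl : l = j
        · subst hl
          simp [U, hj]
        · simp [Function.update_of_ne hl]
      have h4 : V s = Function.update (V s) j b₀ := by
        funext l
        by_cases hl : l = j
        · subst hl
          simp [V, hj]
        · simp [Function.update_of_ne hl]
      have h5 := hκ a₀ b₀
      rw [← h3, ← h4] at h5
      rw [h1, h2, hκ, Finset.card_insert_of_notMem hj, Finset.prod_insert hj, pow_succ]
      calc κ * G (u j) (v j) * (G a₀ b₀ ^ s.card * G a₀ b₀)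
          = (κ * G a₀ b₀) * G a₀ b₀ ^ s.card * G (u j) (v j) := by ring
        _ = T (U s) (V s) * G a₀ b₀ ^ s.card * G (u j) (v j) := by rw [h5]
        _ = _ := by rw [ih]; ring
  have h := key Finset.univ
  have hU : U Finset.univ = u := by
    funext j
    simp [U]
  have hV : V Finset.univ = v := by
    funext j
    simp [V]
  rw [hU, hV] at h
  simpa using h

section Ins
variable {k a : ℕ}

/-- Insertion of a vector in one slot of the tensor power. -/
noncomputable def ins (i : Fin k) (u : Fin k → Fin a) (x : Fin a → F) : (Fin k → Fin a) → F :=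
  ∑ c, x c • Pi.single (Function.update u i c) (1 : F)

theorem ins_add (i : Fin k) (u : Fin k → Fin a) (x y : Fin a → F) : ins i u (x + y) = ins i u x + ins i u y := by
  simp only [ins, Pi.add_apply, add_smul, Finset.sum_add_distrib]

theorem ins_smul (i : Fin k) (u : Fin k → Fin a) (c : F) (x : Fin a → F) : ins i u (c • x) = c • ins i u x := by
  simp only [ins, Pi.smul_apply, smul_eq_mul, Finset.smul_sum, smul_smul]

theorem ins_single (i : Fin k) (u : Fin k → Fin a) (c : Fin a) :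
    ins i u (Pi.single c (1 : F)) = Pi.single (Function.update u i c) (1 : F) := by
  simp only [ins]
  rw [Finset.sum_eq_single c]
  · simp
  · intro d _ hd
    simp [Pi.single_apply, hd]
  · simp

theorem emb_ins (i : Fin k) (u : Fin k → Fin a) (X : Matrix (Fin a) (Fin a) F) (x : Fin a → F) :
    emb i X *ᵥ ins i u x = ins i u (X *ᵥ x) := by
  simp only [ins]
  rw [Matrix.mulVec_sum]
  simp only [Matrix.mulVec_smul, pure_mulVec_single, Function.update_self, Function.update_idem, Finset.smul_sum, smul_smul]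
  rw [Finset.sum_comm]
  refine Finset.sum_congr rfl fun d _ => ?_
  rw [← Finset.sum_smul]
  congr 1
  simp only [Matrix.mulVec, dotProduct]
  exact Finset.sum_congr rfl fun c _ => mul_comm _ _

end Ins

variable {ι : Type} [Fintype ι] [DecidableEq ι] {σ : F ≃+* F} {ε : F} {f : (ι → F) → (ι → F) → F} {k a : ℕ}

/-- The form on a tensor power invariant under the factors. -/
theorem power_form (hf : HF σ ε f) (hk : 0 < k) (ha : 0 < a) (e₂ : ι ≃ (Fin k → Fin a)) (P₂ : GL ι F)
    {R : Set (Matrix (Fin a) (Fin a) F)} (hR : ActsAbsolutelyIrreducibly R) (hunit : ∀ r ∈ R, IsUnit r)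
    (hinv : ∀ i, ∀ r ∈ R, ∀ z z' : (Fin k → Fin a) → F,
      f ((P₂ : Matrix ι ι F) *ᵥ ((emb i r *ᵥ z) ∘ e₂)) ((P₂ : Matrix ι ι F) *ᵥ ((emb i r *ᵥ z') ∘ e₂)) =
        f ((P₂ : Matrix ι ι F) *ᵥ (z ∘ e₂)) ((P₂ : Matrix ι ι F) *ᵥ (z' ∘ e₂))) :
    ∃ (A : (Fin a → F) → (Fin a → F) → F) (ε₁ c : F), HF σ ε₁ A ∧ c ≠ 0 ∧ FixesForm R A ∧
      (∀ x y : (Fin k → Fin a) → F, f ((P₂ : Matrix ι ι F) *ᵥ (x ∘ e₂)) ((P₂ : Matrix ι ι F) *ᵥ (y ∘ e₂)) =
        c * ∑ u, ∑ v, x u * (∏ i, gramMatrix A (u i) (v i)) * σ (y v)) ∧ c * ε₁ ^ k = ε * σ c := by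
  classical
  have hfS := hf.sesq
  let Φ : ((Fin k → Fin a) → F) → ((Fin k → Fin a) → F) → F :=
    fun z z' => f ((P₂ : Matrix ι ι F) *ᵥ (z ∘ e₂)) ((P₂ : Matrix ι ι F) *ᵥ (z' ∘ e₂))
  have hΦS : Sesq σ Φ := by
    refine ⟨fun u v w => ?_, fun c u w => ?_, fun u v w => ?_, fun c u w => ?_⟩
    · simp only [Φ]
      have : (u + v) ∘ e₂ = u ∘ e₂ + v ∘ e₂ := rfl
      rw [this, Matrix.mulVec_add, hfS.add_left]
    · simp only [Φ]
      have : (c • u) ∘ e₂ = c • (u ∘ e₂) := rfl
      rw [this, Matrix.mulVec_smul, hfS.smul_left]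
    · simp only [Φ]
      have : (v + w) ∘ e₂ = v ∘ e₂ + w ∘ e₂ := rfl
      rw [this, Matrix.mulVec_add, hfS.add_right]
    · simp only [Φ]
      have : (c • w) ∘ e₂ = c • (w ∘ e₂) := rfl
      rw [this, Matrix.mulVec_smul, hfS.smul_right]
  have hΦeq : ∀ x y, formOfGram σ (gramMatrix Φ) x y = Φ x y := fun x y =>
    Cfsg.Agent.Lib.NotMax.Tensor.formOfGram_eq σ Φ hΦS.add_left hΦS.smul_left hΦS.add_right hΦS.smul_right x y
  -- a non-zero entry
  obtain ⟨u₀, v₀, h₀⟩ : ∃ u v, gramMatrix Φ u v ≠ 0 := by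
    by_contra hcon
    push Not at hcon
    have h1 : ∀ x y, Φ x y = 0 := by
      intro x y
      rw [← hΦeq]
      simp [formOfGram, hcon]
    haveI : Nonempty (Fin k) := ⟨⟨0, hk⟩⟩
    haveI : Nonempty (Fin a) := ⟨⟨0, ha⟩⟩
    haveI : Nonempty (Fin k → Fin a) := inferInstance
    haveI : Nonempty ι := e₂.nonempty
    obtain ⟨i⟩ := ‹Nonempty ι›
    have he : (Pi.single i 1 : ι → F) ≠ 0 := by
      intro h
      have := congrFun h i
      simp at this
    obtain ⟨⟨w, hw⟩, -⟩ := hf.nd _ he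
    apply hw
    have hsurj : ∀ t : ι → F, ∃ z : (Fin k → Fin a) → F, (P₂ : Matrix ι ι F) *ᵥ (z ∘ e₂) = t := by
      intro t
      refine ⟨(((P₂⁻¹ : GL ι F) : Matrix ι ι F) *ᵥ t) ∘ e₂.symm, ?_⟩
      have : (((P₂⁻¹ : GL ι F) : Matrix ι ι F) *ᵥ t) ∘ e₂.symm ∘ e₂ = ((P₂⁻¹ : GL ι F) : Matrix ι ι F) *ᵥ t := by
        funext j
        simp
      rw [Function.comp_assoc, this, Matrix.mulVec_mulVec, ← Units.val_mul, mul_inv_cancel, Units.val_one,
        Matrix.one_mulVec]
    obtain ⟨z, hz⟩ := hsurj w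
    obtain ⟨z', hz'⟩ := hsurj (Pi.single i 1)
    rw [← hz, ← hz']
    exact h1 z z'
  let i₀ : Fin k := ⟨0, hk⟩
  let S : Fin k → (Fin k → Fin a) → (Fin k → Fin a) → (Fin a → F) → (Fin a → F) → F :=
    fun i u v x x' => Φ (ins i u x) (ins i v x')
  have hSS : ∀ i u v, Sesq σ (S i u v) := by
    intro i u v
    refine ⟨fun x y w => ?_, fun c x w => ?_, fun x y w => ?_, fun c x w => ?_⟩
    · simp only [S, ins_add, hΦS.add_left]
    · simp only [S, ins_smul, hΦS.smul_left]
    · simp only [S, ins_add, hΦS.add_right]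
    · simp only [S, ins_smul, hΦS.smul_right]
  have hSfix : ∀ i u v, FixesForm R (S i u v) := by
    intro i u v r hr x x'
    simp only [S]
    rw [← emb_ins, ← emb_ins]
    exact hinv i r hr _ _
  have hSsingle : ∀ i u v c d, S i u v (Pi.single c 1) (Pi.single d 1) =
      gramMatrix Φ (Function.update u i c) (Function.update v i d) := by
    intro i u v c d
    simp only [S, ins_single, gramMatrix]
  let A := S i₀ u₀ v₀
  have hAne : A (Pi.single (u₀ i₀) 1) (Pi.single (v₀ i₀) 1) ≠ 0 := by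
    simp only [A]
    rw [hSsingle, Function.update_eq_self, Function.update_eq_self]
    exact h₀
  obtain ⟨ε₁, hε₁, hA⟩ := inv_form_HF hf.invol (hSS i₀ u₀ v₀) hR hunit (hSfix i₀ u₀ v₀) ⟨_, _, hAne⟩
  have hprop : ∀ i u v, ∃ κ : F, ∀ c d, gramMatrix Φ (Function.update u i c) (Function.update v i d) = κ * gramMatrix A c d := by
    intro i u v
    obtain ⟨κ, hκ⟩ := forms_proportional (hSS i₀ u₀ v₀) (hSS i u v) hA.nd hR (hSfix i₀ u₀ v₀) (hSfix i u v)
    refine ⟨κ, fun c d => ?_⟩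
    rw [← hSsingle, hκ]
    rfl
  set g₀ := gramMatrix A (u₀ i₀) (v₀ i₀) with hg₀
  have hg₀0 : g₀ ≠ 0 := hAne
  have hprod := slot_product (gramMatrix Φ) (gramMatrix A) (u₀ i₀) (v₀ i₀) hprop
  set T₀ := gramMatrix Φ (fun _ => u₀ i₀) (fun _ => v₀ i₀) with hT₀
  have hT₀0 : T₀ ≠ 0 := by
    intro h
    have h1 := hprod u₀ v₀
    rw [h, zero_mul] at h1
    exact (mul_ne_zero h₀ (pow_ne_zero _ hg₀0)) h1
  have hgk : g₀ ^ k ≠ 0 := pow_ne_zero _ hg₀0
  let c := T₀ / g₀ ^ k
  have hc0 : c ≠ 0 := div_ne_zero hT₀0 hgk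
  have hentry : ∀ u v, gramMatrix Φ u v = c * ∏ i, gramMatrix A (u i) (v i) := by
    intro u v
    have h1 := hprod u v
    simp only [c]
    field_simp
    linear_combination h1
  refine ⟨A, ε₁, c, hA, hc0, hSfix i₀ u₀ v₀, fun x y => ?_, ?_⟩
  · change Φ x y = _
    rw [← hΦeq]
    simp only [formOfGram, hentry, Finset.mul_sum]
    refine Finset.sum_congr rfl fun u _ => Finset.sum_congr rfl fun v _ => ?_
    ring
  · -- the relation between the constants
    have hΦherm : ∀ u v, gramMatrix Φ v u = ε * σ (gramMatrix Φ u v) := fun u v => hf.herm _ _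
    have hAherm : ∀ c d, gramMatrix A d c = ε₁ * σ (gramMatrix A c d) := fun c d => hA.herm _ _
    have h1 := hΦherm u₀ v₀
    rw [hentry, hentry, map_mul, map_prod] at h1
    have h2 : ∏ i, gramMatrix A (v₀ i) (u₀ i) = ε₁ ^ k * ∏ i, σ (gramMatrix A (u₀ i) (v₀ i)) := by
      simp only [hAherm (u₀ _) (v₀ _), Finset.prod_mul_distrib, Finset.prod_const, Finset.card_univ, Fintype.card_fin]
    rw [h2] at h1
    have h3 : ∏ i, gramMatrix A (u₀ i) (v₀ i) ≠ 0 := by
      intro h
      apply h₀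
      rw [hentry, h, mul_zero]
    have h4 : ∏ i, σ (gramMatrix A (u₀ i) (v₀ i)) ≠ 0 := by
      rw [← map_prod]
      exact (map_ne_zero σ).2 h3
    apply mul_right_cancel₀ h4
    linear_combination h1

theorem le_scalars_of_dim_one' [Nonempty ι] {b : ℕ} (e : ι ≃ Fin 1 × Fin b) (P : GL ι F)
    (ρ : Matrix ι ι F → Matrix (Fin 1) (Fin 1) F) (N : Subgroup (GL ι F))
    (h : ∀ x ∈ N, (x : Matrix ι ι F) * (P : Matrix ι ι F) = (P : Matrix ι ι F) * kr e (ρ x) 1) :
    N ≤ scalars ι F := by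
  intro x hx
  have hiP : (P : Matrix ι ι F) * ((P⁻¹ : GL ι F) : Matrix ι ι F) = 1 := by
    rw [← Units.val_mul, mul_inv_cancel, Units.val_one]
  have h1 := h x hx
  rw [kr_one_scalar', Matrix.mul_smul, mul_one] at h1
  have h2 : (x : Matrix ι ι F) = ρ x 0 0 • 1 := by
    have := congrArg (· * ((P⁻¹ : GL ι F) : Matrix ι ι F)) h1
    simp only [mul_assoc, hiP, mul_one, Matrix.smul_mul] at this
    exact this
  have h3 : ρ x 0 0 ≠ 0 := by
    intro h0
    have h4 : (x : Matrix ι ι F) = 0 := by rw [h2, h0, zero_smul]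
    have h5 : IsUnit (x : Matrix ι ι F) := x.isUnit
    rw [h4] at h5
    exact not_isUnit_zero h5
  rw [mem_scalars_iff]
  exact ⟨Units.mk0 _ h3, h2⟩

variable [Fintype F]

/-- The tensor induced case relative to a form. -/
theorem tensor_case_form [Nonempty ι] (hf : HF σ ε f) (H : Subgroup (GL ι F))
    (hfix : ∀ g ∈ H, ∀ u v, f ((g : Matrix ι ι F) *ᵥ u) ((g : Matrix ι ι F) *ᵥ v) = f u v)
    (M T : Subgroup (GL ι F)) (hMH : M ≤ H) (hMA : ActsAbsolutelyIrreducibly (matrixSet M))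
    (hTM : T ≤ M) (hTn : HN M T) (hTZ : ¬ T ≤ scalars ι F)
    (hF : ∀ h ∈ H, cj h T = T ∨ ⁅T, cj h T⁆ = ⊥) (hG : (⨆ h : H, cj (h : GL ι F) T) = M)
    (hne : ∃ h ∈ H, cj h T ≠ T)
    (hWr : ∀ (a k : ℕ) (e₂ : ι ≃ (Fin k → Fin a)) (P₂ : GL ι F) (A : (Fin a → F) → (Fin a → F) → F) (ε₁ c : F),
      2 ≤ a → 2 ≤ k → HF σ ε₁ A → c ≠ 0 →
      (∀ x y : (Fin k → Fin a) → F, f ((P₂ : Matrix ι ι F) *ᵥ (x ∘ e₂)) ((P₂ : Matrix ι ι F) *ᵥ (y ∘ e₂)) =
        c * ∑ u, ∑ v, x u * (∏ i, gramMatrix A (u i) (v i)) * σ (y v)) → c * ε₁ ^ k = ε * σ c →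
      H ≤ tensorWreathSubgroup a k e₂ P₂ → False) : False := by
  classical
  set S := matrixSet T with hS
  haveI hss : IsSemisimpleModule (AT S) (ι → F) := semisimple_of_irred M T hMA.1 hTn
  have hcomm2 : ∀ h ∈ H, ∀ h' ∈ H, cj h T ≠ cj h' T → ⁅cj h T, cj h' T⁆ = ⊥ := by
    intro h hh h' hh' hne
    have hne' : cj (h⁻¹ * h') T ≠ T := by
      intro e
      apply hne
      rw [cj_mul] at e
      have := congrArg (cj h) e
      rw [cj_cj_inv] at this
      exact this.symm
    rcases hF (h⁻¹ * h') (H.mul_mem (H.inv_mem hh) hh') with h1 | h1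
    · exact absurd h1 hne'
    · have := congrArg (cj h) h1
      rw [cj_commutator, ← cj_mul, mul_inv_cancel_left, cj_bot] at this
      exact this
  -- the centre of the commutant is scalar
  have hscal : ∀ k ∈ Kc S, ∃ c : F, k = c • 1 := by
    intro k hk
    obtain ⟨hk1, hk2⟩ := mem_Kc.1 hk
    apply hMA.2 k
    let Ck : Subgroup (GL ι F) :=
      { carrier := {g | k * (g : Matrix ι ι F) = (g : Matrix ι ι F) * k}
        mul_mem' := fun {x y} hx hy => by
          change k * ((x * y : GL ι F) : Matrix ι ι F) = ((x * y : GL ι F) : Matrix ι ι F) * k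
          have hx' : k * (x : Matrix ι ι F) = (x : Matrix ι ι F) * k := hx
          have hy' : k * (y : Matrix ι ι F) = (y : Matrix ι ι F) * k := hy
          rw [Units.val_mul, ← mul_assoc, hx', mul_assoc, hy', mul_assoc]
        one_mem' := by
          change k * ((1 : GL ι F) : Matrix ι ι F) = ((1 : GL ι F) : Matrix ι ι F) * k
          simp
        inv_mem' := fun {x} hx => by
          change k * ((x⁻¹ : GL ι F) : Matrix ι ι F) = ((x⁻¹ : GL ι F) : Matrix ι ι F) * k
          have hx' : k * (x : Matrix ι ι F) = (x : Matrix ι ι F) * k := hx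
          have h1 : ((x⁻¹ : GL ι F) : Matrix ι ι F) * (x : Matrix ι ι F) = 1 := by
            rw [← Units.val_mul, inv_mul_cancel, Units.val_one]
          have h2 : (x : Matrix ι ι F) * ((x⁻¹ : GL ι F) : Matrix ι ι F) = 1 := by
            rw [← Units.val_mul, mul_inv_cancel, Units.val_one]
          calc k * ((x⁻¹ : GL ι F) : Matrix ι ι F)
              = ((x⁻¹ : GL ι F) : Matrix ι ι F) * ((x : Matrix ι ι F) * k) * ((x⁻¹ : GL ι F) : Matrix ι ι F) := by
                rw [← mul_assoc, h1, one_mul]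
            _ = ((x⁻¹ : GL ι F) : Matrix ι ι F) * k * ((x : Matrix ι ι F) * ((x⁻¹ : GL ι F) : Matrix ι ι F)) := by
                rw [← hx']
                simp only [mul_assoc]
            _ = _ := by rw [h2, mul_one] }
    have hMle : M ≤ Ck := by
      rw [← hG]
      refine iSup_le fun h => ?_
      intro y hy
      rcases hF h h.2 with h1 | h1
      · rw [h1] at hy
        exact (hk1 _ ⟨y, hy, rfl⟩).symm
      · refine (hk2 (y : Matrix ι ι F) ?_).symm
        rintro _ ⟨x, hx, rfl⟩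
        have h2 := commute_of_commutator_eq_bot h1 hx hy
        rw [← Units.val_mul, ← Units.val_mul, h2]
    rintro _ ⟨x, hx, rfl⟩
    exact hMle hx
  have hiso : IsIsotypic (AT S) (ι → F) := by
    by_contra hc
    obtain ⟨e, he, hee, he0, he1⟩ := exists_idem_of_not_isotypic hc
    obtain ⟨c, rfl⟩ := hscal e he
    have h1 : (c * c) • (1 : Matrix ι ι F) = c • 1 := by
      rw [mul_smul]
      simpa [Matrix.smul_mul] using hee
    have h2 : c * c = c := by
      obtain ⟨i₀⟩ := ‹Nonempty ι›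
      have := congrFun (congrFun h1 i₀) i₀
      simpa using this
    have hc0 : c ≠ 0 := by
      rintro rfl
      exact he0 (zero_smul _ _)
    have hc1 : c ≠ 1 := by
      rintro rfl
      exact he1 (one_smul _ _)
    apply hc1
    have h3 : c * (c - 1) = 0 := by linear_combination h2
    exact sub_eq_zero.1 ((mul_eq_zero.1 h3).resolve_left hc0)
  obtain ⟨a, b, e, P, ρ, hTD⟩ := exists_TD hiso hscal
  have hcardn : Fintype.card ι = a * b := by
    have := Fintype.card_congr e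
    simpa using this
  have hcard0 : Fintype.card ι ≠ 0 := Fintype.card_ne_zero
  have ha0 : 0 < a := by
    rcases Nat.eq_zero_or_pos a with rfl | h
    · omega
    · exact h
  haveI hNa : Nonempty (Fin a) := ⟨⟨0, ha0⟩⟩
  have hconjT : ∀ x ∈ T, (x : Matrix ι ι F) * (P : Matrix ι ι F) = (P : Matrix ι ι F) * kr e (ρ x) 1 :=
    fun x hx => hTD.conj _ ⟨x, hx, rfl⟩
  have ha1 : a ≠ 1 := by
    rintro rfl
    exact hTZ (le_scalars_of_dim_one' e P ρ T hconjT)
  -- conjugates
  let 𝒞 : Type u := {C : Subgroup (GL ι F) // ∃ h ∈ H, cj h T = C}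
  haveI h𝒞fin : Finite 𝒞 := inferInstance
  let k := Nat.card 𝒞
  let cc : 𝒞 ≃ Fin k := Finite.equivFin 𝒞
  have hexi : ∀ i : Fin k, ∃ h ∈ H, cj h T = (cc.symm i).1 := fun i => (cc.symm i).2
  choose hi hhi hci using hexi
  have hk2 : 2 ≤ k := by
    obtain ⟨h, hh, hne'⟩ := hne
    haveI : Nontrivial 𝒞 := ⟨⟨⟨T, 1, H.one_mem, cj_one T⟩, ⟨cj h T, h, hh, rfl⟩, fun h1 => hne' (congrArg Subtype.val h1).symm⟩⟩
    exact Finite.one_lt_card
  have hcinj : ∀ i j, i ≠ j → cj (hi i) T ≠ cj (hi j) T := by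
    intro i j hij heq
    apply hij
    apply cc.symm.injective
    apply Subtype.ext
    rw [← hci, ← hci, heq]
  let Q : Fin k → GL ι F := fun i => hi i * P
  let φ : Fin k → (Matrix (Fin a) (Fin a) F →ₐ[F] Matrix ι ι F) := fun i => phiA e (Q i)
  have hφρ : ∀ i, ∀ x ∈ T, φ i (ρ x) = ((hi i * x * (hi i)⁻¹ : GL ι F) : Matrix ι ι F) :=
    fun i x hx => conj_of_kr e P (hi i) x _ (hconjT x hx)
  -- generation
  have hadj := adjoin_eq_top hTD.abs
  have hind : ∀ p : Matrix (Fin a) (Fin a) F → Prop, (∀ x ∈ T, p (ρ x)) → (∀ c : F, p (algebraMap F _ c)) →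
      (∀ x y, p x → p y → p (x + y)) → (∀ x y, p x → p y → p (x * y)) → ∀ X, p X := by
    intro p hgen hc hadd hmul X
    have hX : X ∈ Algebra.adjoin F (ρ '' S) := by rw [hadj]; trivial
    induction hX using Algebra.adjoin_induction with
    | mem z hz =>
      obtain ⟨_, ⟨x, hx, rfl⟩, rfl⟩ := hz
      exact hgen x hx
    | algebraMap c => exact hc c
    | add x y _ _ hx hy => exact hadd x y hx hy
    | mul x y _ _ hx hy => exact hmul x y hx hy
  have hφcomm : ∀ i j, i ≠ j → ∀ X Y, φ i X * φ j Y = φ j Y * φ i X := by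
    intro i j hij X
    have hbot := hcomm2 _ (hhi i) _ (hhi j) (hcinj i j hij)
    refine hind (fun X => ∀ Y, φ i X * φ j Y = φ j Y * φ i X) ?_ ?_ ?_ ?_ X
    · intro x hx Y
      refine hind (fun Y => φ i (ρ x) * φ j Y = φ j Y * φ i (ρ x)) ?_ ?_ ?_ ?_ Y
      · intro y hy
        rw [hφρ i x hx, hφρ j y hy, ← Units.val_mul, ← Units.val_mul]
        rw [commute_of_commutator_eq_bot hbot (conj_mem_cj hx) (conj_mem_cj hy)]
      · intro c
        rw [AlgHom.commutes]
        exact (Algebra.commutes c _).symm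
      · intro y z hy hz
        rw [map_add, mul_add, add_mul, hy, hz]
      · intro y z hy hz
        rw [map_mul, ← mul_assoc, hy, mul_assoc, hz, mul_assoc]
    · intro c Y
      rw [AlgHom.commutes]
      exact Algebra.commutes c _
    · intro x y hx hy Y
      rw [map_add, add_mul, mul_add, hx, hy]
    · intro x y hx hy Y
      rw [map_mul, mul_assoc, hy, ← mul_assoc, hx, mul_assoc]
  have hc : Pairwise fun i j => ∀ x y, Commute ((φ i : Matrix (Fin a) (Fin a) F →* Matrix ι ι F) x) ((φ j : Matrix (Fin a) (Fin a) F →* Matrix ι ι F) y) :=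
    fun i j hij x y => hφcomm i j hij x y
  -- the span
  have hspan : Submodule.span F (Set.range (PiP φ hc)) = ⊤ := by
    rw [eq_top_iff, ← span_matrixSet_eq_top hMA, Submodule.span_le]
    set R := Submodule.span F (Set.range (PiP φ hc)) with hR
    have hRmul : ∀ x ∈ R, ∀ y ∈ R, x * y ∈ R := by
      intro x hx y hy
      have h1 : R * R ≤ R := by
        rw [hR, Submodule.span_mul_span]
        apply Submodule.span_mono
        rintro _ ⟨_, ⟨f, rfl⟩, _, ⟨g, rfl⟩, rfl⟩
        exact ⟨f * g, map_mul _ f g⟩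
      exact h1 (Submodule.mul_mem_mul hx hy)
    have hRφ : ∀ i X, φ i X ∈ R := by
      intro i X
      apply Submodule.subset_span
      exact ⟨Pi.mulSingle i X, PiP_single φ hc i X⟩
    have hMR : ∀ x ∈ M, (x : Matrix ι ι F) ∈ R := by
      intro x hx
      rw [← hG] at hx
      induction hx using Subgroup.iSup_induction' with
      | hp h y hy =>
        -- an element of a conjugate
        have h1 : cj (h : GL ι F) T ∈ Set.range fun i => cj (hi i) T := by
          obtain ⟨i, hi'⟩ := cc.symm.surjective ⟨cj (h : GL ι F) T, h, h.2, rfl⟩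
          refine ⟨i, ?_⟩
          simp only
          rw [hci, hi']
        obtain ⟨i, hi'⟩ := h1
        simp only at hi'
        rw [← hi'] at hy
        obtain ⟨t, ht, rfl⟩ := hy
        have h2 := hRφ i (ρ t)
        rw [hφρ i t ht] at h2
        exact h2
      | h1 =>
        apply Submodule.subset_span
        exact ⟨1, map_one _⟩
      | hmul x y _ _ hx hy =>
        rw [Units.val_mul]
        exact hRmul _ hx _ hy
    rintro _ ⟨x, hx, rfl⟩
    exact hMR x hx
  obtain ⟨L, hL⟩ := exists_L φ hc ha0 hspan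
  have hcard : Fintype.card ι = Fintype.card (Fin k → Fin a) := by
    have := LinearEquiv.finrank_eq L
    simpa using this.symm
  let e₂ : ι ≃ (Fin k → Fin a) := Fintype.equivOfCardEq hcard
  obtain ⟨P₂, hP₂⟩ := exists_gl_of_equiv e₂ L
  have hφP₂ : ∀ i X, φ i X * (P₂ : Matrix ι ι F) = (P₂ : Matrix ι ι F) * (emb i X).submatrix e₂ e₂ := by
    intro i X
    apply Matrix.ext_of_mulVec_single
    intro j
    set y : ι → F := Pi.single j 1 with hy
    have hy2 : y = (y ∘ e₂.symm) ∘ e₂ := by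
      funext l
      simp
    rw [← Matrix.mulVec_mulVec, ← Matrix.mulVec_mulVec, hy2, hP₂, hL, Matrix.submatrix_mulVec_equiv]
    rw [Function.comp_assoc, Equiv.self_comp_symm, Function.comp_id]
    rw [hP₂]
  -- the conjugation action
  have hσ : ∀ h ∈ H, ∃ σ : Equiv.Perm (Fin k), ∀ i, cj (hi (σ i)) T = cj h (cj (hi i) T) := by
    intro h hh
    let pc : 𝒞 ≃ 𝒞 :=
      { toFun := fun C => ⟨cj h C.1, by
          obtain ⟨g, hg, hC⟩ := C.2
          exact ⟨h * g, H.mul_mem hh hg, by rw [cj_mul, hC]⟩⟩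
        invFun := fun C => ⟨cj h⁻¹ C.1, by
          obtain ⟨g, hg, hC⟩ := C.2
          exact ⟨h⁻¹ * g, H.mul_mem (H.inv_mem hh) hg, by rw [cj_mul, hC]⟩⟩
        left_inv := fun C => Subtype.ext (cj_inv_cj h C.1)
        right_inv := fun C => Subtype.ext (cj_cj_inv h C.1) }
    refine ⟨cc.symm.trans (pc.trans cc), fun i => ?_⟩
    rw [hci, hci]
    simp [pc]
  have hconj : ∀ h ∈ H, ∀ i j, cj (hi j) T = cj h (cj (hi i) T) → ∀ X, ∃ X',
      (h : Matrix ι ι F) * φ i X = φ j X' * (h : Matrix ι ι F) := by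
    intro h hh i j hij X
    refine hind (fun X => ∃ X', (h : Matrix ι ι F) * φ i X = φ j X' * (h : Matrix ι ι F)) ?_ ?_ ?_ ?_ X
    · intro x hx
      -- the conjugate
      have h1 : h * (hi i * x * (hi i)⁻¹) * h⁻¹ ∈ cj (hi j) T := by
        rw [hij]
        exact conj_mem_cj (conj_mem_cj hx)
      obtain ⟨t, ht, ht'⟩ := h1
      refine ⟨ρ t, ?_⟩
      rw [hφρ i x hx, hφρ j t ht]
      have h2 : hi j * t * (hi j)⁻¹ = h * (hi i * x * (hi i)⁻¹) * h⁻¹ := ht'
      rw [h2, ← Units.val_mul, ← Units.val_mul]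
      congr 1
      group
    · intro c
      refine ⟨algebraMap F _ c, ?_⟩
      rw [AlgHom.commutes, AlgHom.commutes]
      exact Algebra.commutes c _ |>.symm
    · rintro x y ⟨x', hx⟩ ⟨y', hy⟩
      refine ⟨x' + y', ?_⟩
      rw [map_add, map_add, mul_add, add_mul, hx, hy]
    · rintro x y ⟨x', hx⟩ ⟨y', hy⟩
      refine ⟨x' * y', ?_⟩
      rw [map_mul, map_mul, ← mul_assoc, hx, mul_assoc, hy, mul_assoc]
  -- membership in the tensor wreath subgroup
  have hle : H ≤ tensorWreathSubgroup a k e₂ P₂ := by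
    intro h hh
    rw [mem_tensorWreathSubgroup_iff]
    obtain ⟨σ, hσ'⟩ := hσ h hh
    let g : GL (Fin k → Fin a) F := glReindex e₂ (P₂⁻¹ * h * P₂)
    have hgv : (g : Matrix (Fin k → Fin a) (Fin k → Fin a) F).submatrix e₂ e₂ = ((P₂⁻¹ * h * P₂ : GL ι F) : Matrix ι ι F) := by
      ext u v
      simp [g, glReindex, Matrix.reindexAlgEquiv]
    refine ⟨g, ?_, ?_⟩
    · refine mem_standard_of_normalises ha0 (by omega) g σ fun i Y => ?_
      obtain ⟨Y', hY'⟩ := hconj h hh i (σ i) (hσ' i) Y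
      refine ⟨Y', ?_⟩
      -- transport to the submatrix level
      have hsub : Function.Injective (fun X : Matrix (Fin k → Fin a) (Fin k → Fin a) F => X.submatrix e₂ e₂) := by
        intro X X' h1
        have := congrArg (fun W => W.submatrix e₂.symm e₂.symm) h1
        simpa using this
      apply hsub
      simp only
      rw [← Matrix.submatrix_mul_equiv _ _ _ e₂, ← Matrix.submatrix_mul_equiv _ _ _ e₂, hgv]
      have hPi : ((P₂⁻¹ : GL ι F) : Matrix ι ι F) * (P₂ : Matrix ι ι F) = 1 := by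
        rw [← Units.val_mul, inv_mul_cancel, Units.val_one]
      have hiP : (P₂ : Matrix ι ι F) * ((P₂⁻¹ : GL ι F) : Matrix ι ι F) = 1 := by
        rw [← Units.val_mul, mul_inv_cancel, Units.val_one]
      have h1 : (emb i Y).submatrix e₂ e₂ = ((P₂⁻¹ : GL ι F) : Matrix ι ι F) * φ i Y * (P₂ : Matrix ι ι F) := by
        rw [mul_assoc, hφP₂, ← mul_assoc, hPi, one_mul]
      have h2 : (emb (σ i) Y').submatrix e₂ e₂ = ((P₂⁻¹ : GL ι F) : Matrix ι ι F) * φ (σ i) Y' * (P₂ : Matrix ι ι F) := by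
        rw [mul_assoc, hφP₂, ← mul_assoc, hPi, one_mul]
      rw [h1, h2, Units.val_mul, Units.val_mul]
      calc ((P₂⁻¹ : GL ι F) : Matrix ι ι F) * (h : Matrix ι ι F) * (P₂ : Matrix ι ι F) * (((P₂⁻¹ : GL ι F) : Matrix ι ι F) * φ i Y * (P₂ : Matrix ι ι F))
          = ((P₂⁻¹ : GL ι F) : Matrix ι ι F) * (h : Matrix ι ι F) * ((P₂ : Matrix ι ι F) * ((P₂⁻¹ : GL ι F) : Matrix ι ι F)) * φ i Y * (P₂ : Matrix ι ι F) := by
            simp only [mul_assoc]
        _ = ((P₂⁻¹ : GL ι F) : Matrix ι ι F) * ((h : Matrix ι ι F) * φ i Y) * (P₂ : Matrix ι ι F) := by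
            rw [hiP, mul_one, mul_assoc ((P₂⁻¹ : GL ι F) : Matrix ι ι F)]
        _ = ((P₂⁻¹ : GL ι F) : Matrix ι ι F) * (φ (σ i) Y' * (h : Matrix ι ι F)) * (P₂ : Matrix ι ι F) := by
            rw [hY']
        _ = ((P₂⁻¹ : GL ι F) : Matrix ι ι F) * φ (σ i) Y' * ((P₂ : Matrix ι ι F) * ((P₂⁻¹ : GL ι F) : Matrix ι ι F)) * (h : Matrix ι ι F) * (P₂ : Matrix ι ι F) := by
            rw [hiP, mul_one]
            simp only [mul_assoc]
        _ = _ := by simp only [mul_assoc]
    · rw [hgv, ← Units.val_mul, ← Units.val_mul]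
      congr 1
      group
  -- the form
  have ha2 : 2 ≤ a := by omega
  have hunit : ∀ r ∈ ρ '' S, IsUnit r := by
    rintro _ ⟨_, ⟨x, hx, rfl⟩, rfl⟩
    have h1 := hTD.conj _ (Cfsg.Agent.Lib.Asch.Basic.mem_matrixSet hx)
    have hPi : ((P⁻¹ : GL ι F) : Matrix ι ι F) * (P : Matrix ι ι F) = 1 := by
      rw [← Units.val_mul, inv_mul_cancel, Units.val_one]
    have h3 : kr e (ρ (x : Matrix ι ι F)) 1 = (((P⁻¹ * x * P : GL ι F)) : Matrix ι ι F) := by
      rw [Units.val_mul, Units.val_mul, mul_assoc, h1, ← mul_assoc, hPi, one_mul]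
    have h4 : IsUnit (kr e (ρ (x : Matrix ι ι F)) 1).det := by
      rw [h3]
      exact Matrix.isUnits_det_units _
    have hb0 : b ≠ 0 := by
      rintro rfl
      omega
    rw [det_kr, Matrix.det_one, one_pow, mul_one] at h4
    rw [Matrix.isUnit_iff_isUnit_det]
    exact (isUnit_pow_iff hb0).1 h4
  have hP₂i : ((P₂⁻¹ : GL ι F) : Matrix ι ι F) * (P₂ : Matrix ι ι F) = 1 := by
    rw [← Units.val_mul, inv_mul_cancel, Units.val_one]
  obtain ⟨A, ε₁, c, hA, hc0, hAfix, hform, hrel⟩ := power_form hf (by omega) ha0 e₂ P₂ hTD.abs hunit (by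
    rintro i _ ⟨_, ⟨x, hx, rfl⟩, rfl⟩ z z'
    have h1 := hφP₂ i (ρ x)
    rw [hφρ i x hx] at h1
    have h2 : ∀ w : (Fin k → Fin a) → F, (P₂ : Matrix ι ι F) *ᵥ ((emb i (ρ x) *ᵥ w) ∘ e₂) =
        ((hi i * x * (hi i)⁻¹ : GL ι F) : Matrix ι ι F) *ᵥ ((P₂ : Matrix ι ι F) *ᵥ (w ∘ e₂)) := by
      intro w
      rw [Matrix.mulVec_mulVec, h1, ← Matrix.mulVec_mulVec, Matrix.submatrix_mulVec_equiv]
      rw [Function.comp_assoc, Equiv.self_comp_symm, Function.comp_id]
    rw [h2, h2]
    have hxH : x ∈ H := hMH (hTM hx)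
    exact hfix _ (H.mul_mem (H.mul_mem (hhi i) hxH) (H.inv_mem (hhi i))) _ _)
  exact hWr a k e₂ P₂ A ε₁ c ha2 hk2 hA hc0 hform hrel hle


end Cfsg.Agent.Lib.AschF.TenF
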