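import Mathlib
import Cfsg.Agent.Lib.AschF.TenF
import Cfsg.Agent.Lib.Asch.Main

/-!
# The overall structure of a group of isometries in no class
-/

set_option autoImplicit false

namespace Cfsg.Agent.Lib.AschF.Top

open Matrix Module Cfsg Cfsg.Geo
open Cfsg.Agent.Lib.Asch.Basic Cfsg.Agent.Lib.Asch.GT Cfsg.Agent.Lib.Asch.SC Cfsg.Agent.Lib.Asch.XS
  Cfsg.Agent.Lib.Asch.XT Cfsg.Agent.Lib.Asch.Res Cfsg.Agent.Lib.Asch.Forms
open Cfsg.Agent.Lib.AschF.Adj Cfsg.Agent.Lib.AschF.Dich Cfsg.Agent.Lib.AschF.TenF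

open scoped commutatorElement

universe u

variable {ι : Type} [Fintype ι] [DecidableEq ι] {F : Type u} [Field F] {σ : F ≃+* F} {ε : F}
  {f : (ι → F) → (ι → F) → F}

/-- A group of scalars does not act irreducibly in dimension two at least. -/
theorem not_le_scalars' [Nonempty ι] (hn : 2 ≤ Fintype.card ι) {R : Subgroup (GL ι F)} (hA : ActsIrreducibly (matrixSet R)) :
    ¬ R ≤ scalars ι F := by
  classical
  intro hle
  obtain ⟨i₀⟩ := ‹Nonempty ι›
  let e : ι → F := Pi.single i₀ 1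
  have he : e ≠ 0 := by
    intro h
    have := congrFun h i₀
    simp [e] at this
  let W : Submodule F (ι → F) := Submodule.span F {e}
  have hW := hA W (by
    rintro _ ⟨x, hx, rfl⟩
    obtain ⟨c, hc⟩ := (mem_scalars_iff x).1 (hle hx)
    rintro _ ⟨v, hv, rfl⟩
    change (Matrix.toLin' (x : Matrix ι ι F)) v ∈ W
    rw [Matrix.toLin'_apply, hc, Matrix.smul_mulVec, Matrix.one_mulVec]
    exact W.smul_mem _ hv)
  rcases hW with hW | hW
  · exact he (by simpa [W] using hW)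
  · have h1 : Module.finrank F W = 1 := finrank_span_singleton he
    rw [hW, finrank_top, Module.finrank_fintype_fun_eq_card] at h1
    omega

theorem exists_noncomm' [Nonempty ι] (hn : 2 ≤ Fintype.card ι) {R : Subgroup (GL ι F)} (hA : ActsAbsolutelyIrreducibly (matrixSet R)) :
    ¬ ∀ x ∈ R, ∀ y ∈ R, x * y = y * x := by
  intro h
  exact not_le_scalars' hn hA.1 fun x hx => mem_scalars_of_comm hA (h x hx)

theorem exists_comm_elt' [Nonempty ι] (hn : 2 ≤ Fintype.card ι) {R : Subgroup (GL ι F)} (hA : ActsAbsolutelyIrreducibly (matrixSet R)) (hSC : ScC R) :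
    ∃ x ∈ R, ∃ y ∈ R, ∃ c : Fˣ, c ≠ 1 ∧ sc c ∈ R ∧ y * x = sc c * (x * y) := by
  have h := exists_noncomm' hn hA
  push Not at h
  obtain ⟨y, hy, x, hx, hne⟩ := h
  obtain ⟨c, hc⟩ := hSC y hy x hx
  have hc0 : c ≠ 0 := by
    rintro rfl
    have h5 : IsUnit ((y : Matrix ι ι F) * (x : Matrix ι ι F)) := (y * x).isUnit
    rw [hc, zero_smul] at h5
    exact not_isUnit_zero h5
  have h1 : y * x = sc (Units.mk0 c hc0) * (x * y) := by
    apply Units.ext
    rw [Units.val_mul, Units.val_mul, Units.val_mul, sc_val, hc, Matrix.smul_mul, one_mul]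
    rfl
  refine ⟨x, hx, y, hy, Units.mk0 c hc0, ?_, ?_, h1⟩
  · intro h
    rw [h, map_one, one_mul] at h1
    exact hne h1
  · have : sc (Units.mk0 c hc0) = y * x * y⁻¹ * x⁻¹ := by
      rw [h1]
      have hc' := sc_comm (ι := ι) (Units.mk0 c hc0)
      group
    rw [this]
    exact R.mul_mem (R.mul_mem (R.mul_mem hy hx) (R.inv_mem hy)) (R.inv_mem hx)

variable [Fintype F]

/-- The extraspecial case: a normal subgroup with scalar commutators and elements of scalar prime powers. -/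
theorem extraspecial_reduce [Nonempty ι] (hcard : 2 ≤ Fintype.card ι) (H N : Subgroup (GL ι F))
    (hD : ∀ N' : Subgroup (GL ι F), N' ≤ H → HN H N' → N' ≤ scalars ι F ∨ ActsAbsolutelyIrreducibly (matrixSet N'))
    (hNH : N ≤ H) (hHN : HN H N) (hNZ : ¬ N ≤ scalars ι F) (hcomm : ⁅N, N⁆ ≤ scalars ι F) (hZN : H ⊓ scalars ι F ≤ N)
    (hmin : ∀ N', HN H N' → H ⊓ scalars ι F ≤ N' → N' ≤ N → N' ≤ scalars ι F ∨ N' = N) :
    ∃ (r : ℕ) (R : Subgroup (GL ι F)), r.Prime ∧ R ≤ H ∧ HN H R ∧ ActsAbsolutelyIrreducibly (matrixSet R) ∧ ScC R ∧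
      ((r = 2 ∧ ∀ x ∈ R, ∃ m : Fˣ, m ^ 2 = 1 ∧ x ^ 2 = sc m) ∨ (Odd r ∧ ∀ x ∈ R, x ^ r = 1)) := by
  classical
  have hA := (hD N hNH hHN).resolve_left hNZ
  have hcomm' : ∀ x ∈ N, ∀ y ∈ N, ∃ c : Fˣ, y * x = sc c * (x * y) := by
    intro x hx y hy
    obtain ⟨c, hc⟩ := mem_scalars_sc.1 (show y * x * y⁻¹ * x⁻¹ ∈ scalars ι F from hcomm (Subgroup.commutator_mem_commutator hy hx))
    refine ⟨c, ?_⟩
    rw [hc]
    group
  have hSC : ScC N := by
    intro x hx y hy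
    obtain ⟨c, hc⟩ := hcomm' y hy x hx
    refine ⟨c, ?_⟩
    have := congrArg Units.val hc
    rw [Units.val_mul, Units.val_mul, Units.val_mul, sc_val, Matrix.smul_mul, one_mul] at this
    exact this
  obtain ⟨r, hr, hZr⟩ := exists_prime_all_pow scalars_le_center hHN hNZ hcomm hZN hmin
  have hcd : ∀ x ∈ N, ∀ y ∈ N, ∃ c : Fˣ, c ^ r = 1 ∧ y * x = sc c * (x * y) := by
    intro x hx y hy
    obtain ⟨c, hc⟩ := hcomm' x hx y hy
    refine ⟨c, ?_, hc⟩
    have hcen : ∀ g, x ^ r * g = g * x ^ r := fun g => comm_of_mem_scalars (hZr x hx)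
    have := gp_comm_pow (sc_comm c) hc hcen
    exact sc_inj (ι := ι) (by rw [map_pow, this, map_one])
  have hnon := exists_noncomm' hcard hA
  rcases hr.eq_two_or_odd' with rfl | hodd
  · have hmul : ∀ x ∈ N, ∀ y ∈ N, ∃ m ∈ (powMonoidHom 2 : Fˣ →* Fˣ).ker, (x * y) ^ 2 = sc m * (x ^ 2 * y ^ 2) := by
      intro x hx y hy
      obtain ⟨c, hc2, hc⟩ := hcd x hx y hy
      refine ⟨c, hc2, ?_⟩
      have := gp_mul_pow (sc_comm c) hc 2
      simpa using this
    have hRnot := Rr_not_le (μ := (powMonoidHom 2 : Fˣ →* Fˣ).ker) (hmul := hmul) hZr hnon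
    have hRHN : HN H (Rr N 2 (powMonoidHom 2 : Fˣ →* Fˣ).ker hmul) := Rr_HN hHN
    have hRN : Rr N 2 (powMonoidHom 2 : Fˣ →* Fˣ).ker hmul ≤ N := fun x hx => hx.1
    have hRA := (hD _ (hRN.trans hNH) hRHN).resolve_left hRnot
    have hRSC : ScC (Rr N 2 (powMonoidHom 2 : Fˣ →* Fˣ).ker hmul) := hSC.mono hRN
    refine ⟨2, _, Nat.prime_two, hRN.trans hNH, hRHN, hRA, hRSC, Or.inl ⟨rfl, ?_⟩⟩
    rintro x ⟨-, m, hm, h⟩
    exact ⟨m, hm, h⟩
  · have hmul : ∀ x ∈ N, ∀ y ∈ N, ∃ m ∈ (⊥ : Subgroup Fˣ), (x * y) ^ r = sc m * (x ^ r * y ^ r) := by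
      intro x hx y hy
      obtain ⟨c, hc2, hc⟩ := hcd x hx y hy
      refine ⟨1, Subgroup.one_mem _, ?_⟩
      have h1 := gp_mul_pow (sc_comm c) hc r
      have h3 : r ∣ r.choose 2 := hr.dvd_choose_self (by norm_num) (by
        have := hr.two_le
        rcases Nat.lt_or_ge 2 r with h | h
        · exact h
        · have : r = 2 := by omega
          subst this
          exact absurd hodd (by decide))
      obtain ⟨t, ht⟩ := h3
      rw [ht, pow_mul, ← map_pow, hc2, map_one, one_pow] at h1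
      rw [h1, map_one]
    have hRnot := Rr_not_le (μ := ⊥) (hmul := hmul) hZr hnon
    have hRHN : HN H (Rr N r ⊥ hmul) := Rr_HN hHN
    have hRN : Rr N r ⊥ hmul ≤ N := fun x hx => hx.1
    have hRA := (hD _ (hRN.trans hNH) hRHN).resolve_left hRnot
    have hRSC : ScC (Rr N r ⊥ hmul) := hSC.mono hRN
    refine ⟨r, _, hr, hRN.trans hNH, hRHN, hRA, hRSC, Or.inr ⟨hodd, ?_⟩⟩
    rintro x ⟨-, m, hm, h⟩
    rw [h, (Subgroup.mem_bot.1 hm), map_one]

/-- The residual core. -/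
theorem residual_core [Nonempty ι] (H : Subgroup (GL ι F))
    (hSf : ∀ P₀ : Subgroup (GL ι F), P₀ ≤ H → HN H P₀ → ActsAbsolutelyIrreducibly (matrixSet P₀) →
      ∀ F₀ : Subfield F, F₀ ≠ ⊤ → ¬ RealisableOver F₀ (matrixSet P₀))
    (M : Subgroup (GL ι F)) (hMH : M ≤ H) (hMn : HN H M) (hA : ActsAbsolutelyIrreducibly (matrixSet M))
    (hMZ : ¬ M ≤ scalars ι F) (hMperf : ⁅M, M⁆ = M)
    (hsimple : ∀ T, HN M T → M ⊓ scalars ι F ≤ T → T ≤ M → T = M ⊓ scalars ι F ∨ T = M) :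
    IsResidualCore H M := by
  classical
  set Z := scalars ι F with hZ
  have hZc : Z ≤ Subgroup.center (GL ι F) := scalars_le_center
  let K : Subgroup M := Z.subgroupOf M
  have hKmem : ∀ x : M, x ∈ K ↔ (x : GL ι F) ∈ Z := fun x => Subgroup.mem_subgroupOf
  haveI hKn : K.Normal := by
    refine ⟨fun x hx g => ?_⟩
    rw [hKmem] at hx ⊢
    have := (normal_of_central hZc).conj_mem _ hx g
    simpa using this
  refine ⟨hMH, hMn, hMperf, ?_, ?_, ?_, hA, fun F₀ hF₀ hR => hSf M hMH hMn hA F₀ hF₀ hR⟩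
  · -- simple
    have hnt : Nontrivial (M ⧸ K) := by
      obtain ⟨x, hxM, hxZ⟩ := Set.not_subset.1 hMZ
      refine ⟨⟨QuotientGroup.mk ⟨x, hxM⟩, 1, ?_⟩⟩
      intro h
      apply hxZ
      have := (QuotientGroup.eq_one_iff _).1 h
      exact (hKmem _).1 this
    refine @IsSimpleGroup.mk _ _ hnt ?_
    intro N hN
    let N₀ : Subgroup M := N.comap (QuotientGroup.mk' K)
    let T : Subgroup (GL ι F) := N₀.map M.subtype
    have hTM : T ≤ M := Subgroup.map_subtype_le N₀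
    have hTmem : ∀ x : M, (x : GL ι F) ∈ T ↔ (QuotientGroup.mk x : M ⧸ K) ∈ N := by
      intro x
      constructor
      · rintro ⟨y, hy, hyx⟩
        have : y = x := Subtype.ext hyx
        rw [← this]
        exact hy
      · intro hx
        exact ⟨x, hx, rfl⟩
    have hTn : HN M T := by
      intro m hm x hx
      obtain ⟨y, hy, rfl⟩ := hx
      have h1 : (QuotientGroup.mk y : M ⧸ K) ∈ N := hy
      have h2 := hN.conj_mem _ h1 (QuotientGroup.mk ⟨m, hm⟩)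
      have h3 : (QuotientGroup.mk (⟨m, hm⟩ * y * (⟨m, hm⟩ : M)⁻¹) : M ⧸ K) ∈ N := by
        simpa using h2
      exact (hTmem _).2 h3
    have hZT : M ⊓ Z ≤ T := by
      rintro x ⟨hxM, hxZ⟩
      have h1 : (⟨x, hxM⟩ : M) ∈ K := (hKmem _).2 hxZ
      have h2 : (QuotientGroup.mk (⟨x, hxM⟩ : M) : M ⧸ K) = 1 := (QuotientGroup.eq_one_iff _).2 h1
      have := (hTmem ⟨x, hxM⟩).2 (by rw [h2]; exact N.one_mem)
      exact this
    rcases hsimple T hTn hZT hTM with h | h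
    · left
      rw [eq_bot_iff]
      intro q hq
      obtain ⟨x, rfl⟩ := QuotientGroup.mk_surjective q
      have h1 : (x : GL ι F) ∈ T := (hTmem x).2 hq
      rw [h] at h1
      exact (Subgroup.mem_bot).2 ((QuotientGroup.eq_one_iff _).2 ((hKmem x).2 h1.2))
    · right
      rw [eq_top_iff]
      intro q _
      obtain ⟨x, rfl⟩ := QuotientGroup.mk_surjective q
      have h1 : (x : GL ι F) ∈ T := by rw [h]; exact x.2
      exact (hTmem x).1 h1
  · -- non-abelian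
    intro hcomm
    apply hMZ
    rw [← hMperf, Subgroup.commutator_le]
    intro x hx y hy
    have h1 : (QuotientGroup.mk ⟨x, hx⟩ : M ⧸ K) * QuotientGroup.mk ⟨y, hy⟩ = QuotientGroup.mk ⟨y, hy⟩ * QuotientGroup.mk ⟨x, hx⟩ :=
      hcomm.is_comm.comm _ _
    have h2 : (QuotientGroup.mk (⟨x, hx⟩ * ⟨y, hy⟩ * (⟨x, hx⟩ : M)⁻¹ * (⟨y, hy⟩ : M)⁻¹) : M ⧸ K) = 1 := by
      simp only [QuotientGroup.mk_mul, QuotientGroup.mk_inv]
      rw [h1]
      group
    have h3 := (hKmem _).1 ((QuotientGroup.eq_one_iff _).1 h2)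
    exact h3
  · -- centraliser
    intro h hh hc
    have h1 : ⁅M, Subgroup.zpowers h⁆ ≤ Z := commutator_zpowers_le hZc (by
      intro a ha
      have h2 := Z.inv_mem (hc a ha)
      rw [commutatorElement_def]
      simpa [mul_assoc] using h2)
    have h2 := commutator_eq_bot_of_perfect hZc hMperf h1
    obtain ⟨c, hc'⟩ := hA.2 (h : Matrix ι ι F) (by
      rintro _ ⟨x, hx, rfl⟩
      have h3 := Subgroup.commutator_eq_bot_iff_le_centralizer.1 h2 hx
      have h4 := Subgroup.mem_centralizer_iff.1 h3 h (Subgroup.mem_zpowers h)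
      have h5 : (h : Matrix ι ι F) * (x : Matrix ι ι F) = (x : Matrix ι ι F) * (h : Matrix ι ι F) := by
        rw [← Units.val_mul, ← Units.val_mul, h4]
      exact h5)
    have hc0 : c ≠ 0 := by
      rintro rfl
      have h5 : IsUnit (h : Matrix ι ι F) := h.isUnit
      rw [hc', zero_smul] at h5
      exact not_isUnit_zero h5
    rw [mem_scalars_iff]
    exact ⟨Units.mk0 c hc0, hc'⟩

/-- The main trichotomy for a group of isometries in no class. -/
theorem aschF [Nonempty ι] (hcard : 2 ≤ Fintype.card ι) (hf : HF σ ε f) (H : Subgroup (GL ι F))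
    (hfix : ∀ g ∈ H, ∀ u v, f ((g : Matrix ι ι F) *ᵥ u) ((g : Matrix ι ι F) *ᵥ v) = f u v) (hNo : NoStr f σ ε H)
    (hWr : ∀ (a k : ℕ) (e₂ : ι ≃ (Fin k → Fin a)) (P₂ : GL ι F) (A : (Fin a → F) → (Fin a → F) → F) (ε₁ c : F),
      2 ≤ a → 2 ≤ k → HF σ ε₁ A → c ≠ 0 →
      (∀ x y : (Fin k → Fin a) → F, f ((P₂ : Matrix ι ι F) *ᵥ (x ∘ e₂)) ((P₂ : Matrix ι ι F) *ᵥ (y ∘ e₂)) =
        c * ∑ u, ∑ v, x u * (∏ i, gramMatrix A (u i) (v i)) * σ (y v)) → c * ε₁ ^ k = ε * σ c →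
      H ≤ tensorWreathSubgroup a k e₂ P₂ → False)
    (hSf : ∀ P₀ : Subgroup (GL ι F), P₀ ≤ H → HN H P₀ → ActsAbsolutelyIrreducibly (matrixSet P₀) →
      ∀ F₀ : Subfield F, F₀ ≠ ⊤ → ¬ RealisableOver F₀ (matrixSet P₀)) :
    (∃ (r : ℕ) (R : Subgroup (GL ι F)), r.Prime ∧ R ≤ H ∧ HN H R ∧ ActsAbsolutelyIrreducibly (matrixSet R) ∧ ScC R ∧
      ((r = 2 ∧ ∀ x ∈ R, ∃ m : Fˣ, m ^ 2 = 1 ∧ x ^ 2 = sc m) ∨ (Odd r ∧ ∀ x ∈ R, x ^ r = 1))) ∨
    (∃ P : Subgroup (GL ι F), IsResidualCore H P) := by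
  have hHZ := not_le_scalars' hcard hNo.irr
  have hD : ∀ N' : Subgroup (GL ι F), N' ≤ H → HN H N' → N' ≤ scalars ι F ∨ ActsAbsolutelyIrreducibly (matrixSet N') :=
    fun N' h1 h2 => normal_dichotomy_form hf H hfix hNo N' h1 h2
  rcases trichotomy scalars_le_center hHZ with
    ⟨N, hNH, hNn, hNZ, hab, hZN, hmin⟩ | ⟨M, hMH, hMn, hMZ, hMp, hs⟩ | ⟨M, T, hMH, hMn, hMZ, hMp, hTM, hTn, hTZ, hTp, hF, hG, hne⟩
  · exact Or.inl (extraspecial_reduce hcard H N hD hNH hNn hNZ hab hZN hmin)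
  · exact Or.inr ⟨M, residual_core H hSf M hMH hMn ((hD M hMH hMn).resolve_left hMZ) hMZ hMp hs⟩
  · exact (tensor_case_form hf H hfix M T hMH ((hD M hMH hMn).resolve_left hMZ) hTM hTn hTZ hF hG hne hWr).elim

end Cfsg.Agent.Lib.AschF.Top
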