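import Mathlib
import Cfsg.Agent.Lib.AschF.Top
import Cfsg.Agent.Lib.AschF.QuadR
import Cfsg.Agent.Lib.Geo.Basic
import Cfsg.Agent.Lib.Asch.IrrDim

/-!
# Quadratic forms in odd dimension: the classes and first reductions
-/

set_option autoImplicit false

namespace Cfsg.Agent.Lib.AschF.OddA

open Matrix Module Cfsg Cfsg.Geo
open Cfsg.Agent.Lib.Asch.Forms Cfsg.Agent.Lib.AschF.Adj Cfsg.Agent.Lib.AschF.Sub Cfsg.Agent.Lib.AschF.QuadR
  Cfsg.Agent.Lib.Geo.RatStruct Cfsg.Agent.Lib.AschF.Cliff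
open Cfsg.Agent.Lib.Geo.QForm (pol pol_self Q_zero)

universe u

variable {ι : Type} [Fintype ι] [DecidableEq ι] {F : Type u} [Field F]
variable {Q : (ι → F) → F}

theorem hf_polar (hQ : IsNondegenerateQuadraticForm Q) : HF (RingEquiv.refl F) 1 (pol Q) where
  sesq := ⟨hQ.polar_bilinear.add_left, hQ.polar_bilinear.smul_left, hQ.polar_bilinear.add_right, hQ.polar_bilinear.smul_right⟩
  nd := hQ.nondegenerate
  herm := fun u v => by
    simp only [RingEquiv.refl_apply, one_mul]
    exact QuadraticMap.polar_comm Q v u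
  invol := fun _ => rfl

theorem polar_isom {g : GL ι F} (hg : g ∈ isometryGroup F Q) (u v : ι → F) :
    pol Q ((g : Matrix ι ι F) *ᵥ u) ((g : Matrix ι ι F) *ᵥ v) = pol Q u v := by
  have hQg : ∀ w, Q ((g : Matrix ι ι F) *ᵥ w) = Q w := fun w => hg w 0
  simp only [pol, QuadraticMap.polar]
  rw [← Matrix.mulVec_add, hQg, hQg, hQg]

theorem Q_isom {g : GL ι F} (hg : g ∈ isometryGroup F Q) (w : ι → F) : Q ((g : Matrix ι ι F) *ᵥ w) = Q w := hg w 0

/-- The data of being in no class, odd dimensional orthogonal case. -/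
structure OddNoClass (Q : (ι → F) → F) [Fintype F] (H : Subgroup (GL ι F)) : Prop where
  ts : ∀ W : Submodule F (ι → F), W ≠ ⊥ → IsTotallySingularQuad Q W → H ≤ subspaceStabilizer W → False
  nd : ∀ W : Submodule F (ι → F), W ≠ ⊥ → W ≠ ⊤ → IsNondegenerateOn (pol Q) W → H ≤ subspaceStabilizer W → False
  dec2 : ∀ (t k : ℕ) (D : Fin t → Submodule F (ι → F)), 1 < k → IsOrthogonalMDecomposition Q k D →
    H ≤ decompositionStabilizer D → False
  dec1 : ∀ (t : ℕ) (D : Fin t → Submodule F (ι → F)), (Fintype.card F).Prime → IsOrthogonalMDecomposition Q 1 D →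
    H ≤ decompositionStabilizer D → False
  fld : ∀ (r : ℕ) (K : Subalgebra F (Matrix ι ι F)), r.Prime → Fintype.card ι ≠ r → IsFieldSubalgebra r K →
    IsSelfAdjointFor (pol Q) K → H ≤ subalgebraNormalizer K → False
  ten : ∀ (n₁ n₂ : ℕ) (e : ι ≃ Fin n₁ × Fin n₂) (P : GL ι F) (f₁ : (Fin n₁ → F) → (Fin n₁ → F) → F)
    (f₂ : (Fin n₂ → F) → (Fin n₂ → F) → F), 3 ≤ n₁ → n₁ < n₂ → IsSymmetricForm f₁ → IsSymmetricForm f₂ →
    IsTensorFormStructure id (pol Q) f₁ f₂ e P → H ≤ tensorProductSubgroup n₁ n₂ e P → False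
  sub : ∀ (F₀ : Subfield F) (r : ℕ) (P : GL ι F), r.Prime → Fintype.card F = Nat.card F₀ ^ r →
    IsQuadFormRationalStructure Q F₀ P → H ≤ subfieldSubgroup F₀ P → False
  wr : ∀ (k t : ℕ) (e : ι ≃ (Fin t → Fin k)) (P : GL ι F) (f₁ : (Fin k → F) → (Fin k → F) → F),
    3 ≤ k → 2 ≤ t → ¬ (Fintype.card F = 3 ∧ k = 3) → IsSymmetricForm f₁ → IsTensorPowerFormStructure id (pol Q) f₁ e P →
    H ≤ tensorWreathSubgroup k t e P → False

variable [Fintype F]

/-- Irreducibility. -/
theorem irr_of_noclass (hQ : IsNondegenerateQuadraticForm Q) (h2 : (2 : F) ≠ 0) {H : Subgroup (GL ι F)}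
    (hH : H ≤ isometryGroup F Q) (hNo : OddNoClass Q H) : ActsIrreducibly (matrixSet H) := by
  intro W hW
  have hinv : ∀ g ∈ H, ∀ v ∈ W, (g : Matrix ι ι F) *ᵥ v ∈ W := by
    intro g hg v hv
    exact hW _ ⟨g, hg, rfl⟩ ⟨v, hv, rfl⟩
  by_contra hcon
  push Not at hcon
  rcases reducible_cases (hf_polar hQ) H (fun g hg u v => polar_isom (hH hg) u v) hinv with ⟨W', hW', hts, hinv'⟩ | hnd
  · refine hNo.ts W' hW' (fun w hw => ?_) (fun g hg => ?_)
    · have h1 := hts w hw w hw
      rw [pol_self hQ] at h1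
      exact (mul_eq_zero.1 h1).resolve_left h2
    · exact (Cfsg.Agent.Lib.Geo.Basic.mem_subspaceStabilizer_iff_forall_mem W' g).2 (hinv' g hg)
  · exact hNo.nd W hcon.1 hcon.2 hnd (fun g hg => (Cfsg.Agent.Lib.Geo.Basic.mem_subspaceStabilizer_iff_forall_mem W g).2 (hinv g hg))

/-- Dimension count for decompositions. -/
theorem card_eq_of_decomp {t k : ℕ} {D : Fin t → Submodule F (ι → F)} (hD : IsMDecomposition k D) :
    Fintype.card ι = t * k := by
  have h1 := Cfsg.Agent.Lib.Asch.IrrDim.finrank_iSup_of_indep D hD.indep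
  rw [hD.iSup_eq_top, finrank_top, Module.finrank_fintype_fun_eq_card, Finset.sum_congr rfl fun i _ => hD.finrank_eq i,
    Finset.sum_const, Finset.card_univ, Fintype.card_fin, smul_eq_mul] at h1
  exact h1

/-- Isometric summands from transitivity. -/
theorem isometric_of_trans {H : Subgroup (GL ι F)} (hH : H ≤ isometryGroup F Q) {W W' : Submodule F (ι → F)} {g : GL ι F}
    (hg : g ∈ H) (h : W.map (Matrix.toLin' (g : Matrix ι ι F)) = W') : AreIsometricFor Q W W' := by
  have hinj : Function.Injective (Matrix.toLin' (g : Matrix ι ι F)) := by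
    intro x y hxy
    simp only [Matrix.toLin'_apply] at hxy
    have h1 := congrArg (fun w => ((g⁻¹ : GL ι F) : Matrix ι ι F) *ᵥ w) hxy
    simpa [Matrix.mulVec_mulVec, ← Units.val_mul] using h1
  refine ⟨(Submodule.equivMapOfInjective _ hinj W).trans (LinearEquiv.ofEq _ _ h), fun w => ?_⟩
  have : (((Submodule.equivMapOfInjective _ hinj W).trans (LinearEquiv.ofEq _ _ h)) w : W').1 = (g : Matrix ι ι F) *ᵥ (w : ι → F) := by
    rfl
  rw [this]
  exact Q_isom (hH hg) _

/-- A frame of vectors with scalar Gram matrix. -/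
theorem exists_frame_matrix (hs : Sesq (RingEquiv.refl F) (pol Q)) {κ : Type} [Fintype κ] [DecidableEq κ] (e : ι ≃ κ) (v : κ → ι → F) {b : F} (hb : b ≠ 0)
    (hv : ∀ i j, pol Q (v i) (v j) = if i = j then b else 0) :
    ∃ E : GL ι F, (∀ j, (E : Matrix ι ι F) *ᵥ Pi.single j 1 = v (e j)) ∧
      ∀ u w, pol Q ((E : Matrix ι ι F) *ᵥ u) ((E : Matrix ι ι F) *ᵥ w) = b * ∑ i, u i * w i := by
  classical
  let E₀ : Matrix ι ι F := Matrix.of fun i j => v (e j) i
  have hE₀s : ∀ j, E₀ *ᵥ Pi.single j 1 = v (e j) := by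
    intro j
    rw [Matrix.mulVec_single_one]
    rfl
  have hE₀ : ∀ u, E₀ *ᵥ u = ∑ j, u j • v (e j) := by
    intro u
    conv_lhs => rw [sum_single u]
    rw [Matrix.mulVec_sum]
    refine Finset.sum_congr rfl fun j _ => ?_
    rw [Matrix.mulVec_smul, hE₀s]
  have hform : ∀ u w, pol Q (E₀ *ᵥ u) (E₀ *ᵥ w) = b * ∑ i, u i * w i := by
    intro u w
    rw [hE₀, hE₀, Sesq_sum_left hs, Finset.mul_sum]
    refine Finset.sum_congr rfl fun i _ => ?_
    rw [Sesq_sum_right hs]
    simp only [hs.smul_left, hs.smul_right, hv, RingEquiv.refl_apply]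
    rw [Finset.sum_eq_single i]
    · simp
      ring
    · intro j _ hj
      have : ¬ e i = e j := fun h => hj (e.injective h).symm
      simp [this]
    · simp
  have hunit : IsUnit E₀ := by
    apply (Matrix.mulVec_injective_iff_isUnit).1
    change Function.Injective (Matrix.mulVecLin E₀)
    rw [injective_iff_map_eq_zero (Matrix.mulVecLin E₀)]
    intro u hu
    have hu' : E₀ *ᵥ u = 0 := hu
    funext j
    have h1 := hform u (Pi.single j 1)
    rw [hu', Sesq_zero_left hs] at h1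
    have h2 : ∑ i, u i * (Pi.single j (1 : F) : ι → F) i = u j := by
      rw [Finset.sum_eq_single j]
      · simp
      · intro i _ hi
        simp [Pi.single_eq_of_ne hi]
      · simp
    rw [h2] at h1
    exact (mul_eq_zero.1 h1.symm).resolve_left hb
  obtain ⟨E, hE⟩ := hunit
  refine ⟨E, fun j => ?_, fun u w => ?_⟩
  · rw [hE]
    exact hE₀s j
  · rw [hE]
    exact hform u w

/-- A monomial element relative to a frame with entries in a subfield lies in the subfield group. -/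
theorem mem_subfield_of_frame {κ : Type} [Fintype κ] [DecidableEq κ] (F₁ : Subfield F) (e : ι ≃ κ) (v : κ → ι → F)
    (E : GL ι F) (hE : ∀ j, (E : Matrix ι ι F) *ᵥ Pi.single j 1 = v (e j)) (h : GL ι F)
    (hmon : ∀ k, ∃ (k' : κ) (c : F), c ∈ F₁ ∧ (h : Matrix ι ι F) *ᵥ v k = c • v k') : h ∈ subfieldSubgroup F₁ E := by
  apply mem_subfield_of_entries
  intro i j
  obtain ⟨k', c, hc, hk⟩ := hmon (e j)
  have h1 : ((E⁻¹ * h * E : GL ι F) : Matrix ι ι F) *ᵥ Pi.single j 1 = c • Pi.single (e.symm k') (1 : F) := by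
    rw [Units.val_mul, Units.val_mul, ← Matrix.mulVec_mulVec, hE, ← Matrix.mulVec_mulVec, hk, Matrix.mulVec_smul]
    congr 1
    have h2 := hE (e.symm k')
    rw [Equiv.apply_symm_apply] at h2
    rw [← h2, Matrix.mulVec_mulVec, ← Units.val_mul, inv_mul_cancel, Units.val_one, Matrix.one_mulVec]
  have h3 := congrFun h1 i
  rw [Matrix.mulVec_single_one] at h3
  simp only [Matrix.col_apply, Pi.smul_apply, smul_eq_mul] at h3
  rw [h3]
  refine F₁.mul_mem hc ?_
  by_cases hik : i = e.symm k'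
  · subst hik
    simp [F₁.one_mem]
  · simp [Pi.single_eq_of_ne hik, F₁.zero_mem]

/-- A maximal subfield exists when the field is not prime. -/
theorem exists_max_of_not_prime (hnp : ¬ (Fintype.card F).Prime) :
    ∃ (F₁ : Subfield F) (s : ℕ), s.Prime ∧ Fintype.card F = Nat.card F₁ ^ s := by
  classical
  obtain ⟨p, hp⟩ := CharP.exists F
  haveI hpp : Fact p.Prime := ⟨CharP.char_is_prime F p⟩
  have hne : Cfsg.Agent.Lib.Asch.FieldSub.fixSub (F := F) p 1 ≠ ⊤ := by
    intro htop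
    have hall : ∀ x : F, x ^ p = x := by
      intro x
      have : x ∈ Cfsg.Agent.Lib.Asch.FieldSub.fixSub (F := F) p 1 := by rw [htop]; trivial
      rw [Cfsg.Agent.Lib.Asch.FieldSub.mem_fixSub, pow_one] at this
      exact this
    obtain ⟨n, hn, hcard⟩ := FiniteField.card F p
    apply hnp
    have hn1 : (n : ℕ) = 1 := by
      by_contra hne1
      have h2n : 2 ≤ (n : ℕ) := by
        have := n.pos
        omega
      -- all elements are roots of `X ^ p - X`
      have hroots : (Finset.univ : Finset F) ⊆ (Polynomial.X ^ p - Polynomial.X : Polynomial F).roots.toFinset := by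
        intro x _
        rw [Multiset.mem_toFinset, Polynomial.mem_roots]
        · simp [hall x]
        · exact FiniteField.X_pow_card_sub_X_ne_zero F hpp.out.one_lt
      have h1 := Finset.card_le_card hroots
      have h3 : (Polynomial.X ^ p - Polynomial.X : Polynomial F).roots.toFinset.card ≤ p := by
        refine (Multiset.toFinset_card_le _).trans ((Polynomial.card_roots' _).trans ?_)
        rw [FiniteField.X_pow_card_sub_X_natDegree_eq F hpp.out.one_lt]
      rw [Finset.card_univ, hcard] at h1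
      have h4 : p ^ 2 ≤ p ^ (n : ℕ) := Nat.pow_le_pow_right hpp.out.pos h2n
      have h5 : p < p ^ 2 := by
        have := hpp.out.two_le
        nlinarith
      omega
    rw [hcard, hn1, pow_one]
    exact hpp.out
  obtain ⟨F₁, s, k, -, hs, hcard, -, -⟩ := Cfsg.Agent.Lib.Asch.FieldSub.exists_max_subfield p _ hne
  exact ⟨F₁, s, hs, hcard⟩

/-- Frames over a non-prime field. -/
theorem frame_false (hQ : IsNondegenerateQuadraticForm Q) (h2 : (2 : F) ≠ 0) (hodd : Odd (Fintype.card ι))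
    (hEnt : ∀ (F₁ : Subfield F) (a b : ι), pol Q (Pi.single a 1) (Pi.single b 1) ∈ F₁)
    {H : Subgroup (GL ι F)} (hH : H ≤ isometryGroup F Q) (hNo : OddNoClass Q H) (hnp : ¬ (Fintype.card F).Prime)
    {t : ℕ} {D : Fin t → Submodule F (ι → F)} (hD : IsNondegenerateMDecomposition (pol Q) 1 D)
    (hle : H ≤ decompositionStabilizer D) (htr : ∀ i j, ∃ g ∈ H, (D i).map (Matrix.toLin' (g : Matrix ι ι F)) = D j) : False := by
  classical
  have hs := (hf_polar hQ).sesq
  have ht2 := hD.decomp.two_le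
  have hcardι := card_eq_of_decomp hD.decomp
  rw [mul_one] at hcardι
  let i₀ : Fin t := ⟨0, by omega⟩
  -- a generator of the first line
  have hline : ∀ i, ∀ w ∈ D i, w ≠ 0 → ∀ x ∈ D i, ∃ c : F, x = c • w := by
    intro i w hw hw0 x hx
    have h1 := (finrank_eq_one_iff_of_nonzero' (⟨w, hw⟩ : D i) (fun h => hw0 (congrArg Subtype.val h))).1 (hD.decomp.finrank_eq i) ⟨x, hx⟩
    obtain ⟨c, hc⟩ := h1
    refine ⟨c, ?_⟩
    have := congrArg Subtype.val hc
    exact this.symm
  obtain ⟨v₀, hv₀, hv₀0⟩ : ∃ v₀ ∈ D i₀, v₀ ≠ 0 := by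
    have h1 : finrank F (D i₀) = 1 := hD.decomp.finrank_eq i₀
    have h3 : D i₀ ≠ ⊥ := by
      intro h
      rw [h, finrank_bot] at h1
      exact zero_ne_one h1
    exact Submodule.exists_mem_ne_zero_of_ne_bot h3
  choose g hgH hg using htr i₀
  let v : Fin t → ι → F := fun j => (g j : Matrix ι ι F) *ᵥ v₀
  have hvD : ∀ j, v j ∈ D j := by
    intro j
    rw [← hg j]
    exact ⟨v₀, hv₀, rfl⟩
  set a := Q v₀ with ha
  have hQv : ∀ j, Q (v j) = a := fun j => Q_isom (hH (hgH j)) _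
  have ha0 : a ≠ 0 := by
    obtain ⟨⟨x, hx, hxv⟩, -⟩ := hD.nondegenerate i₀ v₀ hv₀ hv₀0
    obtain ⟨c, rfl⟩ := hline i₀ v₀ hv₀ hv₀0 x hx
    rw [hs.smul_left, pol_self hQ] at hxv
    intro h0
    rw [← ha, h0] at hxv
    simp at hxv
  have hv0 : ∀ j, v j ≠ 0 := by
    intro j h0
    have := hQv j
    rw [h0, Q_zero hQ] at this
    exact ha0 this.symm
  have hvv : ∀ i j, pol Q (v i) (v j) = if i = j then 2 * a else 0 := by
    intro i j
    by_cases hij : i = j
    · subst hij
      rw [if_pos rfl, pol_self hQ, hQv]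
    · rw [if_neg hij]
      exact hD.orthogonal i j hij _ (hvD i) _ (hvD j)
  have hb : 2 * a ≠ 0 := mul_ne_zero h2 ha0
  let e : ι ≃ Fin t := Fintype.equivOfCardEq (by rw [hcardι, Fintype.card_fin])
  obtain ⟨E, hE, hEform⟩ := exists_frame_matrix hs e v hb hvv
  obtain ⟨F₁, s, hs', hcard⟩ := exists_max_of_not_prime hnp
  have hmem : ∀ h ∈ H, h ∈ subfieldSubgroup F₁ E := by
    intro h hh
    refine mem_subfield_of_frame F₁ e v E hE h fun k => ?_
    obtain ⟨π, hπ⟩ := hle hh
    have h1 : (h : Matrix ι ι F) *ᵥ v k ∈ D (π k) := by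
      rw [← hπ k]
      exact ⟨v k, hvD k, rfl⟩
    obtain ⟨c, hc⟩ := hline (π k) _ (hvD (π k)) (hv0 _) _ h1
    refine ⟨π k, c, ?_, hc⟩
    have h3 := Q_isom (hH hh) (v k)
    rw [hc, hQ.smul, hQv, hQv] at h3
    have h4 : (c - 1) * (c + 1) = 0 := by
      have : (c ^ 2 - 1) * a = 0 := by linear_combination h3
      have h5 := (mul_eq_zero.1 this).resolve_right ha0
      linear_combination h5
    rcases mul_eq_zero.1 h4 with h5 | h5
    · rw [sub_eq_zero.1 h5]
      exact F₁.one_mem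
    · rw [eq_neg_of_add_eq_zero_left h5]
      exact F₁.neg_mem F₁.one_mem
  have hR : IsFormRationalStructure (pol Q) F₁ (2 * a)⁻¹ E := by
    intro u w hu hw
    rw [hEform, inv_mul_cancel_left₀ hb]
    exact F₁.sum_mem fun i _ => F₁.mul_mem (hu i) (hw i)
  obtain ⟨l, P', hl, hP', hq⟩ := quad_rational hQ h2 hodd hEnt F₁ hs' hcard E (inv_ne_zero hb) hR
  exact hNo.sub F₁ s P' hs' hcard hq (fun h hh => subfield_scale F₁ E l hl (hmem h hh) P' hP')

/-- Non-degenerate decompositions are excluded. -/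
theorem dec_of_noclass (hQ : IsNondegenerateQuadraticForm Q) (h2 : (2 : F) ≠ 0) (hodd : Odd (Fintype.card ι))
    (hEnt : ∀ (F₁ : Subfield F) (a b : ι), pol Q (Pi.single a 1) (Pi.single b 1) ∈ F₁)
    {H : Subgroup (GL ι F)} (hH : H ≤ isometryGroup F Q) (hNo : OddNoClass Q H)
    (t k : ℕ) (D : Fin t → Submodule F (ι → F)) (hD : IsNondegenerateMDecomposition (pol Q) k D)
    (hle : H ≤ decompositionStabilizer D) (htr : ∀ i j, ∃ g ∈ H, (D i).map (Matrix.toLin' (g : Matrix ι ι F)) = D j) : False := by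
  have hO : IsOrthogonalMDecomposition Q k D := ⟨hD, fun i j => by
    obtain ⟨g, hg, hgm⟩ := htr i j
    exact isometric_of_trans hH hg hgm⟩
  have hk := hD.decomp.pos
  rcases Nat.lt_or_ge 1 k with h1 | h1
  · exact hNo.dec2 t k D h1 hO hle
  · have hk1 : k = 1 := by omega
    subst hk1
    by_cases hp : (Fintype.card F).Prime
    · exact hNo.dec1 t D hp hO hle
    · exact frame_false hQ h2 hodd hEnt hH hNo hp hD hle htr

/-- No pairs of complementary totally singular subspaces in odd dimension. -/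
theorem pair_false (hodd : Odd (Fintype.card ι)) (k : ℕ) (D : Fin 2 → Submodule F (ι → F)) (hD : IsMDecomposition k D) : False := by
  have h1 := card_eq_of_decomp hD
  rw [h1] at hodd
  obtain ⟨x, hx⟩ := hodd
  omega

end Cfsg.Agent.Lib.AschF.OddA
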