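import Mathlib
import Cfsg.Agent.Lib.AschF.OddA
import Cfsg.Agent.Lib.Asch.MaxSN

/-!
# Extension fields in odd dimension
-/

set_option autoImplicit false

namespace Cfsg.Agent.Lib.AschF.OddB

open Matrix Module Cfsg Cfsg.Geo
open Cfsg.Agent.Lib.Asch.Forms Cfsg.Agent.Lib.AschF.Adj Cfsg.Agent.Lib.AschF.OddA
open Cfsg.Agent.Lib.Geo.QForm (pol pol_self Q_zero)

universe u

variable {ι : Type} [Fintype ι] [DecidableEq ι] {F : Type u} [Field F] [Fintype F]

theorem isField_K {r : ℕ} {K : Subalgebra F (Matrix ι ι F)} (hK : IsFieldSubalgebra r K) [Nonempty ι] : IsField K := by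
  refine ⟨⟨0, 1, zero_ne_one⟩, ?_, ?_⟩
  · intro x y
    exact Subtype.ext (hK.comm x.1 x.2 y.1 y.2)
  · intro x hx
    obtain ⟨y, hy, hxy⟩ := hK.inv x.1 x.2 (fun h => hx (Subtype.ext h))
    exact ⟨⟨y, hy⟩, Subtype.ext hxy⟩

section Ad
variable {f : (ι → F) → (ι → F) → F}

/-- The adjoint involution on a field closed under adjoints. -/
noncomputable def adK (hf : HF (RingEquiv.refl F) 1 f) {r : ℕ} {K : Subalgebra F (Matrix ι ι F)} (hK : IsFieldSubalgebra r K)
    (hadj : IsAdjointClosedFor f K) : K ≃ₐ[F] K where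
  toFun k := ⟨Ad (RingEquiv.refl F) f k, by
    obtain ⟨k', hk', h⟩ := hadj k k.2
    rw [← ad_unique hf h]
    exact hk'⟩
  invFun k := ⟨Ad (RingEquiv.refl F) f k, by
    obtain ⟨k', hk', h⟩ := hadj k k.2
    rw [← ad_unique hf h]
    exact hk'⟩
  left_inv k := Subtype.ext (ad_ad hf k)
  right_inv k := Subtype.ext (ad_ad hf k)
  map_mul' x y := by
    apply Subtype.ext
    change Ad (RingEquiv.refl F) f ((x : Matrix ι ι F) * y) = Ad (RingEquiv.refl F) f x * Ad (RingEquiv.refl F) f y
    rw [ad_mul hf, hK.comm (Ad (RingEquiv.refl F) f y)]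
    · obtain ⟨k', hk', h⟩ := hadj y y.2
      rw [← ad_unique hf h]
      exact hk'
    · obtain ⟨k', hk', h⟩ := hadj x x.2
      rw [← ad_unique hf h]
      exact hk'
  map_add' x y := Subtype.ext (ad_add hf x y)
  commutes' c := by
    apply Subtype.ext
    change Ad (RingEquiv.refl F) f (algebraMap F (Matrix ι ι F) c) = algebraMap F (Matrix ι ι F) c
    rw [Algebra.algebraMap_eq_smul_one, ad_smul hf, ad_one hf]
    rfl

/-- An odd degree field closed under adjoints for a symmetric form is self-adjoint. -/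
theorem selfadj_of_odd [Nonempty ι] (hf : HF (RingEquiv.refl F) 1 f) {r : ℕ} {K : Subalgebra F (Matrix ι ι F)} (hK : IsFieldSubalgebra r K)
    (hr : r.Prime) (hodd : Odd r) (hadj : IsAdjointClosedFor f K) : IsSelfAdjointFor f K := by
  classical
  letI fK : Field K := (isField_K hK).toField
  let α : K ≃ₐ[F] K := adK hf hK hadj
  have h1 : α * α = 1 := by
    ext k
    exact congrFun (congrFun (ad_ad hf k.1) _) _
  have h2 : orderOf α ∣ 2 := by
    apply orderOf_dvd_of_pow_eq_one
    rw [pow_two, h1]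
  have h3 : orderOf α ∣ r := by
    have h4 := orderOf_dvd_natCard α
    rwa [IsGalois.card_aut_eq_finrank, hK.finrank_eq] at h4
  have h4 : orderOf α = 1 := by
    have hcop : Nat.Coprime 2 r := Nat.coprime_two_left.2 hodd
    exact Nat.eq_one_of_dvd_coprimes hcop h2 h3
  have h5 : α = 1 := orderOf_eq_one_iff.1 h4
  intro k hk u v
  have h6 : Ad (RingEquiv.refl F) f k = k := by
    have := congrArg (fun β : K ≃ₐ[F] K => ((β ⟨k, hk⟩ : K) : Matrix ι ι F)) h5
    exact this
  conv_rhs => rw [← h6]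
  exact ad_spec hf k u v

/-- The commutant of a field of full degree. -/
theorem mem_of_comm [Nonempty ι] {K : Subalgebra F (Matrix ι ι F)} (hK : IsFieldSubalgebra (Fintype.card ι) K) (X : Matrix ι ι F)
    (hX : ∀ k ∈ K, X * k = k * X) : X ∈ K := by
  classical
  obtain ⟨i₀⟩ := ‹Nonempty ι›
  let v₀ : ι → F := Pi.single i₀ 1
  have hv₀ : v₀ ≠ 0 := by
    intro h0
    have := congrFun h0 i₀
    simp [v₀] at this
  let L : K →ₗ[F] (ι → F) :=
    { toFun := fun k => (k : Matrix ι ι F) *ᵥ v₀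
      map_add' := fun x y => Matrix.add_mulVec _ _ _
      map_smul' := fun c x => Matrix.smul_mulVec c (x : Matrix ι ι F) v₀ }
  have hinj : Function.Injective L := by
    rw [injective_iff_map_eq_zero]
    intro k hk
    by_contra hk0
    obtain ⟨y, hy, hky⟩ := hK.inv k k.2 (fun h => hk0 (Subtype.ext h))
    have h1 : (k : Matrix ι ι F) *ᵥ v₀ = 0 := hk
    have h2 : y * (k : Matrix ι ι F) = 1 := by rw [hK.comm y hy k k.2, hky]
    apply hv₀
    have h3 := congrArg (fun w => y *ᵥ w) h1
    simpa [Matrix.mulVec_mulVec, h2] using h3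
  have hsurj : Function.Surjective L := by
    refine (LinearMap.injective_iff_surjective_of_finrank_eq_finrank ?_).1 hinj
    rw [hK.finrank_eq, Module.finrank_fintype_fun_eq_card]
  obtain ⟨k, hk⟩ := hsurj (X *ᵥ v₀)
  have hk' : (k : Matrix ι ι F) *ᵥ v₀ = X *ᵥ v₀ := hk
  have hXk : X = k := by
    apply Matrix.ext_of_mulVec_single
    intro j
    obtain ⟨l, hl⟩ := hsurj (Pi.single j 1)
    have hl' : (l : Matrix ι ι F) *ᵥ v₀ = Pi.single j 1 := hl
    rw [← hl', Matrix.mulVec_mulVec, Matrix.mulVec_mulVec, hX l l.2, ← Matrix.mulVec_mulVec, ← hk', Matrix.mulVec_mulVec,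
      hK.comm l l.2 k k.2]
  rw [hXk]
  exact k.2

/-- Isometries in a self-adjoint field are `±1`. -/
theorem pm_of_mem [Nonempty ι] (hf : HF (RingEquiv.refl F) 1 f) {r : ℕ} {K : Subalgebra F (Matrix ι ι F)} (hK : IsFieldSubalgebra r K)
    (hsa : IsSelfAdjointFor f K) {c : Matrix ι ι F} (hc : c ∈ K) (hiso : ∀ u v, f (c *ᵥ u) (c *ᵥ v) = f u v) : c = 1 ∨ c = -1 := by
  have h1 : c * c = 1 := by
    apply Matrix.ext_of_mulVec_single
    intro j
    have : (c * c) *ᵥ Pi.single j 1 - (1 : Matrix ι ι F) *ᵥ Pi.single j 1 = 0 := by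
      apply hf.eq_zero_of_right
      intro u
      rw [Sesq_sub_right hf.sesq, ← Matrix.mulVec_mulVec, ← hsa c hc, hiso, Matrix.one_mulVec, sub_self]
    exact sub_eq_zero.1 this
  by_cases h0 : c - 1 = 0
  · exact Or.inl (sub_eq_zero.1 h0)
  · right
    obtain ⟨y, hy, hxy⟩ := hK.inv (c - 1) (K.sub_mem hc K.one_mem) h0
    have h3 : (c + 1) * (c - 1) = 0 := by
      have : (c + 1) * (c - 1) = c * c - c + (c - 1) := by noncomm_ring
      rw [this, h1]
      abel
    calc c = (c + 1) * ((c - 1) * y) - 1 := by rw [hxy, mul_one]; abel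
      _ = ((c + 1) * (c - 1)) * y - 1 := by rw [mul_assoc]
      _ = -1 := by rw [h3, zero_mul, zero_sub]

/-- Conjugation on the field. -/
noncomputable def conjK (K : Subalgebra F (Matrix ι ι F)) (g : GL ι F) (hg : g ∈ subalgebraNormalizer K) : K ≃ₐ[F] K where
  toFun k := ⟨(g : Matrix ι ι F) * k * ((g⁻¹ : GL ι F) : Matrix ι ι F), (hg k).1 k.2⟩
  invFun k := ⟨((g⁻¹ : GL ι F) : Matrix ι ι F) * k * (g : Matrix ι ι F), by
    apply (hg _).2
    have h1 : (g : Matrix ι ι F) * (((g⁻¹ : GL ι F) : Matrix ι ι F) * (k : Matrix ι ι F) * (g : Matrix ι ι F)) * ((g⁻¹ : GL ι F) : Matrix ι ι F) = k := by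
      simp [mul_assoc, ← Units.val_mul]
    rw [h1]
    exact k.2⟩
  left_inv k := by
    apply Subtype.ext
    simp [mul_assoc, ← Units.val_mul]
  right_inv k := by
    apply Subtype.ext
    simp [mul_assoc, ← Units.val_mul]
  map_mul' x y := by
    apply Subtype.ext
    change (g : Matrix ι ι F) * ((x : Matrix ι ι F) * y) * ((g⁻¹ : GL ι F) : Matrix ι ι F) =
      ((g : Matrix ι ι F) * x * ((g⁻¹ : GL ι F) : Matrix ι ι F)) * ((g : Matrix ι ι F) * y * ((g⁻¹ : GL ι F) : Matrix ι ι F))
    simp [mul_assoc, ← Units.val_mul]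
  map_add' x y := by
    apply Subtype.ext
    change (g : Matrix ι ι F) * ((x : Matrix ι ι F) + y) * ((g⁻¹ : GL ι F) : Matrix ι ι F) = _ + _
    rw [mul_add, add_mul]
  commutes' c := by
    apply Subtype.ext
    change (g : Matrix ι ι F) * (algebraMap F (Matrix ι ι F) c) * ((g⁻¹ : GL ι F) : Matrix ι ι F) = algebraMap F (Matrix ι ι F) c
    rw [Algebra.algebraMap_eq_smul_one, Matrix.mul_smul, Matrix.smul_mul, mul_one, ← Units.val_mul, mul_inv_cancel, Units.val_one]

theorem conjK_apply (K : Subalgebra F (Matrix ι ι F)) (g : GL ι F) (hg : g ∈ subalgebraNormalizer K) (k : K) :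
    ((conjK K g hg k : K) : Matrix ι ι F) = (g : Matrix ι ι F) * k * ((g⁻¹ : GL ι F) : Matrix ι ι F) := rfl

/-- Conjugation as a homomorphism. -/
noncomputable def conjHom (K : Subalgebra F (Matrix ι ι F)) : subalgebraNormalizer K →* (K ≃ₐ[F] K) :=
  MonoidHom.mk' (fun g => conjK K g g.2) (by
    intro a b
    apply AlgEquiv.ext
    intro k
    apply Subtype.ext
    change (((a : GL ι F) * (b : GL ι F) : GL ι F) : Matrix ι ι F) * k * ((((a : GL ι F) * (b : GL ι F) : GL ι F)⁻¹ : GL ι F) : Matrix ι ι F) =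
      ((a : GL ι F) : Matrix ι ι F) * (((b : GL ι F) : Matrix ι ι F) * k * (((b : GL ι F)⁻¹ : GL ι F) : Matrix ι ι F)) * (((a : GL ι F)⁻¹ : GL ι F) : Matrix ι ι F)
    rw [_root_.mul_inv_rev]
    simp only [Units.val_mul, mul_assoc])

theorem conjHom_apply (K : Subalgebra F (Matrix ι ι F)) (g : subalgebraNormalizer K) (k : K) :
    ((conjHom K g k : K) : Matrix ι ι F) = ((g : GL ι F) : Matrix ι ι F) * k * (((g : GL ι F)⁻¹ : GL ι F) : Matrix ι ι F) := rfl

/-- An element with trivial conjugation commutes with the field. -/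
theorem comm_of_conjHom_eq_one (K : Subalgebra F (Matrix ι ι F)) (g : subalgebraNormalizer K) (h : conjHom K g = 1) (k : Matrix ι ι F) (hk : k ∈ K) :
    ((g : GL ι F) : Matrix ι ι F) * k = k * ((g : GL ι F) : Matrix ι ι F) := by
  have h1 := congrArg (fun β : K ≃ₐ[F] K => ((β ⟨k, hk⟩ : K) : Matrix ι ι F)) h
  simp only [conjHom_apply] at h1
  change ((g : GL ι F) : Matrix ι ι F) * k * (((g : GL ι F)⁻¹ : GL ι F) : Matrix ι ι F) = k at h1
  calc ((g : GL ι F) : Matrix ι ι F) * k = ((g : GL ι F) : Matrix ι ι F) * k * ((((g : GL ι F)⁻¹ : GL ι F) : Matrix ι ι F) * ((g : GL ι F) : Matrix ι ι F)) := by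
        rw [← Units.val_mul, inv_mul_cancel, Units.val_one, mul_one]
    _ = (((g : GL ι F) : Matrix ι ι F) * k * (((g : GL ι F)⁻¹ : GL ι F) : Matrix ι ι F)) * ((g : GL ι F) : Matrix ι ι F) := by
        simp only [mul_assoc]
    _ = k * ((g : GL ι F) : Matrix ι ι F) := by rw [h1]

/-- A matrix `y` with `y ^ n = 1` for `n` a prime has a proper invariant subspace or is the identity. -/
theorem exists_invariant_of_pow_eq_one [Nonempty ι] (y : Matrix ι ι F) {n : ℕ} (hn : n = Fintype.card ι) (hn2 : 2 ≤ n) (hy : y ^ n = 1) :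
    y = 1 ∨ ∃ W : Submodule F (ι → F), W ≠ ⊥ ∧ W ≠ ⊤ ∧ ∀ w ∈ W, y *ᵥ w ∈ W := by
  classical
  by_cases hker : ∃ v : ι → F, v ≠ 0 ∧ y *ᵥ v = v
  · -- fixed vectors
    by_cases hone : y = 1
    · exact Or.inl hone
    right
    obtain ⟨v, hv0, hv⟩ := hker
    refine ⟨LinearMap.ker (Matrix.mulVecLin (y - 1)), ?_, ?_, ?_⟩
    · intro h
      have : v ∈ LinearMap.ker (Matrix.mulVecLin (y - 1)) := by
        rw [LinearMap.mem_ker, Matrix.mulVecLin_apply, Matrix.sub_mulVec, Matrix.one_mulVec, hv, sub_self]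
      rw [h] at this
      exact hv0 (by simpa using this)
    · intro h
      apply hone
      have h3 : y - 1 = 0 := by
        apply Matrix.ext_of_mulVec_single
        intro j
        have : (Pi.single j 1 : ι → F) ∈ LinearMap.ker (Matrix.mulVecLin (y - 1)) := by rw [h]; trivial
        rw [LinearMap.mem_ker, Matrix.mulVecLin_apply] at this
        rw [this, Matrix.zero_mulVec]
      exact sub_eq_zero.1 h3
    · intro w hw
      rw [LinearMap.mem_ker, Matrix.mulVecLin_apply] at hw ⊢
      rw [Matrix.sub_mulVec, Matrix.one_mulVec] at hw ⊢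
      have h1 : y *ᵥ w = w := sub_eq_zero.1 hw
      rw [h1]
      exact hw
  · right
    push Not at hker
    obtain ⟨i₀⟩ := ‹Nonempty ι›
    let v : ι → F := Pi.single i₀ 1
    have hv : v ≠ 0 := by
      intro h0
      have := congrFun h0 i₀
      simp [v] at this
    -- the sum of powers vanishes
    let g : ℕ → ι → F := fun i => (y ^ i) *ᵥ v
    have hg0 : g 0 = v := by simp [g]
    have hgn : g n = v := by simp [g, hy]
    have hgs : ∀ i, y *ᵥ g i = g (i + 1) := by
      intro i
      simp only [g, Matrix.mulVec_mulVec]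
      rw [pow_succ']
    have hsum : ∑ i ∈ Finset.range n, g i = 0 := by
      by_contra hne
      apply hker _ hne
      rw [Matrix.mulVec_sum]
      simp only [hgs]
      have h1 := Finset.sum_range_succ' g n
      rw [Finset.sum_range_succ, hg0, hgn] at h1
      exact (add_right_cancel h1).symm
    obtain ⟨n', rfl⟩ : ∃ n', n = n' + 1 := ⟨n - 1, by omega⟩
    have hn' : 1 ≤ n' := by omega
    let W : Submodule F (ι → F) := Submodule.span F (g '' (Finset.range n' : Set ℕ))
    have hgW : ∀ i, i < n' → g i ∈ W := fun i hi => Submodule.subset_span ⟨i, by simpa using hi, rfl⟩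
    refine ⟨W, ?_, ?_, ?_⟩
    · intro h
      have h1 := hgW 0 (by omega)
      rw [h, hg0] at h1
      exact hv (by simpa using h1)
    · intro h
      have h1 : finrank F W ≤ n' := by
        have h3 := finrank_span_finset_le_card (R := F) ((Finset.range n').image g)
        rw [Finset.coe_image] at h3
        refine h3.trans ?_
        refine Finset.card_image_le.trans ?_
        simp
      rw [h, finrank_top, Module.finrank_fintype_fun_eq_card, ← hn] at h1
      omega
    · intro w hw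
      induction hw using Submodule.span_induction with
      | mem x hx =>
        obtain ⟨i, hi, rfl⟩ := hx
        have hi' : i < n' := by simpa using hi
        rw [hgs]
        by_cases hin : i + 1 < n'
        · exact hgW _ hin
        · have hin' : i + 1 = n' := by omega
          rw [hin']
          rw [Finset.sum_range_succ] at hsum
          have h1 : g n' = - ∑ i ∈ Finset.range n', g i := eq_neg_of_add_eq_zero_right hsum
          rw [h1]
          exact W.neg_mem (W.sum_mem fun j hj => hgW j (by simpa using hj))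
      | zero => simp
      | add x z _ _ hx hz =>
        rw [Matrix.mulVec_add]
        exact W.add_mem hx hz
      | smul c x _ hx =>
        rw [Matrix.mulVec_smul]
        exact W.smul_mem c hx

end Ad

variable {Q : (ι → F) → F}

/-- Extension fields are excluded. -/
theorem fld_false [Nonempty ι] (hQ : IsNondegenerateQuadraticForm Q) (h2 : (2 : F) ≠ 0) (hodd : Odd (Fintype.card ι))
    (hcard : 2 ≤ Fintype.card ι) {H : Subgroup (GL ι F)} (hH : H ≤ isometryGroup F Q) (hNo : OddNoClass Q H)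
    (r : ℕ) (K : Subalgebra F (Matrix ι ι F)) (hr : r.Prime) (hK : IsFieldSubalgebra r K) (hadj : IsAdjointClosedFor (pol Q) K)
    (hle : H ≤ subalgebraNormalizer K) : False := by
  classical
  have hf := hf_polar hQ
  have hdvd := Cfsg.Agent.Lib.Asch.MaxSN.field_dvd hK
  have hrodd : Odd r := hodd.of_dvd_nat hdvd
  have hsa := selfadj_of_odd hf hK hr hrodd hadj
  by_cases hrn : Fintype.card ι = r
  swap
  · exact hNo.fld r K hr hrn hK hsa hle
  subst hrn
  haveI : Fact (Fintype.card ι).Prime := ⟨hr⟩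
  have hirr := irr_of_noclass hQ h2 hH hNo
  letI fK : Field K := (isField_K hK).toField
  have hcardG : Nat.card (K ≃ₐ[F] K) = Fintype.card ι := by
    rw [IsGalois.card_aut_eq_finrank, hK.finrank_eq]
  haveI : Finite (K ≃ₐ[F] K) := Nat.finite_of_card_ne_zero (by rw [hcardG]; exact hr.ne_zero)
  letI : Fintype (K ≃ₐ[F] K) := Fintype.ofFinite _
  have hcardG' : Fintype.card (K ≃ₐ[F] K) = Fintype.card ι := by rw [← Nat.card_eq_fintype_card, hcardG]
  -- isometries with trivial conjugation
  have hpm : ∀ g : subalgebraNormalizer K, conjHom K g = 1 → (g : GL ι F) ∈ isometryGroup F Q →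
      ((g : GL ι F) : Matrix ι ι F) = 1 ∨ ((g : GL ι F) : Matrix ι ι F) = -1 := by
    intro g hg hgI
    have h1 : ((g : GL ι F) : Matrix ι ι F) ∈ K := mem_of_comm hK _ (comm_of_conjHom_eq_one K g hg)
    exact pm_of_mem hf hK hsa h1 (polar_isom hgI)
  -- scalars contradiction
  have hscal : ¬ H ≤ scalars ι F := Cfsg.Agent.Lib.AschF.Top.not_le_scalars' hcard hirr
  have hpm_scal : ∀ h : GL ι F, ((h : Matrix ι ι F) = 1 ∨ (h : Matrix ι ι F) = -1) → h ∈ scalars ι F := by
    intro h hh
    rw [mem_scalars_iff]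
    rcases hh with hh | hh
    · exact ⟨1, by simp [hh]⟩
    · exact ⟨-1, by simp [hh]⟩
  apply hscal
  by_cases hx : ∃ x, ∃ hxH : x ∈ H, conjHom K ⟨x, hle hxH⟩ ≠ 1
  · obtain ⟨x, hxH, hx1⟩ := hx
    set x' : subalgebraNormalizer K := ⟨x, hle hxH⟩ with hx'
    -- every element is `± x ^ j`
    have hall : ∀ h ∈ H, ∃ j : ℕ, (h : Matrix ι ι F) = (x : Matrix ι ι F) ^ j ∨ (h : Matrix ι ι F) = - (x : Matrix ι ι F) ^ j := by
      intro h hh
      obtain ⟨j, hj⟩ := mem_powers_of_prime_card hcardG hx1 (g' := conjHom K ⟨h, hle hh⟩)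
      replace hj : conjHom K x' ^ j = conjHom K ⟨h, hle hh⟩ := hj
      refine ⟨j, ?_⟩
      have h3 : conjHom K ((x' ^ j)⁻¹ * ⟨h, hle hh⟩) = 1 := by
        rw [map_mul, map_inv, map_pow, hj, inv_mul_cancel]
      have h4 : (((x' ^ j)⁻¹ * ⟨h, hle hh⟩ : subalgebraNormalizer K) : GL ι F) ∈ isometryGroup F Q := by
        have : (((x' ^ j)⁻¹ * ⟨h, hle hh⟩ : subalgebraNormalizer K) : GL ι F) = (x ^ j)⁻¹ * h := by
          simp [hx']
        rw [this]
        exact hH (H.mul_mem (H.inv_mem (H.pow_mem hxH j)) hh)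
      have hval : (((x' ^ j)⁻¹ * ⟨h, hle hh⟩ : subalgebraNormalizer K) : GL ι F) = (x ^ j)⁻¹ * h := by
        simp [hx']
      have hfac : (h : Matrix ι ι F) = (x : Matrix ι ι F) ^ j * ((((x' ^ j)⁻¹ * ⟨h, hle hh⟩ : subalgebraNormalizer K) : GL ι F) : Matrix ι ι F) := by
        rw [hval, ← Units.val_pow_eq_pow_val, ← Units.val_mul, mul_inv_cancel_left]
      rcases hpm _ h3 h4 with h5 | h5
      · left
        rw [hfac, h5, mul_one]
      · right
        rw [hfac, h5, mul_neg, mul_one]
    -- the power `x ^ n`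
    set n := Fintype.card ι with hn
    have hxn : ((x ^ n : GL ι F) : Matrix ι ι F) = 1 ∨ ((x ^ n : GL ι F) : Matrix ι ι F) = -1 := by
      have h3 : conjHom K (x' ^ n) = 1 := by
        rw [map_pow, ← hcardG']
        exact pow_card_eq_one
      have h4 : ((x' ^ n : subalgebraNormalizer K) : GL ι F) = x ^ n := by simp [hx']
      have h5 := hpm _ h3 (by rw [h4]; exact hH (H.pow_mem hxH n))
      rwa [h4] at h5
    obtain ⟨ε₀, hε₀, hxε⟩ : ∃ ε₀ : F, (ε₀ = 1 ∨ ε₀ = -1) ∧ (x : Matrix ι ι F) ^ n = ε₀ • 1 := by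
      rw [← Units.val_pow_eq_pow_val]
      rcases hxn with h3 | h3
      · exact ⟨1, Or.inl rfl, by rw [h3, one_smul]⟩
      · exact ⟨-1, Or.inr rfl, by rw [h3, neg_smul, one_smul]⟩
    have hε₀2 : ε₀ * ε₀ = 1 := by
      rcases hε₀ with rfl | rfl <;> ring
    have hε₀n : ε₀ ^ n = ε₀ := by
      obtain ⟨t, ht⟩ := hodd
      rw [ht, pow_succ, pow_mul, pow_two, hε₀2, one_pow, one_mul]
    let y : Matrix ι ι F := ε₀ • (x : Matrix ι ι F)
    have hy : y ^ n = 1 := by
      simp only [y]
      rw [smul_pow, hxε, hε₀n, smul_smul, hε₀2, one_smul]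
    have hX : (x : Matrix ι ι F) = ε₀ • y := by
      simp only [y]
      rw [smul_smul, hε₀2, one_smul]
    have hXinv : ∀ W : Submodule F (ι → F), (∀ w ∈ W, y *ᵥ w ∈ W) → ∀ (j : ℕ), ∀ w ∈ W, ((x : Matrix ι ι F) ^ j) *ᵥ w ∈ W := by
      intro W hW j
      induction j with
      | zero =>
        intro w hw
        simpa using hw
      | succ j ih =>
        intro w hw
        rw [pow_succ', ← Matrix.mulVec_mulVec, hX, Matrix.smul_mulVec]
        exact W.smul_mem _ (hW _ (by
          rw [← hX]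
          exact ih w hw))
    rcases exists_invariant_of_pow_eq_one y hn (by omega) hy with hy1 | ⟨W, hW0, hWt, hW⟩
    · -- `x` is a sign
      intro h hh
      obtain ⟨j, hj⟩ := hall h hh
      have hX1 : (x : Matrix ι ι F) = ε₀ • 1 := by rw [hX, hy1]
      have hpow : ∀ j : ℕ, (x : Matrix ι ι F) ^ j = 1 ∨ (x : Matrix ι ι F) ^ j = -1 := by
        intro j
        rw [hX1, smul_pow, one_pow]
        have : ε₀ ^ j = 1 ∨ ε₀ ^ j = -1 := by
          rcases hε₀ with rfl | rfl
          · simp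
          · exact neg_one_pow_eq_or F j
        rcases this with h3 | h3 <;> rw [h3]
        · left; simp
        · right; simp
      apply hpm_scal
      rcases hj with hj | hj <;> rcases hpow j with h3 | h3 <;> rw [hj, h3]
      · simp
      · simp
      · simp
      · simp
    · exfalso
      rcases hirr W (by
        rintro _ ⟨h, hh, rfl⟩ _ ⟨w, hw, rfl⟩
        obtain ⟨j, hj⟩ := hall h hh
        simp only [Matrix.toLin'_apply]
        rcases hj with hj | hj
        · rw [hj]
          exact hXinv W hW j w hw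
        · rw [hj, Matrix.neg_mulVec]
          exact W.neg_mem (hXinv W hW j w hw)) with h3 | h3
      · exact hW0 h3
      · exact hWt h3
  · push Not at hx
    intro h hh
    exact hpm_scal h (hpm ⟨h, hle hh⟩ (hx h hh) (hH hh))

end Cfsg.Agent.Lib.AschF.OddB
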