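import Mathlib
import Cfsg.Agent.Lib.AschF.OddB
import Cfsg.Agent.Lib.GraphInv.Forms
import Cfsg.Agent.Lib.Ten.Mm

/-!
# Tensor decompositions in odd dimension
-/

set_option autoImplicit false

namespace Cfsg.Agent.Lib.AschF.OddC

open Matrix Module Cfsg Cfsg.Geo
open Cfsg.Agent.Lib.Asch.Forms Cfsg.Agent.Lib.AschF.Adj Cfsg.Agent.Lib.AschF.OddA Cfsg.Agent.Lib.AschF.Inv
open Cfsg.Agent.Lib.Asch.Kr Cfsg.Agent.Lib.NotMax.Tensor Cfsg.Agent.Lib.Asch.Cl
open Cfsg.Agent.Lib.Ten.Mm
open Cfsg.Agent.Lib.Geo.QForm (pol pol_self Q_zero)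
open scoped Kronecker

universe u

variable {F : Type u} [Field F]

section Forms
variable {a : ℕ}

/-- The sign of a form in odd dimension is one. -/
theorem eps_eq_one_of_odd {A : (Fin a → F) → (Fin a → F) → F} {ε₁ : F} (hA : HF (RingEquiv.refl F) ε₁ A) (ha : Odd a) : ε₁ = 1 := by
  classical
  have hG := gram_unit hA.sesq hA.nd
  have hdet : (gram A).det ≠ 0 := ((Matrix.isUnit_iff_isUnit_det _).1 hG).ne_zero
  have htr : (gram A)ᵀ = ε₁ • gram A := by
    ext i j
    simp only [Matrix.transpose_apply, Matrix.smul_apply, smul_eq_mul, Cfsg.Agent.Lib.Asch.Forms.gram]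
    exact hA.herm _ _
  have h1 : ε₁ ^ a = 1 := by
    have h2 := congrArg Matrix.det htr
    rw [Matrix.det_transpose, Matrix.det_smul, Fintype.card_fin] at h2
    have h3 : (ε₁ ^ a - 1) * (gram A).det = 0 := by linear_combination -h2
    exact sub_eq_zero.1 ((mul_eq_zero.1 h3).resolve_right hdet)
  have hne : gram A ≠ 0 := by
    intro h0
    rw [h0] at hdet
    have ha0 : 0 < a := ha.pos
    haveI : Nonempty (Fin a) := ⟨⟨0, ha0⟩⟩
    simp at hdet
  obtain ⟨i, j, hij⟩ : ∃ i j, gram A i j ≠ 0 := by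
    by_contra hcon
    push Not at hcon
    exact hne (Matrix.ext hcon)
  have h3 : ε₁ * ε₁ = 1 := by
    have h4 := congrFun (congrFun htr i) j
    have h5 := congrFun (congrFun htr j) i
    simp only [Matrix.transpose_apply, Matrix.smul_apply, smul_eq_mul] at h4 h5
    have h6 : (ε₁ * ε₁ - 1) * gram A i j = 0 := by linear_combination -h5 - ε₁ * h4
    exact sub_eq_zero.1 ((mul_eq_zero.1 h6).resolve_right hij)
  obtain ⟨t, ht⟩ := ha
  rw [ht, pow_succ, pow_mul, pow_two, h3, one_pow, one_mul] at h1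
  exact h1

theorem symmetric_of_HF {κ : Type} [Fintype κ] [DecidableEq κ] {A : (κ → F) → (κ → F) → F} (hA : HF (RingEquiv.refl F) 1 A) : IsSymmetricForm A where
  bilinear := ⟨hA.sesq.add_left, hA.sesq.smul_left, hA.sesq.add_right, hA.sesq.smul_right⟩
  symm := fun u v => by
    have := hA.herm v u
    simpa using this
  nondegenerate := hA.nd

variable [Fintype F]

/-- Any two non-degenerate symmetric forms of the same odd dimension are similar. -/
theorem exists_similar_forms (h2 : (2 : F) ≠ 0) (ha : Odd a) {A₁ A₂ : (Fin a → F) → (Fin a → F) → F}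
    (h₁ : HF (RingEquiv.refl F) 1 A₁) (h₂ : HF (RingEquiv.refl F) 1 A₂) :
    ∃ (μ : F) (g : GL (Fin a) F), μ ≠ 0 ∧ ∀ x y, A₂ ((g : Matrix (Fin a) (Fin a) F) *ᵥ x) ((g : Matrix (Fin a) (Fin a) F) *ᵥ y) = μ * A₁ x y := by
  classical
  set G₁ := gram A₁ with hG₁
  set G₂ := gram A₂ with hG₂
  have hd₁ : G₁.det ≠ 0 := ((Matrix.isUnit_iff_isUnit_det _).1 (gram_unit h₁.sesq h₁.nd)).ne_zero
  have hd₂ : G₂.det ≠ 0 := ((Matrix.isUnit_iff_isUnit_det _).1 (gram_unit h₂.sesq h₂.nd)).ne_zero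
  have hS₁ : G₁ᵀ = G₁ := by
    ext i j
    have := h₁.herm (Pi.single j 1) (Pi.single i 1)
    simpa [hG₁, Cfsg.Agent.Lib.Asch.Forms.gram] using this.symm
  have hS₂ : G₂ᵀ = G₂ := by
    ext i j
    have := h₂.herm (Pi.single j 1) (Pi.single i 1)
    simpa [hG₂, Cfsg.Agent.Lib.Asch.Forms.gram] using this.symm
  set d : F := G₂.det / G₁.det with hd
  have hd0 : d ≠ 0 := div_ne_zero hd₂ hd₁
  have hdG : d * G₁.det = G₂.det := by
    rw [hd]
    field_simp
  have hdet : (d • G₁).det = d ^ a * G₁.det := by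
    rw [Matrix.det_smul, Fintype.card_fin]
  obtain ⟨t, ht⟩ := ha
  have hsq : IsSquare (G₂.det * (d • G₁).det) := by
    rw [hdet]
    refine ⟨d ^ t * G₂.det, ?_⟩
    have hpa : d ^ a = (d ^ t) ^ 2 * d := by rw [ht]; ring
    rw [hpa, ← hdG]
    ring
  obtain ⟨P, P', c, hPP', hP'P, hPG⟩ := Cfsg.Agent.Lib.GraphInv.Forms.cong_of_disc h2 hS₂ (by
    rw [Matrix.transpose_smul, hS₁]) hd₂ (by
    rw [hdet]
    exact mul_ne_zero (pow_ne_zero _ hd0) hd₁) rfl hsq
  refine ⟨c * d, ⟨P, P', hPP', hP'P⟩, mul_ne_zero c.ne_zero hd0, fun x y => ?_⟩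
  change A₂ (P *ᵥ x) (P *ᵥ y) = _
  have hS := h₂.sesq
  have hΦ : Sesq (RingEquiv.refl F) (fun u v => A₂ (P *ᵥ u) (P *ᵥ v)) := by
    refine ⟨fun x y v => ?_, fun c x v => ?_, fun v x y => ?_, fun c v x => ?_⟩
    · simp only [Matrix.mulVec_add, hS.add_left]
    · simp only [Matrix.mulVec_smul, hS.smul_left]
    · simp only [Matrix.mulVec_add, hS.add_right]
    · simp only [Matrix.mulVec_smul, hS.smul_right]
  have h3 := gram_comp hS P
  have hmap : P.map (RingEquiv.refl F) = P := by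
    ext i j
    rfl
  rw [hmap, hPG, smul_smul] at h3
  have h4 : A₂ (P *ᵥ x) (P *ᵥ y) = _ := eq_gram hΦ x y
  rw [h4, h3, eq_gram h₁.sesq x y, Matrix.smul_mulVec, dotProduct_smul, smul_eq_mul]

end Forms

section Dot
variable {a : ℕ}

/-- The standard dot product. -/
def dotF (x y : Fin a → F) : F := ∑ i, x i * y i

theorem dotF_HF : HF (RingEquiv.refl F) 1 (dotF (F := F) (a := a)) where
  sesq := by
    refine ⟨fun x y v => ?_, fun c x v => ?_, fun v x y => ?_, fun c v x => ?_⟩
    · simp [dotF, add_mul, Finset.sum_add_distrib]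
    · simp [dotF, Finset.mul_sum, mul_assoc]
    · simp [dotF, mul_add, Finset.sum_add_distrib]
    · simp only [dotF, Pi.smul_apply, smul_eq_mul, Finset.mul_sum, RingEquiv.refl_apply]
      exact Finset.sum_congr rfl fun i _ => by ring
  nd := by
    intro v hv
    obtain ⟨i, hi⟩ := Function.ne_iff.mp hv
    refine ⟨⟨Pi.single i 1, ?_⟩, ⟨Pi.single i 1, ?_⟩⟩
    · rw [dotF, Finset.sum_eq_single i]
      · simpa using hi
      · intro j _ hj
        simp [Pi.single_eq_of_ne hj]
      · simp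
    · rw [dotF, Finset.sum_eq_single i]
      · simpa using hi
      · intro j _ hj
        simp [Pi.single_eq_of_ne hj]
      · simp
  herm := fun u v => by
    simp only [dotF, RingEquiv.refl_apply, one_mul]
    exact Finset.sum_congr rfl fun i _ => mul_comm _ _
  invol := fun _ => rfl

end Dot

section Three
variable [Fintype F]

theorem f3_sq (h3 : Fintype.card F = 3) {x : F} (hx : x ≠ 0) : x ^ 2 = 1 := by
  have := FiniteField.pow_card_sub_one_eq_one x hx
  rwa [h3] at this

theorem f3_three (h3 : Fintype.card F = 3) : (1 : F) + 1 + 1 = 0 := by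
  have h4 : ((Fintype.card F : ℕ) : F) = 0 := by
    obtain ⟨p, hp⟩ := CharP.exists F
    exact FiniteField.cast_card_eq_zero F
  rw [h3] at h4
  push_cast at h4
  linear_combination h4

theorem f3_two_ne_zero (h3 : Fintype.card F = 3) : (2 : F) ≠ 0 := by
  intro h
  have h4 := f3_three h3
  have h5 : (1 : F) = 0 := by linear_combination h4 - h
  exact one_ne_zero h5

/-- The vectors of norm one in dimension three over the field of three elements. -/
theorem f3_norm_one (h3 : Fintype.card F = 3) (x : Fin 3 → F) (hx : dotF x x = 1) : ∃ (i : Fin 3) (c : F), c ≠ 0 ∧ x = c • Pi.single i 1 := by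
  have hthree := f3_three h3
  have h2 := f3_two_ne_zero h3
  simp only [dotF, Fin.sum_univ_three] at hx
  have hne : (1 : F) + 1 ≠ 1 := by
    intro h
    have h5 : (1 : F) = 0 := by linear_combination h
    exact one_ne_zero h5
  have key : ∀ (i j k : Fin 3), i ≠ j → i ≠ k → j ≠ k → x j = 0 → x k = 0 → x i ≠ 0 → ∃ (i : Fin 3) (c : F), c ≠ 0 ∧ x = c • Pi.single i 1 := by
    intro i j k hij hik hjk hj hk hi
    refine ⟨i, x i, hi, ?_⟩
    funext l
    simp only [Pi.smul_apply, smul_eq_mul, Pi.single_apply]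
    by_cases hl : l = i
    · subst hl
      simp
    · rw [if_neg hl, mul_zero]
      have : l = j ∨ l = k := by omega
      rcases this with rfl | rfl
      · exact hj
      · exact hk
  by_cases h0 : x 0 = 0 <;> by_cases h1 : x 1 = 0 <;> by_cases h2' : x 2 = 0
  · exfalso
    rw [h0, h1, h2'] at hx
    simp at hx
  · exact key 2 0 1 (by decide) (by decide) (by decide) h0 h1 h2'
  · exact key 1 0 2 (by decide) (by decide) (by decide) h0 h2' h1
  · exfalso
    have a1 := f3_sq h3 h1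
    have a2 := f3_sq h3 h2'
    rw [pow_two] at a1 a2
    rw [h0, a1, a2] at hx
    apply hne
    linear_combination hx
  · exact key 0 1 2 (by decide) (by decide) (by decide) h1 h2' h0
  · exfalso
    have a1 := f3_sq h3 h0
    have a2 := f3_sq h3 h2'
    rw [pow_two] at a1 a2
    rw [h1, a1, a2] at hx
    apply hne
    linear_combination hx
  · exfalso
    have a1 := f3_sq h3 h0
    have a2 := f3_sq h3 h1
    rw [pow_two] at a1 a2
    rw [h2', a1, a2] at hx
    apply hne
    linear_combination hx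
  · exfalso
    have a1 := f3_sq h3 h0
    have a2 := f3_sq h3 h1
    have a3 := f3_sq h3 h2'
    have : x 0 * x 0 + x 1 * x 1 + x 2 * x 2 = 1 + 1 + 1 := by rw [← pow_two, ← pow_two, ← pow_two, a1, a2, a3]
    rw [this, hthree] at hx
    exact one_ne_zero hx.symm

/-- A frame for a symmetric form in dimension three over the field of three elements. -/
theorem f3_frame (h3 : Fintype.card F = 3) {A : (Fin 3 → F) → (Fin 3 → F) → F} (hA : HF (RingEquiv.refl F) 1 A) :
    ∃ (w : Fin 3 → Fin 3 → F) (d : F), d ≠ 0 ∧ (∀ i j, A (w i) (w j) = if i = j then d else 0) ∧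
      ∀ v, A v v = d → ∃ (i : Fin 3) (c : F), c ≠ 0 ∧ v = c • w i := by
  classical
  obtain ⟨μ, g, hμ, hg⟩ := exists_similar_forms (f3_two_ne_zero h3) (by decide) (dotF_HF (F := F) (a := 3)) hA
  refine ⟨fun i => (g : Matrix (Fin 3) (Fin 3) F) *ᵥ Pi.single i 1, μ, hμ, fun i j => ?_, fun v hv => ?_⟩
  · rw [hg]
    by_cases hij : i = j
    · subst hij
      simp [dotF, Pi.single_apply]
    · simp [dotF, Pi.single_apply, hij]
      intro h
      exact absurd h.symm hij
  · -- `v = g x`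
    set x := ((g⁻¹ : GL (Fin 3) F) : Matrix (Fin 3) (Fin 3) F) *ᵥ v with hx
    have hvx : v = (g : Matrix (Fin 3) (Fin 3) F) *ᵥ x := by
      rw [hx, Matrix.mulVec_mulVec, ← Units.val_mul, mul_inv_cancel, Units.val_one, Matrix.one_mulVec]
    rw [hvx, hg] at hv
    have h1 : dotF x x = 1 := by
      have : μ * (dotF x x - 1) = 0 := by linear_combination hv
      exact sub_eq_zero.1 ((mul_eq_zero.1 this).resolve_left hμ)
    obtain ⟨i, c, hc, hxc⟩ := f3_norm_one h3 x h1
    refine ⟨i, c, hc, ?_⟩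
    rw [hvx, hxc, Matrix.mulVec_smul]

/-- Similarities of a form in dimension three over the field of three elements are isometries. -/
theorem f3_similarity (h3 : Fintype.card F = 3) {A : (Fin 3 → F) → (Fin 3 → F) → F} (hA : HF (RingEquiv.refl F) 1 A)
    (s : GL (Fin 3) F) {μ : F} (hμ : μ ≠ 0)
    (hs : ∀ x y, A ((s : Matrix (Fin 3) (Fin 3) F) *ᵥ x) ((s : Matrix (Fin 3) (Fin 3) F) *ᵥ y) = μ * A x y) : μ = 1 := by
  classical
  have hG := gram_comp hA.sesq (s : Matrix (Fin 3) (Fin 3) F)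
  have hmap : (s : Matrix (Fin 3) (Fin 3) F).map (RingEquiv.refl F) = s := by
    ext i j
    rfl
  rw [hmap] at hG
  have h1 : gram (fun u v => A ((s : Matrix (Fin 3) (Fin 3) F) *ᵥ u) ((s : Matrix (Fin 3) (Fin 3) F) *ᵥ v)) = μ • gram A := by
    ext i j
    exact hs _ _
  rw [h1] at hG
  have h4 := congrArg Matrix.det hG
  rw [Matrix.det_smul, Matrix.det_mul, Matrix.det_mul, Matrix.det_transpose, Fintype.card_fin] at h4
  have hd : (gram A).det ≠ 0 := ((Matrix.isUnit_iff_isUnit_det _).1 (gram_unit hA.sesq hA.nd)).ne_zero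
  have hs0 : (s : Matrix (Fin 3) (Fin 3) F).det ≠ 0 := ((Matrix.isUnit_iff_isUnit_det _).1 s.isUnit).ne_zero
  have a1 := f3_sq h3 hμ
  have a2 := f3_sq h3 hs0
  have h5 : (μ - 1) * (gram A).det = 0 := by
    have : μ ^ 3 = μ * μ ^ 2 := by ring
    rw [this, a1] at h4
    linear_combination h4 + (gram A).det * a2
  exact sub_eq_zero.1 ((mul_eq_zero.1 h5).resolve_right hd)

end Three

end Cfsg.Agent.Lib.AschF.OddC
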