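import Mathlib
import Cfsg.Agent.Lib.AschF.OddC

/-!
# Tensor decompositions in odd dimension: the exclusions
-/

set_option autoImplicit false

namespace Cfsg.Agent.Lib.AschF.OddD

open Matrix Module Cfsg Cfsg.Geo
open Cfsg.Agent.Lib.Asch.Forms Cfsg.Agent.Lib.AschF.Adj Cfsg.Agent.Lib.AschF.OddA Cfsg.Agent.Lib.AschF.Inv
open Cfsg.Agent.Lib.AschF.OddC
open Cfsg.Agent.Lib.Asch.Kr Cfsg.Agent.Lib.NotMax.Tensor Cfsg.Agent.Lib.Asch.Cl
open Cfsg.Agent.Lib.Ten.Mm
open Cfsg.Agent.Lib.Geo.QForm (pol pol_self Q_zero)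
open scoped Kronecker

universe u

variable {ι : Type} [Fintype ι] [DecidableEq ι] {F : Type u} [Field F]
variable {Q : (ι → F) → F}

/-- A decomposition into lines from a frame. -/
theorem lines_decomp (hQ : IsNondegenerateQuadraticForm Q) (h2 : (2 : F) ≠ 0) {κ : Type} [Fintype κ] [DecidableEq κ]
    (z : κ → ι → F) {b : F} (hb : b ≠ 0) (hz : ∀ i j, pol Q (z i) (z j) = if i = j then b else 0)
    (hcard : Fintype.card κ = Fintype.card ι) (hκ : 2 ≤ Fintype.card κ) {t : ℕ} (d : Fin t ≃ κ) :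
    IsOrthogonalMDecomposition Q 1 (fun i => Submodule.span F {z (d i)}) := by
  classical
  have hs := (hf_polar hQ).sesq
  have hz0 : ∀ i, z i ≠ 0 := by
    intro i h0
    have := hz i i
    rw [if_pos rfl, h0, Sesq_zero_left hs] at this
    exact hb this.symm
  have hLI : LinearIndependent F z := by
    rw [Fintype.linearIndependent_iff]
    intro g hg j
    have h1 : pol Q (∑ i, g i • z i) (z j) = 0 := by
      rw [hg, Sesq_zero_left hs]
    rw [Sesq_sum_left hs] at h1
    simp only [hs.smul_left, hz] at h1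
    rw [Finset.sum_eq_single j] at h1
    · simp only [if_true] at h1
      exact (mul_eq_zero.1 h1).resolve_right hb
    · intro i _ hi
      simp [hi]
    · simp
  have htc : t = Fintype.card κ := by
    rw [← Fintype.card_congr d, Fintype.card_fin]
  have hLId : LinearIndependent F (z ∘ d) := hLI.comp d d.injective
  have hQz : ∀ i, Q (z i) = b / 2 := by
    intro i
    have := hz i i
    rw [if_pos rfl, pol_self hQ] at this
    rw [← this]
    field_simp
  refine ⟨⟨⟨by omega, by omega, fun i => finrank_span_singleton (hz0 _), hLId.iSupIndep_span_singleton, ?_⟩, ?_, ?_⟩, ?_⟩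
  · rw [← Submodule.span_range_eq_iSup]
    have h1 := hLId.span_eq_top_of_card_eq_finrank' (by
      rw [Fintype.card_fin, htc, hcard, Module.finrank_fintype_fun_eq_card])
    exact h1
  · intro i w hw hw0
    obtain ⟨c, rfl⟩ := Submodule.mem_span_singleton.1 hw
    have hc : c ≠ 0 := by
      rintro rfl
      simp at hw0
    refine ⟨⟨z (d i), Submodule.mem_span_singleton_self _, ?_⟩, ⟨z (d i), Submodule.mem_span_singleton_self _, ?_⟩⟩
    · change pol Q _ _ ≠ 0
      rw [hs.smul_right, hz, if_pos rfl]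
      exact mul_ne_zero hc hb
    · change pol Q _ _ ≠ 0
      rw [hs.smul_left, hz, if_pos rfl]
      exact mul_ne_zero hc hb
  · intro i j hij u hu v hv
    obtain ⟨c, rfl⟩ := Submodule.mem_span_singleton.1 hu
    obtain ⟨c', rfl⟩ := Submodule.mem_span_singleton.1 hv
    change pol Q _ _ = 0
    rw [hs.smul_left, hs.smul_right, hz, if_neg (fun h => hij (d.injective h))]
    simp
  · intro i j
    let Li := LinearEquiv.toSpanNonzeroSingleton F (ι → F) (z (d i)) (hz0 _)
    let Lj := LinearEquiv.toSpanNonzeroSingleton F (ι → F) (z (d j)) (hz0 _)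
    refine ⟨Li.symm.trans Lj, fun w => ?_⟩
    have h1 : ((w : Submodule.span F {z (d i)}) : ι → F) = (Li.symm w) • z (d i) := by
      have := Li.apply_symm_apply w
      have h3 := congrArg Subtype.val this
      rw [← h3]
      rfl
    have h3 : (((Li.symm.trans Lj) w : Submodule.span F {z (d j)}) : ι → F) = (Li.symm w) • z (d j) := rfl
    rw [h3, hQ.smul, hQz]
    rw [h1, hQ.smul, hQz]

/-- Monomial elements stabilise the decomposition into lines. -/
theorem stab_of_frame (hs : Sesq (RingEquiv.refl F) (pol Q)) {κ : Type} [Fintype κ] [DecidableEq κ]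
    (z : κ → ι → F) {b : F} (hb : b ≠ 0) (hz : ∀ i j, pol Q (z i) (z j) = if i = j then b else 0) {t : ℕ} (d : Fin t ≃ κ)
    (h : GL ι F) (hmon : ∀ k, ∃ (k' : κ) (c : F), c ≠ 0 ∧ (h : Matrix ι ι F) *ᵥ z k = c • z k') :
    h ∈ decompositionStabilizer (fun i => Submodule.span F {z (d i)}) := by
  classical
  choose φ c hc hφ using hmon
  have hinj : Function.Injective φ := by
    intro k k' hkk
    by_contra hne
    have h1 : (h : Matrix ι ι F) *ᵥ (c k' • z k - c k • z k') = 0 := by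
      rw [Matrix.mulVec_sub, Matrix.mulVec_smul, Matrix.mulVec_smul, hφ, hφ, hkk, smul_smul, smul_smul, mul_comm]
      simp
    have h3 : c k' • z k - c k • z k' = 0 := by
      have := congrArg (fun w => ((h⁻¹ : GL ι F) : Matrix ι ι F) *ᵥ w) h1
      simpa [Matrix.mulVec_mulVec, ← Units.val_mul] using this
    have h4 : pol Q (c k' • z k - c k • z k') (z k) = c k' * b := by
      rw [Sesq_sub_left hs, hs.smul_left, hs.smul_left, hz, hz, if_pos rfl, if_neg (Ne.symm hne)]
      ring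
    rw [h3, Sesq_zero_left hs] at h4
    exact mul_ne_zero (hc k') hb h4.symm
  let ψ : Fin t → Fin t := fun i => d.symm (φ (d i))
  have hψ : Function.Injective ψ := by
    intro i j hij
    exact d.injective (hinj (d.symm.injective hij))
  refine ⟨Equiv.ofBijective ψ (Finite.injective_iff_bijective.1 hψ), fun i => ?_⟩
  simp only [Equiv.ofBijective_apply, ψ, Equiv.apply_symm_apply]
  rw [Submodule.map_span, Set.image_singleton, Matrix.toLin'_apply, hφ]
  exact Submodule.span_singleton_smul_eq (IsUnit.mk0 _ (hc _)) _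

section TensorForm
variable {k a : ℕ}

/-- The tensor power form on pure tensors. -/
theorem tensor_form_ten {A : (Fin a → F) → (Fin a → F) → F} (hA : Sesq (RingEquiv.refl F) A) (us vs : Fin k → Fin a → F) :
    ∑ u, ∑ v, ten us u * (∏ i, gramMatrix A (u i) (v i)) * (RingEquiv.refl F) (ten vs v) = ∏ i, A (us i) (vs i) := by
  classical
  have h1 : ∀ x y, A x y = ∑ b, ∑ c, x b * gramMatrix A b c * y c := by
    intro x y
    rw [eq_gram hA]
    simp only [dotProduct, Matrix.mulVec, Finset.mul_sum]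
    refine Finset.sum_congr rfl fun b _ => Finset.sum_congr rfl fun c _ => ?_
    simp only [Function.comp_apply, RingEquiv.refl_apply]
    rw [mul_assoc]
    rfl
  simp only [h1]
  rw [Finset.prod_univ_sum, Fintype.piFinset_univ]
  refine Finset.sum_congr rfl fun u _ => ?_
  rw [Finset.prod_univ_sum, Fintype.piFinset_univ]
  refine Finset.sum_congr rfl fun v _ => ?_
  simp only [ten_apply, RingEquiv.refl_apply, Finset.prod_mul_distrib]

/-- The multipliers on each factor. -/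
theorem slot_similarity {A : (Fin a → F) → (Fin a → F) → F} {ε₁ : F} (hA : HF (RingEquiv.refl F) ε₁ A) (ha : 0 < a)
    (gs : Fin k → GL (Fin a) F) (τ : Equiv.Perm (Fin k))
    (hstar : ∀ us vs : Fin k → Fin a → F, ∏ i, A ((gs i : Matrix (Fin a) (Fin a) F) *ᵥ us (τ i)) ((gs i : Matrix (Fin a) (Fin a) F) *ᵥ vs (τ i)) =
      ∏ i, A (us i) (vs i)) (j : Fin k) :
    ∃ μ : F, μ ≠ 0 ∧ ∀ x y, A ((gs j : Matrix (Fin a) (Fin a) F) *ᵥ x) ((gs j : Matrix (Fin a) (Fin a) F) *ᵥ y) = μ * A x y := by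
  classical
  have hs := hA.sesq
  -- a pair with non-zero value
  have hp : ∃ p p', A p p' ≠ 0 := by
    let p : Fin a → F := Pi.single ⟨0, ha⟩ 1
    have hp0 : p ≠ 0 := by
      intro h0
      have := congrFun h0 ⟨0, ha⟩
      simp [p] at this
    obtain ⟨⟨x, hx⟩, -⟩ := hA.nd p hp0
    exact ⟨x, p, hx⟩
  obtain ⟨p, p', hpp⟩ := hp
  let inv : Fin k → Matrix (Fin a) (Fin a) F := fun i => ((gs i)⁻¹ : GL (Fin a) F)
  have hgi : ∀ i x, (gs i : Matrix (Fin a) (Fin a) F) *ᵥ (inv i *ᵥ x) = x := by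
    intro i x
    simp only [inv]
    rw [Matrix.mulVec_mulVec, ← Units.val_mul, mul_inv_cancel, Units.val_one, Matrix.one_mulVec]
  let κ : F := ∏ i ∈ Finset.univ.erase j, A p p'
  have hκ : κ ≠ 0 := Finset.prod_ne_zero_iff.2 fun _ _ => hpp
  let ρ : F := ∏ i ∈ Finset.univ.erase j, A (inv i *ᵥ p) (inv i *ᵥ p')
  have hgen : ∀ x y, A ((gs j : Matrix (Fin a) (Fin a) F) *ᵥ x) ((gs j : Matrix (Fin a) (Fin a) F) *ᵥ y) * κ = A x y * ρ := by
    intro x y
    let us : Fin k → Fin a → F := fun l => if l = τ j then x else inv (τ.symm l) *ᵥ p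
    let vs : Fin k → Fin a → F := fun l => if l = τ j then y else inv (τ.symm l) *ᵥ p'
    have h1 := hstar us vs
    have hus : ∀ i, i ≠ j → us (τ i) = inv i *ᵥ p := by
      intro i hi
      simp only [us]
      rw [if_neg (fun h => hi (τ.injective h)), Equiv.symm_apply_apply]
    have hvs : ∀ i, i ≠ j → vs (τ i) = inv i *ᵥ p' := by
      intro i hi
      simp only [vs]
      rw [if_neg (fun h => hi (τ.injective h)), Equiv.symm_apply_apply]
    have husj : us (τ j) = x := by simp [us]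
    have hvsj : vs (τ j) = y := by simp [vs]
    rw [← Equiv.prod_comp τ (fun l => A (us l) (vs l))] at h1
    rw [← Finset.mul_prod_erase Finset.univ _ (Finset.mem_univ j), ← Finset.mul_prod_erase Finset.univ (fun l => A (us (τ l)) (vs (τ l))) (Finset.mem_univ j),
      husj, hvsj] at h1
    have h3 : ∏ i ∈ Finset.univ.erase j, A ((gs i : Matrix (Fin a) (Fin a) F) *ᵥ us (τ i)) ((gs i : Matrix (Fin a) (Fin a) F) *ᵥ vs (τ i)) = κ := by
      refine Finset.prod_congr rfl fun i hi => ?_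
      have hi' : i ≠ j := (Finset.mem_erase.1 hi).1
      rw [hus i hi', hvs i hi', hgi, hgi]
    have h4 : ∏ i ∈ Finset.univ.erase j, A (us (τ i)) (vs (τ i)) = ρ := by
      refine Finset.prod_congr rfl fun i hi => ?_
      have hi' : i ≠ j := (Finset.mem_erase.1 hi).1
      rw [hus i hi', hvs i hi']
    rw [h3, h4] at h1
    exact h1
  refine ⟨ρ / κ, ?_, fun x y => ?_⟩
  · intro h0
    have hρ : ρ = 0 := by
      rcases (div_eq_zero_iff.1 h0) with h3 | h3
      · exact h3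
      · exact absurd h3 hκ
    -- then the form vanishes
    have h5 := hgen (inv j *ᵥ p) (inv j *ᵥ p')
    rw [hgi, hgi, hρ, mul_zero] at h5
    exact mul_ne_zero hpp hκ h5
  · have h5 := hgen x y
    field_simp
    linear_combination h5

end TensorForm

variable [Fintype F]

theorem h_act {κ : Type} [Fintype κ] [DecidableEq κ] (e : ι ≃ κ) (P h : GL ι F) (g : Matrix κ κ F)
    (hh : (h : Matrix ι ι F) * (P : Matrix ι ι F) = (P : Matrix ι ι F) * g.submatrix e e) (x : κ → F) :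
    (h : Matrix ι ι F) *ᵥ ((P : Matrix ι ι F) *ᵥ (x ∘ e)) = (P : Matrix ι ι F) *ᵥ ((g *ᵥ x) ∘ e) := by
  rw [Matrix.mulVec_mulVec, hh, ← Matrix.mulVec_mulVec, Matrix.submatrix_mulVec_equiv, Function.comp_assoc, Equiv.self_comp_symm, Function.comp_id]

/-- The exceptional case of the tensor powers of three dimensional spaces over the field of three elements. -/
theorem wr33_false (hQ : IsNondegenerateQuadraticForm Q) (h3 : Fintype.card F = 3) {H : Subgroup (GL ι F)} (hH : H ≤ isometryGroup F Q)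
    (hNo : OddNoClass Q H) {k : ℕ} (hk : 2 ≤ k) (e₂ : ι ≃ (Fin k → Fin 3)) (P₂ : GL ι F) {A : (Fin 3 → F) → (Fin 3 → F) → F}
    (hA : HF (RingEquiv.refl F) 1 A) {c : F} (hc : c ≠ 0)
    (hlaw : ∀ x y : (Fin k → Fin 3) → F, pol Q ((P₂ : Matrix ι ι F) *ᵥ (x ∘ e₂)) ((P₂ : Matrix ι ι F) *ᵥ (y ∘ e₂)) =
      c * ∑ u, ∑ v, x u * (∏ i, gramMatrix A (u i) (v i)) * (RingEquiv.refl F) (y v))
    (hle : H ≤ tensorWreathSubgroup 3 k e₂ P₂) : False := by
  classical
  have h2 := f3_two_ne_zero h3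
  have hs := (hf_polar hQ).sesq
  obtain ⟨w, d₀, hd₀, hww, hwuni⟩ := f3_frame h3 hA
  have hΦ : ∀ us vs : Fin k → Fin 3 → F, pol Q ((P₂ : Matrix ι ι F) *ᵥ (ten us ∘ e₂)) ((P₂ : Matrix ι ι F) *ᵥ (ten vs ∘ e₂)) =
      c * ∏ i, A (us i) (vs i) := by
    intro us vs
    rw [hlaw, tensor_form_ten hA.sesq]
  let z : (Fin k → Fin 3) → ι → F := fun u => (P₂ : Matrix ι ι F) *ᵥ (ten (fun i => w (u i)) ∘ e₂)
  have hbne : c * d₀ ^ k ≠ 0 := mul_ne_zero hc (pow_ne_zero _ hd₀)
  have hz : ∀ u v, pol Q (z u) (z v) = if u = v then c * d₀ ^ k else 0 := by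
    intro u v
    simp only [z]
    rw [hΦ]
    by_cases huv : u = v
    · subst huv
      rw [if_pos rfl]
      simp [hww]
    · rw [if_neg huv]
      obtain ⟨i, hi⟩ := Function.ne_iff.mp huv
      rw [Finset.prod_eq_zero (Finset.mem_univ i) (by rw [hww, if_neg hi]), mul_zero]
  have hcardκ : Fintype.card (Fin k → Fin 3) = Fintype.card ι := (Fintype.card_congr e₂).symm
  have hκ2 : 2 ≤ Fintype.card (Fin k → Fin 3) := by
    simp only [Fintype.card_fun, Fintype.card_fin]
    exact (Nat.one_lt_pow (by omega) (by omega))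
  let d : Fin (Fintype.card (Fin k → Fin 3)) ≃ (Fin k → Fin 3) := (Fintype.equivFin _).symm
  have hprime : (Fintype.card F).Prime := by rw [h3]; exact Nat.prime_three
  refine hNo.dec1 _ _ hprime (lines_decomp hQ h2 z hbne hz hcardκ hκ2 d) (fun h hh => stab_of_frame hs z hbne hz d h ?_)
  obtain ⟨g, hg, hgh⟩ := (mem_tensorWreathSubgroup_iff e₂ P₂ h).1 (hle hh)
  obtain ⟨gs, τ, rfl⟩ := exists_tw_of_mem hg
  rw [coe_tw] at hgh
  have hact : ∀ us : Fin k → Fin 3 → F, (h : Matrix ι ι F) *ᵥ ((P₂ : Matrix ι ι F) *ᵥ (ten us ∘ e₂)) =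
      (P₂ : Matrix ι ι F) *ᵥ (ten (fun i => (gs i : Matrix (Fin 3) (Fin 3) F) *ᵥ us (τ i)) ∘ e₂) := by
    intro us
    rw [h_act e₂ P₂ h _ hgh, mm_mulVec_ten]
  have hstar : ∀ us vs : Fin k → Fin 3 → F, ∏ i, A ((gs i : Matrix (Fin 3) (Fin 3) F) *ᵥ us (τ i)) ((gs i : Matrix (Fin 3) (Fin 3) F) *ᵥ vs (τ i)) =
      ∏ i, A (us i) (vs i) := by
    intro us vs
    have h5 := polar_isom (hH hh) ((P₂ : Matrix ι ι F) *ᵥ (ten us ∘ e₂)) ((P₂ : Matrix ι ι F) *ᵥ (ten vs ∘ e₂))
    rw [hact, hact, hΦ, hΦ] at h5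
    exact mul_left_cancel₀ hc h5
  have hsim : ∀ j x y, A ((gs j : Matrix (Fin 3) (Fin 3) F) *ᵥ x) ((gs j : Matrix (Fin 3) (Fin 3) F) *ᵥ y) = A x y := by
    intro j x y
    obtain ⟨μ, hμ, hμs⟩ := slot_similarity hA (by norm_num) gs τ hstar j
    have := f3_similarity h3 hA (gs j) hμ hμs
    rw [hμs, this, one_mul]
  have hmon1 : ∀ j b, ∃ (i : Fin 3) (c : F), c ≠ 0 ∧ (gs j : Matrix (Fin 3) (Fin 3) F) *ᵥ w b = c • w i := by
    intro j b
    apply hwuni
    rw [hsim, hww, if_pos rfl]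
  choose π cc hcc hπ using hmon1
  intro u
  refine ⟨fun i => π i (u (τ i)), ∏ i, cc i (u (τ i)), Finset.prod_ne_zero_iff.2 fun i _ => hcc _ _, ?_⟩
  simp only [z]
  rw [hact]
  simp only [hπ]
  rw [← Matrix.mulVec_smul]
  congr 1
  funext i
  simp only [Function.comp_apply, Pi.smul_apply, smul_eq_mul, ten_apply, Finset.prod_mul_distrib]

/-- Tensor powers are excluded. -/
theorem wr_false [Nonempty ι] (hQ : IsNondegenerateQuadraticForm Q) (hodd : Odd (Fintype.card ι)) {H : Subgroup (GL ι F)}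
    (hH : H ≤ isometryGroup F Q) (hNo : OddNoClass Q H) (a k : ℕ) (e₂ : ι ≃ (Fin k → Fin a)) (P₂ : GL ι F)
    (A : (Fin a → F) → (Fin a → F) → F) (ε₁ c : F) (ha : 2 ≤ a) (hk : 2 ≤ k) (hA : HF (RingEquiv.refl F) ε₁ A) (hc : c ≠ 0)
    (hlaw : ∀ x y : (Fin k → Fin a) → F, pol Q ((P₂ : Matrix ι ι F) *ᵥ (x ∘ e₂)) ((P₂ : Matrix ι ι F) *ᵥ (y ∘ e₂)) =
      c * ∑ u, ∑ v, x u * (∏ i, gramMatrix A (u i) (v i)) * (RingEquiv.refl F) (y v))
    (hle : H ≤ tensorWreathSubgroup a k e₂ P₂) : False := by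
  have hcard : Fintype.card ι = a ^ k := by
    rw [Fintype.card_congr e₂]
    simp
  have haodd : Odd a := by
    rw [hcard] at hodd
    exact (Nat.odd_pow_iff (by omega)).1 hodd
  have hε := eps_eq_one_of_odd hA haodd
  subst hε
  have ha3 : 3 ≤ a := by
    obtain ⟨t, rfl⟩ := haodd
    omega
  by_cases h33 : Fintype.card F = 3 ∧ a = 3
  · obtain ⟨h3, rfl⟩ := h33
    exact wr33_false hQ h3 hH hNo hk e₂ P₂ hA hc hlaw hle
  · exact hNo.wr a k e₂ P₂ A ha3 hk h33 (symmetric_of_HF hA) ⟨c, hc, fun x y => hlaw x y⟩ hle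

/-- Elements of a tensor product with equal factors are in the tensor wreath group. -/
theorem mem_wreath_of_kr' {a : ℕ} (e : ι ≃ Fin a × Fin a) (P h : GL ι F) (α β : GL (Fin a) F)
    (hh : (h : Matrix ι ι F) * (P : Matrix ι ι F) = (P : Matrix ι ι F) * kr e α β) :
    h ∈ tensorWreathSubgroup a 2 (e.trans (finTwoArrowEquiv (Fin a)).symm) P := by
  let f₂ := finTwoArrowEquiv (Fin a)
  let g : GL (Fin 2 → Fin a) F :=
    ⟨kr f₂ α β, kr f₂ ((α⁻¹ : GL (Fin a) F) : Matrix (Fin a) (Fin a) F) ((β⁻¹ : GL (Fin a) F) : Matrix (Fin a) (Fin a) F),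
      by rw [kr_mul, ← Units.val_mul, ← Units.val_mul, mul_inv_cancel, mul_inv_cancel, Units.val_one, kr_one],
      by rw [kr_mul, ← Units.val_mul, ← Units.val_mul, inv_mul_cancel, inv_mul_cancel, Units.val_one, kr_one]⟩
  refine (mem_tensorWreathSubgroup_iff _ P h).2 ⟨g, Subgroup.subset_closure (Or.inl ⟨![α, β], fun x y => ?_⟩), ?_⟩
  · rw [Fin.prod_univ_two]
    rfl
  · rw [hh]
    rfl

/-- Tensor products are excluded. -/
theorem ten_false [Nonempty ι] (hQ : IsNondegenerateQuadraticForm Q) (h2 : (2 : F) ≠ 0) (hodd : Odd (Fintype.card ι)) {H : Subgroup (GL ι F)}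
    (hH : H ≤ isometryGroup F Q) (hNo : OddNoClass Q H) (a b : ℕ) (e : ι ≃ Fin a × Fin b) (P : GL ι F)
    (f₁ : (Fin a → F) → (Fin a → F) → F) (f₂ : (Fin b → F) → (Fin b → F) → F) (ε₁ ε₂ : F) (ha : 2 ≤ a) (hb : 2 ≤ b)
    (hf₁ : HF (RingEquiv.refl F) ε₁ f₁) (hf₂ : HF (RingEquiv.refl F) ε₂ f₂)
    (hlaw : ∀ x x' y y', pol Q (TT e P x y) (TT e P x' y') = f₁ x x' * f₂ y y')
    (hmem : ∀ h ∈ H, ∃ (α : GL (Fin a) F) (β : GL (Fin b) F),
      (h : Matrix ι ι F) * (P : Matrix ι ι F) = (P : Matrix ι ι F) * kr e α β) : False := by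
  classical
  have hf := hf_polar hQ
  have hcard : Fintype.card ι = a * b := by
    rw [Fintype.card_congr e]
    simp
  rw [hcard] at hodd
  have haodd : Odd a := (Nat.odd_mul.1 hodd).1
  have hbodd : Odd b := (Nat.odd_mul.1 hodd).2
  have hε₁ := eps_eq_one_of_odd hf₁ haodd
  have hε₂ := eps_eq_one_of_odd hf₂ hbodd
  subst hε₁
  subst hε₂
  have ha3 : 3 ≤ a := by
    obtain ⟨t, rfl⟩ := haodd
    omega
  have hb3 : 3 ≤ b := by
    obtain ⟨t, rfl⟩ := hbodd
    omega
  rcases lt_trichotomy a b with hab | hab | hab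
  · refine hNo.ten a b e P f₁ f₂ ha3 hab (symmetric_of_HF hf₁) (symmetric_of_HF hf₂)
      (tensor_structure (σf := id) (fun _ => rfl) hf e P hlaw) fun h hh => ?_
    obtain ⟨α, β, hαβ⟩ := hmem h hh
    exact mem_tensorProductSubgroup e P h α β hαβ
  · subst hab
    obtain ⟨μ, g, hμ, hg⟩ := exists_similar_forms h2 haodd hf₁ hf₂
    let Kg : GL ι F := ⟨kr e 1 g, kr e 1 ((g⁻¹ : GL (Fin a) F) : Matrix (Fin a) (Fin a) F),
      by rw [kr_mul, ← Units.val_mul, mul_inv_cancel, Units.val_one, mul_one, kr_one],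
      by rw [kr_mul, ← Units.val_mul, inv_mul_cancel, Units.val_one, mul_one, kr_one]⟩
    let P' : GL ι F := P * Kg
    have hTT : ∀ x y, TT e P' x y = TT e P x ((g : Matrix (Fin a) (Fin a) F) *ᵥ y) := by
      intro x y
      simp only [TT, P', Units.val_mul]
      rw [← Matrix.mulVec_mulVec]
      congr 1
      change kr e 1 g *ᵥ (pureT x y ∘ e) = _
      rw [kr_mulVec, kronecker_mulVec_pure, Matrix.one_mulVec]
    have hlaw' : ∀ x x' y y', pol Q (TT e P' x y) (TT e P' x' y') = f₁ x x' * (fun y y' => μ * f₁ y y') y y' := by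
      intro x x' y y'
      rw [hTT, hTT, hlaw, hg]
    obtain ⟨c₀, hc₀, hstr⟩ := tensor_structure (σf := id) (fun _ => rfl) hf e P' hlaw'
    let E := finTwoArrowEquiv (Fin a)
    let e₂ : ι ≃ (Fin 2 → Fin a) := e.trans E.symm
    refine wr_false hQ (by rw [hcard]; exact hodd) hH hNo a 2 e₂ P' f₁ 1 (c₀ * μ) ha (le_refl 2) hf₁ (mul_ne_zero hc₀ hμ) ?_ ?_
    · intro x y
      have h1 := hstr (x ∘ E.symm) (y ∘ E.symm)
      have hx : (x ∘ E.symm) ∘ e = x ∘ e₂ := rfl
      have hy : (y ∘ E.symm) ∘ e = y ∘ e₂ := rfl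
      rw [hx, hy] at h1
      rw [h1]
      simp only [formOfGram]
      have hsum : ∀ φ : Fin a × Fin a → F, ∑ p, φ p = ∑ u : Fin 2 → Fin a, φ (E u) := fun φ => (Equiv.sum_comp E φ).symm
      rw [hsum, mul_assoc]
      congr 1
      rw [Finset.mul_sum]
      refine Finset.sum_congr rfl fun u _ => ?_
      rw [hsum, Finset.mul_sum]
      refine Finset.sum_congr rfl fun v _ => ?_
      simp only [Function.comp_apply, Equiv.symm_apply_apply, Matrix.kroneckerMap_apply, Fin.prod_univ_two, id, RingEquiv.refl_apply]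
      change x u * (gramMatrix f₁ (u 0) (v 0) * (μ * gramMatrix f₁ (u 1) (v 1))) * y v = _
      ring
    · intro h hh
      obtain ⟨α, β, hαβ⟩ := hmem h hh
      refine mem_wreath_of_kr' e P' h α (g⁻¹ * β * g) ?_
      have hβ : (g : Matrix (Fin a) (Fin a) F) * ((g⁻¹ * β * g : GL (Fin a) F) : Matrix (Fin a) (Fin a) F) = (β : Matrix (Fin a) (Fin a) F) * (g : Matrix (Fin a) (Fin a) F) := by
        rw [← Units.val_mul, ← Units.val_mul]
        congr 1
        group
      calc (h : Matrix ι ι F) * (P' : Matrix ι ι F) = ((h : Matrix ι ι F) * (P : Matrix ι ι F)) * kr e 1 g := by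
            simp only [P', Units.val_mul, mul_assoc]
            rfl
        _ = (P : Matrix ι ι F) * (kr e α β * kr e 1 g) := by rw [hαβ, mul_assoc]
        _ = (P : Matrix ι ι F) * (kr e 1 g * kr e α ((g⁻¹ * β * g : GL (Fin a) F) : Matrix (Fin a) (Fin a) F)) := by
            rw [kr_mul, kr_mul, hβ, mul_one, one_mul]
        _ = (P' : Matrix ι ι F) * kr e α ((g⁻¹ * β * g : GL (Fin a) F) : Matrix (Fin a) (Fin a) F) := by
            simp only [P', Units.val_mul, mul_assoc]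
            rfl
  · let e' : ι ≃ Fin b × Fin a := e.trans (Equiv.prodComm _ _)
    have hTT : ∀ y x, TT e' P y x = TT e P x y := by
      intro y x
      simp only [TT]
      congr 1
      funext i
      simp [e', pureT, mul_comm]
    refine hNo.ten b a e' P f₂ f₁ hb3 hab (symmetric_of_HF hf₂) (symmetric_of_HF hf₁)
      (tensor_structure (σf := id) (fun _ => rfl) hf e' P (fun y y' x x' => by
        rw [hTT, hTT, hlaw, mul_comm])) fun h hh => ?_
    obtain ⟨α, β, hαβ⟩ := hmem h hh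
    refine mem_tensorProductSubgroup e' P h β α ?_
    rw [hαβ]
    congr 1
    ext i j
    simp only [kr_apply, e', Equiv.trans_apply, Equiv.prodComm_apply, Prod.fst_swap, Prod.snd_swap]
    ring

end Cfsg.Agent.Lib.AschF.OddD
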