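import Mathlib
import Cfsg.Agent.Lib.AschF.Adj
import Cfsg.Agent.Lib.Asch.H1
import Cfsg.Agent.Lib.Geo.UnitaryInSL

/-!
# An absolutely irreducible group fixing a bilinear form and a unitary form is defined over the fixed field
-/

set_option autoImplicit false

namespace Cfsg.Agent.Lib.AschF.TwoF

open Matrix Module Cfsg Cfsg.Geo
open Cfsg.Agent.Lib.Asch.Forms

universe u

variable {ι : Type} [Fintype ι] [DecidableEq ι] {F : Type u} [Field F] [Finite F]

/-- The subfield fixed by an automorphism. -/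
def fixF (σ : F ≃+* F) : Subfield F := (σ : F →+* F).eqLocusField (RingHom.id F)

theorem mem_fixF {σ : F ≃+* F} {a : F} : a ∈ fixF σ ↔ σ a = a := Iff.rfl

theorem fixF_ne_top {σ : F ≃+* F} (h : σ ≠ RingEquiv.refl F) : fixF σ ≠ ⊤ := by
  intro h0
  apply h
  ext a
  have : a ∈ fixF σ := by rw [h0]; trivial
  exact this

theorem map_mulVec' (σ : F ≃+* F) (s : Matrix ι ι F) (v : ι → F) :
    σ ∘ (s *ᵥ v) = s.map σ *ᵥ (σ ∘ v) := comp_mulVec σ s v

omit [Finite F] in
theorem map_map_mul (σ : F ≃+* F) (A B : Matrix ι ι F) : (A * B).map σ = A.map σ * B.map σ := by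
  have := map_mul (σ : F →+* F).mapMatrix A B
  simpa using this

/-- Descent for a semilinear involution. -/
theorem exists_descent (σ : F ≃+* F) (hσ : σ ≠ RingEquiv.refl F) (hinv : ∀ a : F, σ (σ a) = a)
    (D Di : Matrix ι ι F) (hDi : Di * D = 1) (hiD : D * Di = 1) (hD : D.map σ * D = 1) :
    ∃ E : GL ι F, (E : Matrix ι ι F).map σ = D * (E : Matrix ι ι F) := by
  classical
  -- `T v = D⁻¹ σ(v)`
  let T : (ι → F) → (ι → F) := fun v => Di *ᵥ (σ ∘ v)
  have hDiσ : Di.map σ = D := by
    have h1 : D.map σ * D = 1 := hD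
    have h2 : Di.map σ * D.map σ = 1 := by
      rw [← map_map_mul, hDi]
      ext i j
      by_cases hij : i = j
      · subst hij
        simp
      · simp [Matrix.one_apply, hij]
    calc Di.map σ = Di.map σ * (D.map σ * D) := by rw [h1, mul_one]
      _ = D := by rw [← mul_assoc, h2, one_mul]
  have hT2 : ∀ v, T (T v) = v := by
    intro v
    simp only [T]
    rw [map_mulVec', hDiσ]
    have h3 : σ ∘ σ ∘ v = v := by
      funext i
      simp [hinv]
    rw [h3, Matrix.mulVec_mulVec, hDi, Matrix.one_mulVec]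
  have hTadd : ∀ u v, T (u + v) = T u + T v := by
    intro u v
    simp only [T]
    rw [← Matrix.mulVec_add]
    congr 1
    funext i
    simp
  have hTsmul : ∀ (c : F) v, T (c • v) = σ c • T v := by
    intro c v
    simp only [T]
    rw [← Matrix.mulVec_smul]
    congr 1
    funext i
    simp
  let V₀ : Set (ι → F) := {v | T v = v}
  obtain ⟨ω, hω⟩ : ∃ ω, σ ω ≠ ω := by
    by_contra hcon
    push Not at hcon
    exact hσ (RingEquiv.ext hcon)
  have hspan : Submodule.span F V₀ = ⊤ := by
    rw [eq_top_iff]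
    intro v _
    have h1 : v + T v ∈ V₀ := by
      change T (v + T v) = v + T v
      rw [hTadd, hT2, add_comm]
    have h2 : ω • v + T (ω • v) ∈ V₀ := by
      change T (ω • v + T (ω • v)) = ω • v + T (ω • v)
      rw [hTadd, hT2, add_comm]
    have h3 : (ω - σ ω) • v = (ω • v + T (ω • v)) - σ ω • (v + T v) := by
      rw [hTsmul, smul_add, sub_smul]
      abel
    have h4 : (ω - σ ω) • v ∈ Submodule.span F V₀ := by
      rw [h3]
      exact Submodule.sub_mem _ (Submodule.subset_span h2) (Submodule.smul_mem _ _ (Submodule.subset_span h1))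
    have h5 : ω - σ ω ≠ 0 := fun h => hω (sub_eq_zero.1 h).symm
    have h6 := Submodule.smul_mem _ (ω - σ ω)⁻¹ h4
    rwa [smul_smul, inv_mul_cancel₀ h5, one_smul] at h6
  obtain ⟨b, hbV, hbspan, hbLI⟩ := exists_linearIndependent F V₀
  rw [hspan] at hbspan
  let bas := Module.Basis.mk hbLI (by rw [Subtype.range_coe, hbspan])
  haveI : Fintype b := Fintype.ofFinite _
  have hcard : Fintype.card ι = Fintype.card b := by
    have h1 := Module.finrank_eq_card_basis bas
    rw [Module.finrank_fintype_fun_eq_card] at h1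
    exact h1
  let e : ι ≃ b := Fintype.equivOfCardEq hcard
  let E : Matrix ι ι F := Matrix.of fun i j => ((e j : b) : ι → F) i
  have hEu : IsUnit E := by
    rw [← Matrix.linearIndependent_cols_iff_isUnit]
    have h1 : LinearIndependent F (fun j => ((e j : b) : ι → F)) := hbLI.comp e e.injective
    convert h1 using 1
    funext j i
    rfl
  obtain ⟨Eu, hEu'⟩ := hEu
  refine ⟨Eu, ?_⟩
  have hcol : ∀ j, T (fun i => E i j) = fun i => E i j := by
    intro j
    exact hbV (e j).2
  rw [hEu']
  -- σ(E) = D E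
  ext i j
  have h1 := hcol j
  have h2 := congrArg (fun w => D *ᵥ w) h1
  simp only [T, Matrix.mulVec_mulVec, hiD, Matrix.one_mulVec] at h2
  have h3 := congrFun h2 i
  simp only [Function.comp_apply] at h3
  rw [Matrix.map_apply, h3, Matrix.mul_apply]
  rfl

/-- The main descent: a group fixing a bilinear form and a unitary form is realisable over the fixed field. -/
theorem realisable_of_two_forms [Nonempty ι] {σ : F ≃+* F} (hσ : σ ≠ RingEquiv.refl F) (hinv : ∀ a : F, σ (σ a) = a)
    {f g : (ι → F) → (ι → F) → F} (hf : Sesq (RingEquiv.refl F) f) (hfnd : IsNondegenerateForm f)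
    (hg : Sesq σ g) (hgnd : IsNondegenerateForm g) {P : Subgroup (GL ι F)}
    (hA : ActsAbsolutelyIrreducibly (matrixSet P)) (hff : FixesForm (matrixSet P) f) (hfg : FixesForm (matrixSet P) g) :
    RealisableOver (fixF σ) (matrixSet P) := by
  classical
  obtain ⟨Au, hAu⟩ := gram_unit hf hfnd
  obtain ⟨Cu, hCu⟩ := gram_unit hg hgnd
  set A := gram f with hAdef
  set C := gram g with hCdef
  set Ai : Matrix ι ι F := ((Au⁻¹ : (Matrix ι ι F)ˣ) : Matrix ι ι F) with hAi
  set Ci : Matrix ι ι F := ((Cu⁻¹ : (Matrix ι ι F)ˣ) : Matrix ι ι F) with hCi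
  have hAiA : Ai * A = 1 := by rw [hAi, ← hAu, ← Units.val_mul, inv_mul_cancel, Units.val_one]
  have hAAi : A * Ai = 1 := by rw [hAi, ← hAu, ← Units.val_mul, mul_inv_cancel, Units.val_one]
  have hCiC : Ci * C = 1 := by rw [hCi, ← hCu, ← Units.val_mul, inv_mul_cancel, Units.val_one]
  have hCCi : C * Ci = 1 := by rw [hCi, ← hCu, ← Units.val_mul, mul_inv_cancel, Units.val_one]
  have hsA : ∀ s ∈ matrixSet P, sᵀ * A * s = A := by
    intro s hs
    have h1 := gram_comp hf s
    rw [← hAdef] at h1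
    have h2 : s.map (RingEquiv.refl F) = s := by
      ext i j
      rfl
    rw [h2] at h1
    rw [← h1]
    congr 1
    funext u v
    exact hff s hs u v
  have hsC : ∀ s ∈ matrixSet P, sᵀ * C * s.map σ = C := by
    intro s hs
    have h1 := gram_comp hg s
    rw [← hCdef] at h1
    rw [← h1]
    congr 1
    funext u v
    exact hfg s hs u v
  -- `D = C⁻¹ A`
  let D : Matrix ι ι F := Ci * A
  let Di : Matrix ι ι F := Ai * C
  have hDDi : D * Di = 1 := by
    calc D * Di = Ci * (A * Ai) * C := by simp only [D, Di, mul_assoc]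
      _ = 1 := by rw [hAAi, mul_one, hCiC]
  have hDiD : Di * D = 1 := mul_eq_one_comm.1 hDDi
  have hconj : ∀ s ∈ matrixSet P, s.map σ * D = D * s := by
    intro s hs
    have h1 := hsA s hs
    have h2 := hsC s hs
    have h3 : (Ai * sᵀ * A) * s = 1 := by
      calc (Ai * sᵀ * A) * s = Ai * (sᵀ * A * s) := by simp only [mul_assoc]
        _ = 1 := by rw [h1, hAiA]
    have h4 : s * (Ai * sᵀ * A) = 1 := mul_eq_one_comm.1 h3
    have h5 : (A * s * Ai) * sᵀ = 1 := by
      calc (A * s * Ai) * sᵀ = A * (s * (Ai * sᵀ * A)) * Ai := by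
            simp only [mul_assoc]
            rw [hAAi, mul_one]
        _ = 1 := by rw [h4, mul_one, hAAi]
    have h6 : C * s.map σ = A * s * Ai * C := by
      calc C * s.map σ = ((A * s * Ai) * sᵀ) * C * s.map σ := by rw [h5, one_mul]
        _ = (A * s * Ai) * (sᵀ * C * s.map σ) := by simp only [mul_assoc]
        _ = A * s * Ai * C := by rw [h2]
    calc s.map σ * D = (Ci * C) * s.map σ * D := by
          rw [hCiC, one_mul]
      _ = Ci * (C * s.map σ) * D := by simp only [mul_assoc]
      _ = Ci * (A * s * Ai * C) * (Ci * A) := by rw [h6]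
      _ = Ci * A * s * (Ai * (C * Ci) * A) := by simp only [mul_assoc]
      _ = D * s := by rw [hCCi, mul_one, hAiA, mul_one]
  have hσσ : ∀ X : Matrix ι ι F, (X.map σ).map σ = X := by
    intro X
    ext i j
    simp [hinv]
  -- the norm of `D` is a scalar
  obtain ⟨μ, hμ⟩ := hA.2 (D.map σ * D) (by
    intro s hs
    have h1 := hconj s hs
    have h2 := congrArg (fun X : Matrix ι ι F => X.map σ) h1
    simp only [map_map_mul, hσσ] at h2
    calc D.map σ * D * s = D.map σ * (D * s) := by rw [mul_assoc]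
      _ = D.map σ * (s.map σ * D) := by rw [h1]
      _ = (D.map σ * s.map σ) * D := (Matrix.mul_assoc _ _ _).symm
      _ = (s * D.map σ) * D := by rw [h2]
      _ = s * (D.map σ * D) := Matrix.mul_assoc _ _ _)
  obtain ⟨i₀⟩ := ‹Nonempty ι›
  have hone_map : (1 : Matrix ι ι F).map σ = 1 := by
    ext i j
    by_cases hij : i = j
    · subst hij
      simp
    · simp [Matrix.one_apply, hij]
  have hDσi : D.map σ * Di.map σ = 1 := by
    rw [← map_map_mul, hDDi, hone_map]
  have hμ0 : μ ≠ 0 := by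
    rintro rfl
    rw [zero_smul] at hμ
    have h1 : D.map σ = 0 := by
      calc D.map σ = D.map σ * (D * Di) := by rw [hDDi, mul_one]
        _ = (D.map σ * D) * Di := (Matrix.mul_assoc _ _ _).symm
        _ = 0 := by rw [hμ, zero_mul]
    rw [h1, zero_mul] at hDσi
    have := congrFun (congrFun hDσi i₀) i₀
    simp at this
  have hDσ : D.map σ = μ • Di := by
    calc D.map σ = D.map σ * (D * Di) := by rw [hDDi, mul_one]
      _ = (D.map σ * D) * Di := (Matrix.mul_assoc _ _ _).symm
      _ = μ • Di := by rw [hμ, Matrix.smul_mul, one_mul]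
  have hμσ : σ μ = μ := by
    have h1 : (D.map σ * D).map σ = (μ • (1 : Matrix ι ι F)).map σ := by rw [hμ]
    rw [map_map_mul, hσσ, hDσ] at h1
    rw [Matrix.mul_smul, hDDi] at h1
    have h2 := congrFun (congrFun h1 i₀) i₀
    simp at h2
    exact h2.symm
  obtain ⟨a, ha⟩ := Cfsg.Agent.Lib.Geo.UnitaryInSL.exists_mul_sigma_eq σ hσ hinv μ⁻¹ (by rw [map_inv₀, hμσ]) (inv_ne_zero hμ0)
  have ha0 : a ≠ 0 := by
    rintro rfl
    rw [zero_mul] at ha
    exact inv_ne_zero hμ0 ha.symm
  let D' : Matrix ι ι F := a • D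
  let Di' : Matrix ι ι F := a⁻¹ • Di
  have hD'Di' : D' * Di' = 1 := by
    simp only [D', Di', Matrix.smul_mul, Matrix.mul_smul, smul_smul, hDDi]
    rw [inv_mul_cancel₀ ha0, one_smul]
  have hDi'D' : Di' * D' = 1 := mul_eq_one_comm.1 hD'Di'
  have hmap_smul : ∀ (c : F) (X : Matrix ι ι F), (c • X).map σ = σ c • X.map σ := by
    intro c X
    ext i j
    simp
  have hN' : D'.map σ * D' = 1 := by
    simp only [D']
    rw [hmap_smul, Matrix.smul_mul, Matrix.mul_smul, hμ, smul_smul, smul_smul]
    have : σ a * a * μ = 1 := by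
      have : a * σ a = μ⁻¹ := ha
      calc σ a * a * μ = (a * σ a) * μ := by ring
        _ = 1 := by rw [this, inv_mul_cancel₀ hμ0]
    rw [this, one_smul]
  obtain ⟨E, hE⟩ := exists_descent σ hσ hinv D' Di' hDi'D' hD'Di' hN'
  refine ⟨E⁻¹, ?_⟩
  rintro s hs i j
  rw [inv_inv]
  change σ _ = _
  set Em : Matrix ι ι F := (E : Matrix ι ι F) with hEm
  set Ei : Matrix ι ι F := ((E⁻¹ : GL ι F) : Matrix ι ι F) with hEi
  have hEEi : Em * Ei = 1 := by rw [hEm, hEi, ← Units.val_mul, mul_inv_cancel, Units.val_one]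
  have hEiE : Ei * Em = 1 := by rw [hEm, hEi, ← Units.val_mul, inv_mul_cancel, Units.val_one]
  have hEiσ : Ei.map σ = Ei * Di' := by
    have h1 : Em.map σ * Ei.map σ = 1 := by rw [← map_map_mul, hEEi, hone_map]
    rw [hE] at h1
    calc Ei.map σ = (Ei * (Di' * D') * Em) * Ei.map σ := by rw [hDi'D', mul_one, hEiE, one_mul]
      _ = (Ei * Di') * (D' * Em * Ei.map σ) := by simp only [mul_assoc]
      _ = Ei * Di' := by rw [h1, mul_one]
  have hs' : s.map σ = D' * s * Di' := by
    have h1 : s.map σ * D' = D' * s := by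
      simp only [D']
      rw [Matrix.mul_smul, Matrix.smul_mul, hconj s hs]
    calc s.map σ = s.map σ * (D' * Di') := by rw [hD'Di', mul_one]
      _ = D' * s * Di' := by rw [← mul_assoc, h1]
  have hy : (Ei * s * Em).map σ = Ei * s * Em := by
    rw [map_map_mul, map_map_mul, hEiσ, hs', hE]
    calc Ei * Di' * (D' * s * Di') * (D' * Em) = Ei * (Di' * D') * s * (Di' * D') * Em := by simp only [mul_assoc]
      _ = Ei * s * Em := by rw [hDi'D', mul_one, mul_one]
  have := congrFun (congrFun hy i) j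
  exact this

end Cfsg.Agent.Lib.AschF.TwoF
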