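import Mathlib
import Cfsg.Agent.Lib.AschF.OddD
import Cfsg.Agent.Lib.AschF.TwoF

/-!
# The structure theorem for quadratic forms in odd dimension
-/

set_option autoImplicit false

namespace Cfsg.Agent.Lib.AschF.OddE

open Matrix Module Cfsg Cfsg.Geo
open Cfsg.Agent.Lib.Asch.Forms Cfsg.Agent.Lib.AschF.Adj Cfsg.Agent.Lib.AschF.OddA Cfsg.Agent.Lib.AschF.OddB
  Cfsg.Agent.Lib.AschF.OddD Cfsg.Agent.Lib.AschF.Dich Cfsg.Agent.Lib.AschF.Top Cfsg.Agent.Lib.AschF.Sub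
  Cfsg.Agent.Lib.AschF.QuadR Cfsg.Agent.Lib.AschF.TwoF
open Cfsg.Agent.Lib.Asch.XT Cfsg.Agent.Lib.Asch.GT
open Cfsg.Agent.Lib.Geo.QForm (pol pol_self Q_zero)

universe u

variable {ι : Type} [Fintype ι] [DecidableEq ι] {F : Type u} [Field F]
variable {Q : (ι → F) → F}

/-- A unitary form is sesquilinear. -/
theorem sesq_of_unitary {σ : F ≃+* F} {g : (ι → F) → (ι → F) → F} (hg : IsUnitaryForm σ g) : Sesq σ g where
  add_left := hg.add_left
  smul_left := hg.smul_left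
  add_right := fun v x y => by
    rw [hg.herm v (x + y), hg.add_left, map_add, ← hg.herm, ← hg.herm]
  smul_right := fun c v x => by
    rw [hg.herm v (c • x), hg.smul_left, map_mul, ← hg.herm]

variable [Fintype F]

/-- No unitary form is fixed by a group fixing a bilinear form and realisable over no proper subfield. -/
theorem no_unitary_of_bilinear [Nonempty ι] {f : (ι → F) → (ι → F) → F} (hf : Sesq (RingEquiv.refl F) f) (hfnd : IsNondegenerateForm f)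
    {P : Subgroup (GL ι F)} (hA : ActsAbsolutelyIrreducibly (matrixSet P))
    (hns : ∀ F₀ : Subfield F, F₀ ≠ ⊤ → ¬ RealisableOver F₀ (matrixSet P)) (hff : FixesForm (matrixSet P) f) :
    ¬ ∃ (σ : F ≃+* F) (g : (ι → F) → (ι → F) → F), IsUnitaryForm σ g ∧ FixesForm (matrixSet P) g := by
  rintro ⟨σ, g, hg, hfg⟩
  exact hns _ (fixF_ne_top hg.ne_refl) (realisable_of_two_forms hg.ne_refl hg.involutive hf hfnd (sesq_of_unitary hg) hg.nondegenerate hA hff hfg)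

/-- No scalar commutators in odd dimension. -/
theorem no_scalar_comm [Nonempty ι] (hQ : IsNondegenerateQuadraticForm Q) (h2 : (2 : F) ≠ 0) (hodd : Odd (Fintype.card ι)) (hcard : 2 ≤ Fintype.card ι)
    {R : Subgroup (GL ι F)} (hR : R ≤ isometryGroup F Q) (hA : ActsAbsolutelyIrreducibly (matrixSet R))
    (hSC : Cfsg.Agent.Lib.Asch.SC.ScC R) : False := by
  classical
  obtain ⟨x, -, y, -, c, hc1, hcR, hxy⟩ := exists_comm_elt' hcard hA hSC
  have hf := hf_polar hQ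
  -- `c ^ 2 = 1`
  have hc2 : (c : F) * c = 1 := by
    obtain ⟨i₀⟩ := ‹Nonempty ι›
    let v : ι → F := Pi.single i₀ 1
    have hv : v ≠ 0 := by
      intro h0
      have := congrFun h0 i₀
      simp [v] at this
    obtain ⟨⟨u, hu⟩, -⟩ := hf.nd v hv
    have h1 := polar_isom (hR hcR) u v
    rw [sc_val, Matrix.smul_mulVec, Matrix.smul_mulVec, Matrix.one_mulVec, Matrix.one_mulVec, hf.sesq.smul_left, hf.sesq.smul_right] at h1
    simp only [RingEquiv.refl_apply] at h1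
    have h3 : ((c : F) * c - 1) * pol Q u v = 0 := by linear_combination h1
    exact sub_eq_zero.1 ((mul_eq_zero.1 h3).resolve_right hu)
  have hcm : (c : F) = -1 := by
    have h3 : ((c : F) - 1) * ((c : F) + 1) = 0 := by linear_combination hc2
    rcases mul_eq_zero.1 h3 with h4 | h4
    · exact absurd (Units.ext (sub_eq_zero.1 h4)) hc1
    · exact eq_neg_of_add_eq_zero_left h4
  -- determinants
  have h1 := congrArg (fun g : GL ι F => ((g : Matrix ι ι F)).det) hxy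
  simp only [Units.val_mul, Matrix.det_mul, sc_val, Matrix.det_smul, Matrix.det_one, mul_one] at h1
  rw [hcm, hodd.neg_one_pow] at h1
  have hx0 : (x : Matrix ι ι F).det ≠ 0 := ((Matrix.isUnit_iff_isUnit_det _).1 x.isUnit).ne_zero
  have hy0 : (y : Matrix ι ι F).det ≠ 0 := ((Matrix.isUnit_iff_isUnit_det _).1 y.isUnit).ne_zero
  have h3 : 2 * ((x : Matrix ι ι F).det * (y : Matrix ι ι F).det) = 0 := by linear_combination h1
  exact mul_ne_zero h2 (mul_ne_zero hx0 hy0) h3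

/-- The main theorem. -/
theorem main_of_noclass [Nonempty ι] (hQ : IsNondegenerateQuadraticForm Q) (h2 : (2 : F) ≠ 0) (hodd : Odd (Fintype.card ι)) (hcard : 2 ≤ Fintype.card ι)
    (hEnt : ∀ (F₁ : Subfield F) (a b : ι), pol Q (Pi.single a 1) (Pi.single b 1) ∈ F₁)
    {H : Subgroup (GL ι F)} (hH : H ≤ isometryGroup F Q) (hNo : OddNoClass Q H) : InOrthogonalResidualClass H := by
  classical
  have hf := hf_polar hQ
  have hfix : ∀ g ∈ H, ∀ u v, pol Q ((g : Matrix ι ι F) *ᵥ u) ((g : Matrix ι ι F) *ᵥ v) = pol Q u v :=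
    fun g hg u v => polar_isom (hH hg) u v
  have hS : NoStr (pol Q) (RingEquiv.refl F) 1 H :=
    { irr := irr_of_noclass hQ h2 hH hNo
      dec := fun t k D hD hle htr => dec_of_noclass hQ h2 hodd hEnt hH hNo t k D hD hle htr
      pair := fun k D hD _ _ => pair_false hodd k D hD
      fld := fun r K hr hK hadj hle => fld_false hQ h2 hodd hcard hH hNo r K hr hK hadj hle
      ten := fun a b e P f₁ f₂ ε₁ ε₂ ha hb h₁ h₂ _ hlaw hmem => ten_false hQ h2 hodd hH hNo a b e P f₁ f₂ ε₁ ε₂ ha hb h₁ h₂ hlaw hmem }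
  have hSf : ∀ P₀ : Subgroup (GL ι F), P₀ ≤ H → HN H P₀ → ActsAbsolutelyIrreducibly (matrixSet P₀) →
      ∀ F₀ : Subfield F, F₀ ≠ ⊤ → ¬ RealisableOver F₀ (matrixSet P₀) := by
    intro P₀ hP₀ hN hA F₀ hF₀ hR
    obtain ⟨B, F₁, p, s, k, hp, hc, -, hs, hcardF, hF₁, hHB, hB⟩ := subfield_mem H P₀ hA hN F₀ hF₀ hR
    haveI : Fact p.Prime := ⟨hp⟩
    have hfix₀ : FixesForm (matrixSet P₀) (pol Q) := by
      rintro _ ⟨x, hx, rfl⟩ u v
      exact hfix x (hP₀ hx) u v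
    obtain ⟨ζ, hζ, hR'⟩ := rational_zeta hf.sesq hf.nd hA hfix₀ B F₁ p k hF₁ hB
    obtain ⟨l, P', hl, hP', hq⟩ := quad_rational hQ h2 hodd hEnt F₁ hs hcardF B⁻¹ hζ hR'
    exact hNo.sub F₁ s P' hs hcardF hq (fun h hh => subfield_scale F₁ B⁻¹ l hl (hHB hh) P' hP')
  have hWr : ∀ (a k : ℕ) (e₂ : ι ≃ (Fin k → Fin a)) (P₂ : GL ι F) (A : (Fin a → F) → (Fin a → F) → F) (ε₁ c : F),
      2 ≤ a → 2 ≤ k → HF (RingEquiv.refl F) ε₁ A → c ≠ 0 →
      (∀ x y : (Fin k → Fin a) → F, pol Q ((P₂ : Matrix ι ι F) *ᵥ (x ∘ e₂)) ((P₂ : Matrix ι ι F) *ᵥ (y ∘ e₂)) =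
        c * ∑ u, ∑ v, x u * (∏ i, gramMatrix A (u i) (v i)) * (RingEquiv.refl F) (y v)) → c * ε₁ ^ k = 1 * (RingEquiv.refl F) c →
      H ≤ tensorWreathSubgroup a k e₂ P₂ → False :=
    fun a k e₂ P₂ A ε₁ c ha hk hA hc hlaw _ hle => wr_false hQ hodd hH hNo a k e₂ P₂ A ε₁ c ha hk hA hc hlaw hle
  rcases aschF hcard hf H hfix hS hWr hSf with ⟨r, R, -, hRH, -, hA, hSC, -⟩ | ⟨P, hP⟩
  · exact (no_scalar_comm hQ h2 hodd hcard (hRH.trans hH) hA hSC).elim
  · refine ⟨P, hP, no_unitary_of_bilinear hf.sesq hf.nd hP.absIrred hP.no_subfield ?_⟩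
    rintro _ ⟨x, hx, rfl⟩ u v
    exact hfix x (hP.le hx) u v

end Cfsg.Agent.Lib.AschF.OddE
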