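import Mathlib
import Cfsg.Agent.Lib.GeoOmega.Basic
import Cfsg.Agent.Lib.Geo.OrthInSL
import Cfsg.Agent.Lib.Geo.RatStruct
import Cfsg.Agent.Lib.AschF.OddD

/-!
# `Ω` lies in no member of the geometric classes
-/

set_option autoImplicit false

namespace Cfsg.Agent.Lib.AschF.OmegaP

open Matrix Module Cfsg Cfsg.Geo
open Cfsg.Agent.Lib.Geo.Basic Cfsg.Agent.Lib.Geo.Polar Cfsg.Agent.Lib.Geo.QForm Cfsg.Agent.Lib.GeoOmega.Basic
open Cfsg.Agent.Lib.Geo.OrthInSL (notMem_span_one)

universe u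

variable {ι : Type} [Fintype ι] [DecidableEq ι] {F : Type u} [Field F] {Q : (ι → F) → F}

section Basic
variable (hQ : IsNondegenerateQuadraticForm Q)
include hQ

/-- Subspaces stable under the Siegel transformations are trivial. -/
theorem sg_stable_irr [Finite F] (hι : 7 ≤ Fintype.card ι) (W : Submodule F (ι → F))
    (hW : ∀ (a c : ι → F) (ha : Q a = 0) (hc : Q c = 0) (hac : pol Q a c = 0), ∀ v ∈ W,
      ((sg hQ a c ha hc hac : GL ι F) : Matrix ι ι F) *ᵥ v ∈ W) : W = ⊥ ∨ W = ⊤ := by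
  have P := isPolar hQ
  by_cases hW0 : W = ⊥
  · exact Or.inl hW0
  right
  have hstep : ∀ w c, w ∈ W → Q c = 0 → pol Q w c = 0 → (∀ a : F, a • c ≠ w) → c ∈ W := by
    intro w c hw hc hwc hsp
    obtain ⟨v, hvB, hvp, hvw⟩ := P.exists_singular_perp ![c] w (notMem_span_one c w hsp)
      (by simp; omega)
    rw [P.mem_perp, Fin.forall_fin_one] at hvp
    simp only [Matrix.cons_val_zero] at hvp
    have hQv : Q v = 0 := hvB
    have hcv : pol Q c v = 0 := by rw [pol_symm hQ, hvp]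
    have hS := hW c v hc hQv hcv w hw
    rw [sg_mulVec hQ, hwc, zero_smul, sub_zero] at hS
    have h2 : pol Q w v • c ∈ W := by
      have := W.sub_mem hS hw
      rwa [add_sub_cancel_left] at this
    have hwv : pol Q w v ≠ 0 := by rwa [pol_symm hQ]
    have := W.smul_mem (pol Q w v)⁻¹ h2
    rwa [smul_smul, inv_mul_cancel₀ hwv, one_smul] at this
  obtain ⟨w, hw, hw0⟩ := Submodule.exists_mem_ne_zero_of_ne_bot hW0
  rw [eq_top_iff]
  refine (P.top_le_span w hw0 hι).trans (Submodule.span_le.mpr ?_)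
  rintro c ⟨hcB, hc⟩
  have hQc : Q c = 0 := hcB
  obtain ⟨p, q, hp, hq, hpB, -, hpq⟩ := P.exists_hyperbolic ![w, c] (by simp; omega)
  rw [P.mem_perp, Fin.forall_fin_two] at hp hq
  simp only [Matrix.cons_val_zero, Matrix.cons_val_one, Matrix.cons_val_fin_one] at hp hq
  have hpW : p ∈ W := hstep w p hw hpB (by rw [pol_symm hQ, hp.1]) (by
    intro a ha
    have h1 : pol Q w q = 0 := by rw [pol_symm hQ, hq.1]
    rw [← ha, pol_smul_left hQ, hpq, mul_one] at h1
    rw [h1, zero_smul] at ha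
    exact hw0 ha.symm)
  exact hstep p c hpW hQc hp.2 (by
    intro a ha
    have h1 : pol Q c q = 0 := by rw [pol_symm hQ, hq.2]
    have h2 := hpq
    rw [← ha, pol_smul_left hQ, h1, mul_zero] at h2
    exact zero_ne_one h2)

/-- Siegel transformations lie in `Ω`. -/
theorem sg_mem [Finite F] (hι : 7 ≤ Fintype.card ι) (a c : ι → F) (ha : Q a = 0) (hc : Q c = 0) (hac : pol Q a c = 0) :
    sg hQ a c ha hc hac ∈ omegaGL Q :=
  sg_mem_omegaGL hQ hι c a hc ha hac

/-- `Ω` is irreducible. -/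
theorem omega_not_le_stab [Finite F] (hι : 7 ≤ Fintype.card ι) {W : Submodule F (ι → F)} (hW0 : W ≠ ⊥) (hW1 : W ≠ ⊤) :
    ¬ omegaGL Q ≤ subspaceStabilizer W := by
  intro hle
  rcases sg_stable_irr hQ hι W (fun a c ha hc hac v hv =>
    (mem_subspaceStabilizer_iff_forall_mem W _).1 (hle (sg_mem hQ hι a c ha hc hac)) v hv) with h | h
  · exact hW0 h
  · exact hW1 h

omit hQ in
/-- A totally singular subspace is proper. -/
theorem ne_top_of_ts (hQ : IsNondegenerateQuadraticForm Q) [Nonempty ι] {W : Submodule F (ι → F)} (hW : IsTotallySingularQuad Q W) : W ≠ ⊤ := by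
  intro h
  have hQ0 : ∀ v, Q v = 0 := fun v => hW v (by rw [h]; trivial)
  obtain ⟨i⟩ := ‹Nonempty ι›
  have hv : (Pi.single i 1 : ι → F) ≠ 0 := by
    intro h0
    have := congrFun h0 i
    simp at this
  obtain ⟨x, hx⟩ := (hQ.nondegenerate _ hv).1
  apply hx
  simp [QuadraticMap.polar, hQ0]

/-- Difference of an isometric image: the value of the form. -/
theorem Q_sub (x y : ι → F) : Q (x - y) = Q x + Q y - pol Q x y := by
  rw [sub_eq_add_neg, Q_add hQ]
  have h1 : Q (-y) = Q y := by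
    have := hQ.smul (-1) y
    simpa using this
  have h2 : pol Q x (-y) = - pol Q x y := by
    have := pol_smul_right hQ (-1) x y
    simpa using this
  rw [h1, h2]
  ring

/-- `Ω` does not stabilise an orthogonal decomposition. -/
theorem omega_not_le_dec [Finite F] (h2 : (2 : F) ≠ 0) (hι : 7 ≤ Fintype.card ι) {t k : ℕ} {D : Fin t → Submodule F (ι → F)}
    (hD : IsOrthogonalMDecomposition Q k D) : ¬ omegaGL Q ≤ decompositionStabilizer D := by
  intro hle
  have hdec := hD.decomp.decomp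
  have hne : ∀ i, D i ≠ ⊥ := by
    intro i h
    have := hdec.finrank_eq i
    rw [h, finrank_bot] at this
    have := hdec.pos
    omega
  have hfix : ∀ i, ∀ (a c : ι → F) (ha : Q a = 0) (hc : Q c = 0) (hac : pol Q a c = 0), ∀ v ∈ D i,
      ((sg hQ a c ha hc hac : GL ι F) : Matrix ι ι F) *ᵥ v ∈ D i := by
    intro i a c ha hc hac v hv
    obtain ⟨σ, hσ⟩ := hle (sg_mem hQ hι a c ha hc hac)
    by_cases hi : σ i = i
    · have h1 := hσ i
      rw [hi] at h1
      rw [← h1]
      exact ⟨v, hv, rfl⟩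
    · exfalso
      have hsing : ∀ w ∈ D i, Q w = 0 := by
        intro w hw
        have h1 : ((sg hQ a c ha hc hac : GL ι F) : Matrix ι ι F) *ᵥ w ∈ D (σ i) := by
          rw [← hσ i]
          exact ⟨w, hw, rfl⟩
        have h3 : pol Q _ w = 0 := hD.decomp.orthogonal (σ i) i hi _ h1 _ hw
        have h4 := Q_sub hQ (((sg hQ a c ha hc hac : GL ι F) : Matrix ι ι F) *ᵥ w) w
        rw [h3, Cfsg.Agent.Lib.AschF.OddA.Q_isom (sg_mem_isometry hQ a c ha hc hac)] at h4
        have h5 : ((sg hQ a c ha hc hac : GL ι F) : Matrix ι ι F) *ᵥ w - w = pol Q w c • a + (- pol Q w a) • c := by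
          rw [sg_mulVec hQ, neg_smul]
          abel
        rw [h5, Q_add hQ, hQ.smul, hQ.smul, pol_smul_left hQ, pol_smul_right hQ, ha, hc, hac] at h4
        have h6 : 2 * Q w = 0 := by
          have : (0 : F) = Q w + Q w := by
            rw [show (pol Q w c) ^ 2 * (0 : F) + (-pol Q w a) ^ 2 * 0 + pol Q w c * (-pol Q w a * 0) = 0 by ring] at h4
            rw [h4]
            ring
          rw [two_mul]
          exact this.symm
        exact (mul_eq_zero.1 h6).resolve_left h2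
      obtain ⟨w, hw, hw0⟩ := Submodule.exists_mem_ne_zero_of_ne_bot (hne i)
      obtain ⟨x, hx, hne'⟩ := (hD.decomp.nondegenerate i w hw hw0).1
      apply hne'
      simp only [QuadraticMap.polar]
      rw [hsing _ ((D i).add_mem hx hw), hsing _ hx, hsing _ hw]
      simp
  have h2le : 2 ≤ t := hdec.two_le
  let i₀ : Fin t := ⟨0, by omega⟩
  let i₁ : Fin t := ⟨1, by omega⟩
  have hi01 : i₀ ≠ i₁ := by
    intro h
    have := congrArg Fin.val h
    simp [i₀, i₁] at this
  rcases sg_stable_irr hQ hι (D i₀) (hfix i₀) with h | h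
  · exact hne i₀ h
  · obtain ⟨w, hw, hw0⟩ := Submodule.exists_mem_ne_zero_of_ne_bot (hne i₁)
    obtain ⟨x, hx, hne'⟩ := (hD.decomp.nondegenerate i₁ w hw hw0).2
    apply hne'
    have h5 := hD.decomp.orthogonal i₁ i₀ hi01.symm w hw x (by rw [h]; trivial)
    exact h5

/-- Hyperbolic quadruples. -/
theorem exists_quad [Finite F] (hι : 7 ≤ Fintype.card ι) :
    ∃ a b c e : ι → F, Q a = 0 ∧ Q b = 0 ∧ Q c = 0 ∧ Q e = 0 ∧ pol Q a c = 0 ∧ pol Q a b = 0 ∧ pol Q b c = 0 ∧
      pol Q a e = 0 ∧ pol Q c e = 0 ∧ pol Q b e = 1 ∧ c ≠ 0 ∧ ∃ y : ι → F, pol Q y a = 1 ∧ pol Q y c = 0 := by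
  have P := isPolar hQ
  obtain ⟨a, y, -, -, ha, hy, hay⟩ := P.exists_hyperbolic (![] : Fin 0 → ι → F) (by omega)
  obtain ⟨c, y', hc, hy', hcQ, hy'Q, hcy⟩ := P.exists_hyperbolic (![a, y] : Fin 2 → ι → F) (by simp; omega)
  rw [P.mem_perp, Fin.forall_fin_two] at hc hy'
  simp only [Matrix.cons_val_zero, Matrix.cons_val_one] at hc hy'
  obtain ⟨b, e, hb, he, hbQ, heQ, hbe⟩ := P.exists_hyperbolic (![a, c] : Fin 2 → ι → F) (by simp; omega)
  rw [P.mem_perp, Fin.forall_fin_two] at hb he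
  simp only [Matrix.cons_val_zero, Matrix.cons_val_one] at hb he
  simp only [Set.mem_ofPred_eq] at ha hcQ hbQ heQ
  refine ⟨a, b, c, e, ha, hbQ, hcQ, heQ, by rw [pol_symm hQ]; exact hc.1, by rw [pol_symm hQ]; exact hb.1, hb.2, by rw [pol_symm hQ]; exact he.1, by rw [pol_symm hQ]; exact he.2, hbe, ?_, y, by rw [pol_symm hQ]; exact hay, by rw [pol_symm hQ]; exact hc.2⟩
  rintro rfl
  rw [pol_zero_left hQ] at hcy
  exact zero_ne_one hcy

end Basic

/-- The key computation for subfield groups. -/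
theorem subfield_top_of_family {F₀ : Subfield F} (h2 : (2 : F) ≠ 0) {N : Matrix ι ι F} (hN0 : N ≠ 0) (hNN : N * N = 0)
    (hfam : ∀ t : F, ∃ l : F, l ≠ 0 ∧ ∀ i j, l * (1 + t • N) i j ∈ F₀) : F₀ = ⊤ := by
  classical
  have hoff : ∃ k l, k ≠ l ∧ N k l ≠ 0 := by
    by_contra hcon
    push Not at hcon
    apply hN0
    ext i j
    by_cases hij : i = j
    · subst hij
      have h1 := congrFun (congrFun hNN i) i
      rw [Matrix.mul_apply, Finset.sum_eq_single i] at h1
      · simpa using h1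
      · intro b _ hb
        rw [hcon i b (Ne.symm hb), zero_mul]
      · simp
    · exact hcon i j hij
  obtain ⟨k, l, hkl, hN⟩ := hoff
  have h2F : (2 : F) ∈ F₀ := by
    have := F₀.add_mem F₀.one_mem F₀.one_mem
    rwa [one_add_one_eq_two] at this
  have key : ∀ t : F, t ≠ 0 → t * N k l ∈ F₀ := by
    intro t ht
    obtain ⟨c, hc, hcR⟩ := hfam t
    set R : Matrix ι ι F := c • (1 + t • N) with hR
    have hRent : ∀ i j, R i j ∈ F₀ := fun i j => by
      rw [hR, Matrix.smul_apply, smul_eq_mul]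
      exact hcR i j
    have hRR : R * R = (2 * c) • R - (c ^ 2) • 1 := by
      rw [hR]
      have h3 : (c • (1 + t • N)) * (c • (1 + t • N)) = (c ^ 2) • (1 + (2 * t) • N) := by
        rw [Matrix.smul_mul, Matrix.mul_smul, smul_smul, ← pow_two]
        congr 1
        rw [add_mul, mul_add, mul_add, Matrix.smul_mul, Matrix.mul_smul, Matrix.smul_mul, Matrix.mul_smul, hNN]
        simp only [one_mul, mul_one, smul_zero, add_zero]
        rw [two_mul, add_smul, add_assoc]
      rw [h3]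
      ext i j
      simp only [Matrix.smul_apply, Matrix.add_apply, Matrix.sub_apply, smul_eq_mul]
      ring
    have hRkl : R k l = c * (t * N k l) := by
      rw [hR]
      simp [Matrix.one_apply_ne hkl]
    have hRne : R k l ≠ 0 := by
      rw [hRkl]
      exact mul_ne_zero hc (mul_ne_zero ht hN)
    have h4 : (R * R) k l = 2 * c * R k l := by
      rw [hRR]
      simp [Matrix.one_apply_ne hkl]
    have h5 : (R * R) k l ∈ F₀ := by
      rw [Matrix.mul_apply]
      exact F₀.sum_mem fun s _ => F₀.mul_mem (hRent _ _) (hRent _ _)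
    have h6 : 2 * c ∈ F₀ := by
      have := F₀.div_mem h5 (hRent k l)
      rwa [h4, mul_div_assoc, div_self hRne, mul_one] at this
    have h7 : c ∈ F₀ := by
      have := F₀.div_mem h6 h2F
      have h9 : 2 * c / 2 = c := by field_simp
      rwa [h9] at this
    have h8 := F₀.div_mem (hRent k l) h7
    have h9 : c * (t * N k l) / c = t * N k l := by field_simp
    rwa [hRkl, h9] at h8
  have h1 := key 1 one_ne_zero
  rw [one_mul] at h1
  rw [eq_top_iff]
  intro t _
  by_cases ht : t = 0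
  · rw [ht]
    exact F₀.zero_mem
  · have := F₀.div_mem (key t ht) h1
    rwa [mul_div_assoc, div_self hN, mul_one] at this

section Sub
variable (hQ : IsNondegenerateQuadraticForm Q)
include hQ

/-- `Ω` does not lie in a subfield group. -/
theorem omega_not_le_subfield [Finite F] (h2 : (2 : F) ≠ 0) (hι : 7 ≤ Fintype.card ι) {F₀ : Subfield F} (hF₀ : F₀ ≠ ⊤) (P : GL ι F) :
    ¬ omegaGL Q ≤ subfieldSubgroup F₀ P := by
  intro hle
  apply hF₀
  obtain ⟨a, b, c, e, ha, hb, hc, he, hac, hab, hbc, hae, hce, hbe, hc0, y, hya, hyc⟩ := exists_quad hQ hι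
  have hca : pol Q c a = 0 := by rw [pol_symm hQ, hac]
  -- the matrix of the nilpotent
  let N₀ : Matrix ι ι F := ((sg hQ c a hc ha hca : GL ι F) : Matrix ι ι F) - 1
  have hN₀ : ∀ v, N₀ *ᵥ v = pol Q v a • c - pol Q v c • a := by
    intro v
    simp only [N₀]
    rw [Matrix.sub_mulVec, Matrix.one_mulVec, sg_mulVec hQ]
    abel
  have hcc : pol Q c c = 0 := by rw [pol_self hQ, hc, mul_zero]
  have haa : pol Q a a = 0 := by rw [pol_self hQ, ha, mul_zero]
  have hN₀N₀ : N₀ * N₀ = 0 := by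
    apply Matrix.ext_of_mulVec_single
    intro j
    rw [← Matrix.mulVec_mulVec, hN₀, hN₀, Matrix.zero_mulVec]
    simp only [sub_eq_add_neg, ← neg_smul, pol_add_left hQ, pol_smul_left hQ, hca, haa, hcc, hac]
    simp
  let N : Matrix ι ι F := ((P⁻¹ : GL ι F) : Matrix ι ι F) * N₀ * (P : Matrix ι ι F)
  have hPP : (P : Matrix ι ι F) * ((P⁻¹ : GL ι F) : Matrix ι ι F) = 1 := by
    rw [← Units.val_mul, mul_inv_cancel, Units.val_one]
  have hNN : N * N = 0 := by
    simp only [N]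
    calc _ = ((P⁻¹ : GL ι F) : Matrix ι ι F) * N₀ * ((P : Matrix ι ι F) * ((P⁻¹ : GL ι F) : Matrix ι ι F)) * N₀ * (P : Matrix ι ι F) := by
          simp only [mul_assoc]
      _ = 0 := by
          rw [hPP, mul_one, mul_assoc ((P⁻¹ : GL ι F) : Matrix ι ι F), hN₀N₀]
          simp
  have hN0 : N ≠ 0 := by
    intro h
    have h1 : N₀ = 0 := by
      have : N₀ = (P : Matrix ι ι F) * N * ((P⁻¹ : GL ι F) : Matrix ι ι F) := by
        simp only [N]
        calc N₀ = ((P : Matrix ι ι F) * ((P⁻¹ : GL ι F) : Matrix ι ι F)) * N₀ * ((P : Matrix ι ι F) * ((P⁻¹ : GL ι F) : Matrix ι ι F)) := by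
              rw [hPP]; simp
          _ = _ := by simp only [mul_assoc]
      rw [this, h]
      simp
    have h3 := hN₀ y
    rw [h1, hya, hyc, Matrix.zero_mulVec] at h3
    have h4 : c = 0 := by simpa using h3.symm
    exact hc0 h4
  refine subfield_top_of_family h2 hN0 hNN (fun t => ?_)
  have hta : Q (t • a) = 0 := by rw [hQ.smul, ha, mul_zero]
  have hcta : pol Q c (t • a) = 0 := by rw [pol_smul_right hQ, hca, mul_zero]
  obtain ⟨l, hl, hent⟩ := Cfsg.Agent.Lib.Geo.RatStruct.exists_scalar_of_mem (hle (sg_mem hQ hι c (t • a) hc hta hcta))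
  refine ⟨l, hl, fun i j => ?_⟩
  convert hent i j using 3
  have h5 : ((sg hQ c (t • a) hc hta hcta : GL ι F) : Matrix ι ι F) = 1 + t • N₀ := by
    apply Matrix.ext_of_mulVec_single
    intro j
    rw [sg_mulVec hQ, Matrix.add_mulVec, Matrix.one_mulVec, Matrix.smul_mulVec, hN₀, pol_smul_right hQ]
    ext s
    simp only [Pi.add_apply, Pi.sub_apply, Pi.smul_apply, smul_eq_mul]
    ring
  rw [Units.val_mul, Units.val_mul, h5]
  simp only [N]
  rw [mul_add, add_mul, mul_one, ← Units.val_mul, inv_mul_cancel, Units.val_one, Matrix.mul_smul, Matrix.smul_mul]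

/-- `Ω` normalises no field of degree at least three. -/
theorem omega_not_le_field [Fintype F] [Nonempty ι] (hι : 7 ≤ Fintype.card ι) {r : ℕ} (hr3 : 3 ≤ r) {K : Subalgebra F (Matrix ι ι F)}
    (hK : IsFieldSubalgebra r K) : ¬ omegaGL Q ≤ subalgebraNormalizer K := by
  classical
  intro hle
  obtain ⟨a, b, c, e, ha, hb, hc, he, hac, hab, hbc, hae, hce, hbe, hc0, y, hya, hyc⟩ := exists_quad hQ hι
  have hca : pol Q c a = 0 := by rw [pol_symm hQ, hac]
  obtain ⟨hca', hba', hcomm⟩ := commutator_sg hQ a b c e ha hb hc he hac hab hbc hae hce hbe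
  have hXm := hle (sg_mem hQ hι c e hc he hce)
  have hYm := hle (sg_mem hQ hι b a hb ha hba')
  have hTm := hle (sg_mem hQ hι c a hc ha hca')
  letI fK : Field K := (Cfsg.Agent.Lib.AschF.OddB.isField_K hK).toField
  haveI hfinM : Finite (Matrix ι ι F) := inferInstanceAs (Finite (ι → ι → F))
  haveI hfinK : Finite K := Finite.of_injective (fun k : K => (k : Matrix ι ι F)) Subtype.val_injective
  let CH := Cfsg.Agent.Lib.AschF.OddB.conjHom K
  have h1 : CH ⟨_, hTm⟩ = 1 := by
    have h3 : (⟨_, hTm⟩ : subalgebraNormalizer K) = ⟨_, hXm⟩ * ⟨_, hYm⟩ * (⟨_, hXm⟩ : subalgebraNormalizer K)⁻¹ * (⟨_, hYm⟩ : subalgebraNormalizer K)⁻¹ := by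
      apply Subtype.ext
      exact hcomm.symm
    rw [h3, map_mul, map_mul, map_mul, map_inv, map_inv]
    have hcm := (IsCyclic.commutative (α := K ≃ₐ[F] K)).is_comm.comm (CH ⟨_, hXm⟩) (CH ⟨_, hYm⟩)
    rw [hcm]
    group
  have hcommK := Cfsg.Agent.Lib.AschF.OddB.comm_of_conjHom_eq_one K ⟨_, hTm⟩ h1
  let W : Submodule F (ι → F) := Submodule.span F (Set.range ![a, c])
  have hWa : a ∈ W := Submodule.subset_span ⟨0, rfl⟩
  have hWc : c ∈ W := Submodule.subset_span ⟨1, rfl⟩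
  have hWr : finrank F W ≤ 2 := by
    change Set.finrank F (Set.range ![a, c]) ≤ 2
    exact (finrank_range_le_card _).trans (by simp)
  have hmem : ∀ k ∈ K, (k : Matrix ι ι F) *ᵥ c ∈ W := by
    intro k hk
    have h3 := hcommK k hk
    simp only at h3
    have h4 := congrArg (fun M : Matrix ι ι F => M *ᵥ y) h3
    simp only [← Matrix.mulVec_mulVec] at h4
    rw [sg_mulVec hQ, sg_mulVec hQ, hya, hyc, one_smul, zero_smul, sub_zero, Matrix.mulVec_add] at h4
    have h5 : (k : Matrix ι ι F) *ᵥ c = pol Q ((k : Matrix ι ι F) *ᵥ y) a • c + (- pol Q ((k : Matrix ι ι F) *ᵥ y) c) • a := by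
      have h6 : (k : Matrix ι ι F) *ᵥ c = ((k : Matrix ι ι F) *ᵥ y + (k : Matrix ι ι F) *ᵥ c) - (k : Matrix ι ι F) *ᵥ y := by abel
      rw [h6, ← h4, neg_smul]
      abel
    rw [h5]
    exact W.add_mem (W.smul_mem _ hWc) (W.smul_mem _ hWa)
  let φ₀ : K →ₗ[F] (ι → F) :=
    { toFun := fun k => (k : Matrix ι ι F) *ᵥ c
      map_add' := fun x y => Matrix.add_mulVec _ _ _
      map_smul' := fun t x => Matrix.smul_mulVec _ _ _ }
  let φ : K →ₗ[F] W := φ₀.codRestrict W (fun k => hmem k k.2)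
  have hinj : Function.Injective φ := by
    rw [← LinearMap.ker_eq_bot, LinearMap.ker_eq_bot']
    intro k hk
    by_contra hk0
    have hk1 : (k : Matrix ι ι F) *ᵥ c = 0 := congrArg Subtype.val hk
    obtain ⟨l, -, hl⟩ := hK.inv k k.2 (fun h => hk0 (Subtype.ext h))
    have hlk : l * (k : Matrix ι ι F) = 1 := by
      have := mul_eq_one_comm.1 hl
      exact this
    have h3 := congrArg (fun v => l *ᵥ v) hk1
    simp only [Matrix.mulVec_mulVec, hlk, Matrix.one_mulVec, Matrix.mulVec_zero] at h3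
    exact hc0 h3
  have h5 := LinearMap.finrank_le_finrank_of_injective hinj
  rw [hK.finrank_eq] at h5
  omega

end Sub

section Wreath

/-- Scalars from low rank of a tensor action. -/
theorem scalar_of_image {V V' X : Type*} [AddCommGroup V] [Module F V] [AddCommGroup V'] [Module F V'] [AddCommGroup X]
    [Module F X] [FiniteDimensional F V'] (U : V →ₗ[F] V' →ₗ[F] X)
    (hU : ∀ x x' y y', U x y = U x' y' → y ≠ 0 → ¬ LinearIndependent F ![x, x'])
    (A : V →ₗ[F] V) (B : V' →ₗ[F] V') (W : Submodule F X) [FiniteDimensional F W]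
    (hW : ∀ x y, U (A x) (B y) - U x y ∈ W) (hdim : finrank F W < finrank F V') : ∃ α : F, A = α • 1 := by
  apply LinearMap.exists_eq_smul_id_of_forall_notLinearIndependent
  intro x hLI
  let ψ : V' →ₗ[F] X := (U (A x)).comp B - U x
  let ψ' : V' →ₗ[F] W := ψ.codRestrict W (fun y => hW x y)
  have hinj : Function.Injective ψ' := by
    rw [← LinearMap.ker_eq_bot, LinearMap.ker_eq_bot']
    intro y hy
    by_contra hy0
    have h1 : ψ y = 0 := congrArg Subtype.val hy
    have h3 : U (A x) (B y) = U x y := sub_eq_zero.1 h1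
    exact hU x (A x) y (B y) h3.symm hy0 hLI
  have := LinearMap.finrank_le_finrank_of_injective hinj
  omega

/-- The two-fold tensor. -/
noncomputable def ten₂ (k : ℕ) (F : Type u) [Field F] : (Fin k → F) →ₗ[F] (Fin k → F) →ₗ[F] ((Fin 2 → Fin k) → F) :=
  LinearMap.mk₂ F (fun x y a => x (a 0) * y (a 1))
    (fun x x' y => by ext a; simp [add_mul])
    (fun c x y => by ext a; simp [mul_assoc])
    (fun x y y' => by ext a; simp [mul_add])
    (fun c x y => by ext a; simp; ring)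

theorem ten₂_apply {k : ℕ} (x y : Fin k → F) (a : Fin 2 → Fin k) : ten₂ k F x y a = x (a 0) * y (a 1) := rfl

theorem ten₂_eq {k : ℕ} (x y : Fin k → F) : ten₂ k F x y = Cfsg.Agent.Lib.Ten.Mm.ten ![x, y] := by
  ext a
  rw [ten₂_apply, Cfsg.Agent.Lib.Ten.Mm.ten_apply, Fin.prod_univ_two]
  rfl

theorem ten₂_left {k : ℕ} {x x' y y' : Fin k → F} (h : ten₂ k F x y = ten₂ k F x' y') (hy : y ≠ 0) : ¬ LinearIndependent F ![x, x'] := by
  intro hLI
  obtain ⟨j, hj⟩ := Function.ne_iff.mp hy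
  rw [LinearIndependent.pair_iff] at hLI
  have h1 : y j • x + (- y' j) • x' = 0 := by
    ext i
    have := congrFun h ![i, j]
    simp only [ten₂_apply, Matrix.cons_val_zero, Matrix.cons_val_one] at this
    simp only [Pi.add_apply, Pi.smul_apply, smul_eq_mul, Pi.zero_apply, neg_mul]
    rw [mul_comm (y j), this, mul_comm]
    ring
  exact hj (hLI _ _ h1).1

theorem ten₂_right {k : ℕ} {x x' y y' : Fin k → F} (h : ten₂ k F x y = ten₂ k F x' y') (hx : x ≠ 0) : ¬ LinearIndependent F ![y, y'] := by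
  intro hLI
  obtain ⟨i, hi⟩ := Function.ne_iff.mp hx
  rw [LinearIndependent.pair_iff] at hLI
  have h1 : x i • y + (- x' i) • y' = 0 := by
    ext j
    have := congrFun h ![i, j]
    simp only [ten₂_apply, Matrix.cons_val_zero, Matrix.cons_val_one] at this
    simp only [Pi.add_apply, Pi.smul_apply, smul_eq_mul, Pi.zero_apply, neg_mul]
    rw [this]
    ring
  exact hi (hLI _ _ h1).1

variable (hQ : IsNondegenerateQuadraticForm Q)
include hQ

/-- A root-type family in `Ω`. -/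
theorem exists_family [Finite F] (hι : 7 ≤ Fintype.card ι) :
    ∃ (N₀ : Matrix ι ι F) (W : Submodule F (ι → F)) (a : ι → F), N₀ ≠ 0 ∧ N₀ * N₀ = 0 ∧ finrank F W ≤ 2 ∧ (∀ v, N₀ *ᵥ v ∈ W) ∧ a ≠ 0 ∧ N₀ *ᵥ a = 0 ∧
      ∀ t : F, ∃ g ∈ omegaGL Q, (g : Matrix ι ι F) = 1 + t • N₀ := by
  obtain ⟨a, b, c, e, ha, hb, hc, he, hac, hab, hbc, hae, hce, hbe, hc0, y, hya, hyc⟩ := exists_quad hQ hι
  have hca : pol Q c a = 0 := by rw [pol_symm hQ, hac]
  let N₀ : Matrix ι ι F := ((sg hQ c a hc ha hca : GL ι F) : Matrix ι ι F) - 1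
  have hN₀ : ∀ v, N₀ *ᵥ v = pol Q v a • c - pol Q v c • a := by
    intro v
    simp only [N₀]
    rw [Matrix.sub_mulVec, Matrix.one_mulVec, sg_mulVec hQ]
    abel
  have hcc : pol Q c c = 0 := by rw [pol_self hQ, hc, mul_zero]
  have haa : pol Q a a = 0 := by rw [pol_self hQ, ha, mul_zero]
  have hN₀N₀ : N₀ * N₀ = 0 := by
    apply Matrix.ext_of_mulVec_single
    intro j
    rw [← Matrix.mulVec_mulVec, hN₀, hN₀, Matrix.zero_mulVec]
    simp only [sub_eq_add_neg, ← neg_smul, pol_add_left hQ, pol_smul_left hQ, hca, haa, hcc, hac]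
    simp
  refine ⟨N₀, Submodule.span F (Set.range ![a, c]), a, ?_, hN₀N₀, ?_, ?_, ?_, ?_, ?_⟩
  · intro h1
    have h3 := hN₀ y
    rw [h1, hya, hyc, Matrix.zero_mulVec] at h3
    have h4 : c = 0 := by simpa using h3.symm
    exact hc0 h4
  · change Set.finrank F (Set.range ![a, c]) ≤ 2
    exact (finrank_range_le_card _).trans (by simp)
  · intro v
    rw [hN₀, sub_eq_add_neg, ← neg_smul]
    exact Submodule.add_mem _ (Submodule.smul_mem _ _ (Submodule.subset_span ⟨1, rfl⟩)) (Submodule.smul_mem _ _ (Submodule.subset_span ⟨0, rfl⟩))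
  · rintro rfl
    rw [pol_zero_right hQ] at hya
    exact zero_ne_one hya
  · rw [hN₀, haa, hac]
    simp
  · intro t
    have hta : Q (t • a) = 0 := by rw [hQ.smul, ha, mul_zero]
    have hcta : pol Q c (t • a) = 0 := by rw [pol_smul_right hQ, hca, mul_zero]
    refine ⟨_, sg_mem hQ hι c (t • a) hc hta hcta, ?_⟩
    apply Matrix.ext_of_mulVec_single
    intro j
    rw [sg_mulVec hQ, Matrix.add_mulVec, Matrix.one_mulVec, Matrix.smul_mulVec, hN₀, pol_smul_right hQ]
    ext s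
    simp only [Pi.add_apply, Pi.sub_apply, Pi.smul_apply, smul_eq_mul]
    ring

/-- `Ω` does not stabilise a tensor square decomposition. -/
theorem omega_not_le_wreath2 [Fintype F] (h2 : (2 : F) ≠ 0) (hι : 7 ≤ Fintype.card ι) {k : ℕ} (hk : 3 ≤ k) (e : ι ≃ (Fin 2 → Fin k)) (P : GL ι F) :
    ¬ omegaGL Q ≤ tensorWreathSubgroup k 2 e P := by
  classical
  intro hle
  obtain ⟨N₀, W, a, hN0, hNN, hW2, hWm, ha0, hNa, hfam⟩ := exists_family hQ hι
  obtain ⟨g, hgO, hg⟩ := hfam (2 : F)⁻¹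
  obtain ⟨g', hg'm, hgg'⟩ := (Cfsg.Agent.Lib.Asch.Cl.mem_tensorWreathSubgroup_iff e P g).1 (hle hgO)
  obtain ⟨gs, τ, rfl⟩ := Cfsg.Agent.Lib.Ten.Mm.exists_tw_of_mem hg'm
  have hτ : τ.trans τ = 1 := by
    have key : ∀ τ : Equiv.Perm (Fin 2), τ.trans τ = 1 := by decide
    exact key τ
  let gs' : Fin 2 → GL (Fin k) F := fun i => gs i * gs (τ i)
  have hsq : ((g * g : GL ι F) : Matrix ι ι F) = 1 + N₀ := by
    rw [Units.val_mul, hg]
    simp only [add_mul, mul_add, one_mul, mul_one, Matrix.smul_mul, Matrix.mul_smul, hNN, smul_zero, add_zero]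
    rw [add_assoc, ← add_smul, ← two_mul, mul_inv_cancel₀ h2, one_smul]
  have hh : ((g * g : GL ι F) : Matrix ι ι F) * (P : Matrix ι ι F) =
      (P : Matrix ι ι F) * ((Cfsg.Agent.Lib.Ten.Mm.tw gs' 1 : GL _ F) : Matrix (Fin 2 → Fin k) (Fin 2 → Fin k) F).submatrix e e := by
    rw [Units.val_mul, mul_assoc, hgg', ← mul_assoc, hgg', mul_assoc, Matrix.submatrix_mul_equiv, ← Units.val_mul,
      Cfsg.Agent.Lib.Ten.Mm.tw_mul, hτ]
  let A : Matrix (Fin k) (Fin k) F := (gs' 0 : GL (Fin k) F)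
  let B : Matrix (Fin k) (Fin k) F := (gs' 1 : GL (Fin k) F)
  have hact : ∀ x y : Fin k → F, ((g * g : GL ι F) : Matrix ι ι F) *ᵥ ((P : Matrix ι ι F) *ᵥ (ten₂ k F x y ∘ e)) =
      (P : Matrix ι ι F) *ᵥ (ten₂ k F (A *ᵥ x) (B *ᵥ y) ∘ e) := by
    intro x y
    rw [ten₂_eq, Cfsg.Agent.Lib.AschF.OddD.h_act e P (g * g) _ hh, Cfsg.Agent.Lib.Ten.Mm.coe_tw, Cfsg.Agent.Lib.Ten.Mm.mm_mulVec_ten, ten₂_eq]
    congr 3
    funext i
    fin_cases i <;> rfl
  let L : ((Fin 2 → Fin k) → F) →ₗ[F] (ι → F) := (Matrix.toLin' (P : Matrix ι ι F)).comp (LinearMap.funLeft F F e)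
  have hL : ∀ z, L z = (P : Matrix ι ι F) *ᵥ (z ∘ e) := fun z => rfl
  have hLinj : Function.Injective L := by
    intro z z' h
    rw [hL, hL] at h
    have h1 := congrArg (fun w => ((P⁻¹ : GL ι F) : Matrix ι ι F) *ᵥ w) h
    simp only [inv_mulVec_mulVec] at h1
    funext u
    have := congrFun h1 (e.symm u)
    simpa using this
  let U : (Fin k → F) →ₗ[F] (Fin k → F) →ₗ[F] (ι → F) := (ten₂ k F).compr₂ L
  have hU : ∀ x y, U x y = (P : Matrix ι ι F) *ᵥ (ten₂ k F x y ∘ e) := fun x y => rfl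
  have hW : ∀ x y, U (Matrix.toLin' A x) (Matrix.toLin' B y) - U x y ∈ W := by
    intro x y
    rw [hU, hU, Matrix.toLin'_apply, Matrix.toLin'_apply, ← hact, hsq, Matrix.add_mulVec, Matrix.one_mulVec, add_sub_cancel_left]
    exact hWm _
  have hdim : finrank F W < finrank F (Fin k → F) := by
    rw [Module.finrank_fintype_fun_eq_card, Fintype.card_fin]
    omega
  obtain ⟨α, hα⟩ := scalar_of_image U (fun x x' y y' h hy => ten₂_left (hLinj h) hy) (Matrix.toLin' A) (Matrix.toLin' B) W hW hdim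
  obtain ⟨β, hβ⟩ := scalar_of_image U.flip (fun x x' y y' h hy => ten₂_right (hLinj h) hy) (Matrix.toLin' B) (Matrix.toLin' A) W
    (fun x y => hW y x) hdim
  have hA : A = α • 1 := by
    apply Matrix.toLin'.injective
    rw [hα, map_smul, Matrix.toLin'_one]
    rfl
  have hB : B = β • 1 := by
    apply Matrix.toLin'.injective
    rw [hβ, map_smul, Matrix.toLin'_one]
    rfl
  have hmm : ((Cfsg.Agent.Lib.Ten.Mm.tw gs' 1 : GL _ F) : Matrix (Fin 2 → Fin k) (Fin 2 → Fin k) F) = (α * β) • 1 := by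
    ext u v
    rw [Cfsg.Agent.Lib.Ten.Mm.coe_tw, Cfsg.Agent.Lib.Ten.Mm.mm_apply, Fin.prod_univ_two]
    change A (u 0) (v 0) * B (u 1) (v 1) = _
    rw [hA, hB, Matrix.smul_apply, Matrix.smul_apply, Matrix.smul_apply, smul_eq_mul, smul_eq_mul, smul_eq_mul]
    by_cases huv : u = v
    · subst huv
      simp
    · rw [Matrix.one_apply_ne huv, mul_zero]
      obtain ⟨i, hi⟩ := Function.ne_iff.mp huv
      fin_cases i
      · have : u 0 ≠ v 0 := hi
        rw [Matrix.one_apply_ne this]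
        ring
      · have : u 1 ≠ v 1 := hi
        rw [Matrix.one_apply_ne this]
        ring
  have hPm : (1 + N₀) * (P : Matrix ι ι F) = (α * β) • (P : Matrix ι ι F) := by
    have hsm : (((α * β) • (1 : Matrix (Fin 2 → Fin k) (Fin 2 → Fin k) F)).submatrix e e : Matrix ι ι F) = (α * β) • 1 := by
      ext u v
      simp [Matrix.one_apply, e.injective.eq_iff]
    rw [← hsq, hh, hmm, hsm, Matrix.mul_smul, mul_one]
  have h1N : 1 + N₀ = (α * β) • 1 := by
    have h3 := congrArg (fun M => M * ((P⁻¹ : GL ι F) : Matrix ι ι F)) hPm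
    simpa [mul_assoc, ← Units.val_mul] using h3
  have h4 := congrArg (fun M => M *ᵥ a) h1N
  simp only [Matrix.add_mulVec, Matrix.one_mulVec, hNa, add_zero, Matrix.smul_mulVec] at h4
  have h5 : α * β = 1 := by
    by_contra hne
    apply ha0
    have h6 : (α * β - 1) • a = 0 := by
      rw [sub_smul, one_smul, ← h4, sub_self]
    exact (smul_eq_zero.1 h6).resolve_left (sub_ne_zero.2 hne)
  rw [h5, one_smul] at h1N
  apply hN0
  exact add_left_cancel (a := (1 : Matrix ι ι F)) (by rw [h1N, add_zero])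

end Wreath

end Cfsg.Agent.Lib.AschF.OmegaP
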