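import Mathlib
import Cfsg.Agent.Lib.AschF.OmegaP
import Cfsg.Agent.Lib.AschF.OddE
import Cfsg.Agent.Lib.GeoOmega.NondegW
import Cfsg.Agent.Lib.Asch.MaxSN

/-!
# Maximal subgroups of `Ω` in odd dimension: the common part
-/

set_option autoImplicit false

namespace Cfsg.Agent.Lib.AschF.OddMax

open Matrix Module Cfsg Cfsg.Geo
open Cfsg.Agent.Lib.Geo.Basic Cfsg.Agent.Lib.Geo.QForm Cfsg.Agent.Lib.GeoOmega.Basic
open Cfsg.Agent.Lib.AschF.OmegaP Cfsg.Agent.Lib.GeoOmega.Nondeg Cfsg.Agent.Lib.GeoOmega.NondegW Cfsg.Agent.Lib.GeoOmega.Singular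
open Cfsg.Agent.Lib.Asch.MaxSL (eq_inf_of_le)

universe u

variable {ι : Type} [Fintype ι] [DecidableEq ι] {F : Type u} [Field F] {Q : (ι → F) → F}

section Forms
variable (hQ : IsNondegenerateQuadraticForm Q)
include hQ

/-- A plus type plane over the field with three elements has a distinguished line. -/
theorem plane_line [Fintype F] (h3 : Fintype.card F = 3) {H : Subgroup (GL ι F)} (hHI : H ≤ isometryGroup F Q)
    {W : Submodule F (ι → F)} (hfr : finrank F W = 2) (hnd : IsNondegenerateOn (QuadraticMap.polar Q) W)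
    (hplus : IsPlusTypeOn Q W) (hle : H ≤ subspaceStabilizer W) :
    ∃ v : ι → F, v ≠ 0 ∧ Q v ≠ 0 ∧ H ≤ subspaceStabilizer (Submodule.span F {v}) := by
  obtain ⟨U, hUW, hUts, hUr⟩ := hplus
  have hU1 : finrank F U = 1 := by omega
  have hUne : U ≠ ⊥ := by
    intro h
    rw [h, finrank_bot] at hU1
    omega
  obtain ⟨y, hyU, hy0⟩ := Submodule.exists_mem_ne_zero_of_ne_bot hUne
  have hyW := hUW hyU
  have hQy := hUts y hyU
  obtain ⟨-, x, hxW, hx⟩ := hnd y hyW hy0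
  have hx' : pol Q y x ≠ 0 := hx
  obtain ⟨z, hzd⟩ : ∃ z : ι → F, z = (pol Q y x)⁻¹ • x := ⟨_, rfl⟩
  have hzW : z ∈ W := by
    rw [hzd]
    exact W.smul_mem _ hxW
  have hyz : pol Q y z = 1 := by
    rw [hzd, pol_smul_right hQ, inv_mul_cancel₀ hx']
  obtain ⟨z', hzd'⟩ : ∃ z' : ι → F, z' = z - Q z • y := ⟨_, rfl⟩
  have hz'W : z' ∈ W := by
    rw [hzd']
    exact W.sub_mem hzW (W.smul_mem _ hyW)
  have hyy : pol Q y y = 0 := by rw [pol_self hQ, hQy, mul_zero]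
  have hzy : pol Q z y = 1 := by rw [pol_symm hQ, hyz]
  have hyz' : pol Q y z' = 1 := by
    rw [hzd', sub_eq_add_neg, ← neg_smul, pol_add_right hQ, pol_smul_right hQ, hyz, hyy]
    ring
  have hQz' : Q z' = 0 := by
    rw [hzd', Q_sub hQ, hQ.smul, hQy, pol_smul_right hQ, hzy]
    ring
  have hz'y : pol Q z' y = 1 := by rw [pol_symm hQ, hyz']
  have hz'z' : pol Q z' z' = 0 := by rw [pol_self hQ, hQz', mul_zero]
  have hLI : LinearIndependent F ![y, z'] := by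
    rw [LinearIndependent.pair_iff]
    intro s t hst
    have h1 := congrArg (fun w => pol Q w z') hst
    have h4 := congrArg (fun w => pol Q w y) hst
    simp only [pol_add_left hQ, pol_smul_left hQ, hyz', hz'z', hyy, hz'y, pol_zero_left hQ] at h1 h4
    constructor
    · simpa using h1
    · simpa using h4
  have hspan : Submodule.span F (Set.range ![y, z']) = W := by
    apply Submodule.eq_of_le_of_finrank_eq
    · rw [Submodule.span_le]
      rintro _ ⟨i, rfl⟩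
      fin_cases i
      · exact hyW
      · exact hz'W
    · rw [finrank_span_eq_card hLI, hfr]
      simp
  have hel : ∀ w ∈ W, ∃ α β : F, w = α • y + β • z' := by
    intro w hw
    rw [← hspan] at hw
    have h1 : Set.range ![y, z'] = {y, z'} := by
      simp [Matrix.range_cons, Matrix.range_empty, Set.pair_comm]
    rw [h1] at hw
    obtain ⟨a, b, hab⟩ := Submodule.mem_span_pair.1 hw
    exact ⟨a, b, hab.symm⟩
  let v : ι → F := y + z'
  have hvW : v ∈ W := W.add_mem hyW hz'W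
  have hQv : Q v = 1 := by
    simp only [v]
    rw [Q_add hQ, hQy, hQz', hyz']
    ring
  have h10 : (1 : F) ≠ 0 := one_ne_zero
  refine ⟨v, ?_, by rw [hQv]; exact h10, ?_⟩
  · intro h0
    rw [h0, Q_zero hQ] at hQv
    exact h10 hQv.symm
  · intro g hg
    apply mem_subspaceStabilizer_of_forall_mem
    have hgv : (g : Matrix ι ι F) *ᵥ v ∈ Submodule.span F {v} := by
      obtain ⟨α, β, hαβ⟩ := hel _ ((mem_subspaceStabilizer_iff_forall_mem W g).1 (hle hg) v hvW)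
      have h1 : Q ((g : Matrix ι ι F) *ᵥ v) = 1 := by
        rw [Cfsg.Agent.Lib.AschF.OddA.Q_isom (hHI hg), hQv]
      rw [hαβ, Q_add hQ, hQ.smul, hQ.smul, pol_smul_left hQ, pol_smul_right hQ, hQy, hQz', hyz'] at h1
      have h4 : α * β = 1 := by
        rw [← h1]
        ring
      have hα0 : α ≠ 0 := left_ne_zero_of_mul_eq_one h4
      have h5 := Cfsg.Agent.Lib.AschF.OddC.f3_sq h3 hα0
      have h6 : β = α := by
        calc β = α ^ 2 * β := by rw [h5, one_mul]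
          _ = α * (α * β) := by ring
          _ = α := by rw [h4, mul_one]
      rw [hαβ, h6, ← smul_add]
      exact Submodule.smul_mem _ _ (Submodule.mem_span_singleton_self _)
    intro u hu
    obtain ⟨c, rfl⟩ := Submodule.mem_span_singleton.1 hu
    rw [Matrix.mulVec_smul]
    exact Submodule.smul_mem _ _ hgv

/-- The perp of a non-degenerate subspace. -/
theorem perp_facts {W : Submodule F (ι → F)} (hnd : IsNondegenerateOn (QuadraticMap.polar Q) W) :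
    IsNondegenerateOn (QuadraticMap.polar Q) ((polB hQ).orthogonal W) ∧
      finrank F ((polB hQ).orthogonal W) + finrank F W = Fintype.card ι :=
  ⟨isNondegOn_of_nd hQ ((orthDec_of_nd hQ hnd).symm hQ |>.nd hQ), finrank_orth' hQ W⟩

/-- Non-degenerate stabilisers: the normal form of the statements. -/
theorem nd_normal [Fintype F] (h2 : (2 : F) ≠ 0) (hodd : Odd (Fintype.card ι)) (hι : 7 ≤ Fintype.card ι) {H : Subgroup (GL ι F)}
    (hmax : IsMaximalIn (omegaGL Q) H) {W : Submodule F (ι → F)} (hW0 : W ≠ ⊥) (hW1 : W ≠ ⊤)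
    (hnd : IsNondegenerateOn (QuadraticMap.polar Q) W) (hle : H ≤ subspaceStabilizer W) :
    ∃ W' : Submodule F (ι → F), W' ≠ ⊥ ∧ Even (finrank F W') ∧ IsNondegenerateOn (QuadraticMap.polar Q) W' ∧
      ¬ (Fintype.card F = 3 ∧ finrank F W' = 2 ∧ IsPlusTypeOn Q W') ∧ H = subspaceStabilizer W' ⊓ omegaGL Q := by
  have hHO : H ≤ omegaGL Q := hmax.1.le
  have hHI : H ≤ isometryGroup F Q := hHO.trans (omegaGL_le_isometryGroup Q)
  -- the general step
  have hperp : ∀ X : Submodule F (ι → F), X ≠ ⊥ → X ≠ ⊤ → IsNondegenerateOn (QuadraticMap.polar Q) X → H ≤ subspaceStabilizer X →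
      ((polB hQ).orthogonal X) ≠ ⊥ ∧ ((polB hQ).orthogonal X) ≠ ⊤ ∧ H ≤ subspaceStabilizer ((polB hQ).orthogonal X) := by
    intro X hX0 hX1 hXn hXs
    obtain ⟨-, hr⟩ := perp_facts hQ hXn
    refine ⟨?_, ?_, fun g hg => stab_orth_of_stab hQ (hHI hg) (hXs hg)⟩
    · intro h
      rw [h, finrank_bot, zero_add] at hr
      apply hX1
      apply Submodule.eq_top_of_finrank_eq
      rw [hr]
      simp
    · intro h
      rw [h, finrank_top] at hr
      apply hX0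
      have : finrank F X = 0 := by
        simp only [finrank_fintype_fun_eq_card] at hr
        omega
      exact Submodule.finrank_eq_zero.1 this
  -- reduction to even dimension
  obtain ⟨W₁, hW₁0, hW₁1, hW₁ev, hW₁n, hW₁s⟩ : ∃ W₁ : Submodule F (ι → F), W₁ ≠ ⊥ ∧ W₁ ≠ ⊤ ∧ Even (finrank F W₁) ∧
      IsNondegenerateOn (QuadraticMap.polar Q) W₁ ∧ H ≤ subspaceStabilizer W₁ := by
    by_cases hev : Even (finrank F W)
    · exact ⟨W, hW0, hW1, hev, hnd, hle⟩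
    · obtain ⟨h1, h3, h4⟩ := hperp W hW0 hW1 hnd hle
      obtain ⟨h5, h6⟩ := perp_facts hQ hnd
      refine ⟨_, h1, h3, ?_, h5, h4⟩
      rw [Nat.not_even_iff_odd] at hev
      by_contra hne
      rw [Nat.not_even_iff_odd] at hne
      have := hne.add_odd hev
      rw [h6] at this
      exact (Nat.not_even_iff_odd.2 hodd) this
  by_cases hpl : Fintype.card F = 3 ∧ finrank F W₁ = 2 ∧ IsPlusTypeOn Q W₁
  · obtain ⟨h3, hfr, hplus⟩ := hpl
    obtain ⟨v, hv0, hQv, hvs⟩ := plane_line hQ h3 hHI hfr hW₁n hplus hW₁s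
    have hfr1 : finrank F (Submodule.span F {v}) = 1 := finrank_span_singleton hv0
    have hl0 : Submodule.span F {v} ≠ ⊥ := by
      intro h
      rw [h, finrank_bot] at hfr1
      omega
    have hl1 : Submodule.span F {v} ≠ ⊤ := by
      intro h
      rw [h, finrank_top, finrank_fintype_fun_eq_card] at hfr1
      omega
    have hln : IsNondegenerateOn (QuadraticMap.polar Q) (Submodule.span F {v}) := by
      have hvv : pol Q v v ≠ 0 := by
        rw [pol_self hQ]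
        exact mul_ne_zero h2 hQv
      intro w hw hw0
      obtain ⟨c, rfl⟩ := Submodule.mem_span_singleton.1 hw
      have hc : c ≠ 0 := by
        rintro rfl
        simp at hw0
      refine ⟨⟨v, Submodule.mem_span_singleton_self _, ?_⟩, ⟨v, Submodule.mem_span_singleton_self _, ?_⟩⟩
      · change pol Q _ _ ≠ 0
        rw [pol_smul_right hQ]
        exact mul_ne_zero hc hvv
      · change pol Q _ _ ≠ 0
        rw [pol_smul_left hQ]
        exact mul_ne_zero hc hvv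
    obtain ⟨h1, h4, h5⟩ := hperp _ hl0 hl1 hln hvs
    obtain ⟨h6, h7⟩ := perp_facts hQ hln
    rw [hfr1] at h7
    refine ⟨_, h1, ?_, h6, ?_, eq_inf_of_le hmax h5 (omega_not_le_stab hQ hι h1 h4)⟩
    · have h8 : finrank F ((polB hQ).orthogonal (Submodule.span F {v})) = Fintype.card ι - 1 := by omega
      rw [h8]
      obtain ⟨t, ht⟩ := hodd
      rw [ht]
      exact ⟨t, by omega⟩
    · rintro ⟨-, h8, -⟩
      omega
  · exact ⟨W₁, hW₁0, hW₁ev, hW₁n, hpl, eq_inf_of_le hmax hW₁s (omega_not_le_stab hQ hι hW₁0 hW₁1)⟩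

/-- Refinement of a decomposition into three-spaces over the field of three elements. -/
theorem dec33_frames [Fintype F] (h3 : Fintype.card F = 3) {H : Subgroup (GL ι F)} (hHI : H ≤ isometryGroup F Q) {t : ℕ}
    {D : Fin t → Submodule F (ι → F)} (hD : IsOrthogonalMDecomposition Q 3 D) (hle : H ≤ decompositionStabilizer D) :
    ∃ (t' : ℕ) (D' : Fin t' → Submodule F (ι → F)), IsOrthogonalMDecomposition Q 1 D' ∧ H ≤ decompositionStabilizer D' := by
  classical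
  have h2 := Cfsg.Agent.Lib.AschF.OddC.f3_two_ne_zero h3
  have hdec := hD.decomp.decomp
  have ht2 := hdec.two_le
  let i₀ : Fin t := ⟨0, by omega⟩
  have hs := (Cfsg.Agent.Lib.AschF.OddA.hf_polar hQ).sesq
  -- a coordinate system on the first summand
  have hb := Module.finBasisOfFinrankEq F (D i₀) (hdec.finrank_eq i₀)
  let φ₀ : (Fin 3 → F) ≃ₗ[F] D i₀ := hb.equivFun.symm
  have hiso : ∀ i, ∃ e : (Fin 3 → F) ≃ₗ[F] D i, ∀ x, Q ((e x : D i) : ι → F) = Q ((φ₀ x : D i₀) : ι → F) := by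
    intro i
    obtain ⟨e, he⟩ := hD.isometric i₀ i
    exact ⟨φ₀.trans e, fun x => he _⟩
  choose φ hφ using hiso
  -- the form
  let A : (Fin 3 → F) → (Fin 3 → F) → F := fun x y => pol Q ((φ₀ x : D i₀) : ι → F) ((φ₀ y : D i₀) : ι → F)
  have hpolφ : ∀ i x y, pol Q ((φ i x : D i) : ι → F) ((φ i y : D i) : ι → F) = A x y := by
    intro i x y
    simp only [A, pol, QuadraticMap.polar]
    have h1 : ((φ i x : D i) : ι → F) + ((φ i y : D i) : ι → F) = ((φ i (x + y) : D i) : ι → F) := by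
      rw [map_add]
      rfl
    have h4 : ((φ₀ x : D i₀) : ι → F) + ((φ₀ y : D i₀) : ι → F) = ((φ₀ (x + y) : D i₀) : ι → F) := by
      rw [map_add]
      rfl
    rw [h1, h4, hφ, hφ, hφ]
  have hAf : Cfsg.Agent.Lib.AschF.Adj.HF (RingEquiv.refl F) 1 A := by
    refine ⟨⟨fun x y v => ?_, fun c x v => ?_, fun v x y => ?_, fun c v x => ?_⟩, ?_, ?_, fun _ => rfl⟩
    · simp only [A, map_add]
      exact hs.add_left _ _ _
    · simp only [A, map_smul]
      exact hs.smul_left _ _ _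
    · simp only [A, map_add]
      exact hs.add_right _ _ _
    · simp only [A, map_smul]
      exact hs.smul_right _ _ _
    · intro v hv
      have hv' : ((φ₀ v : D i₀) : ι → F) ≠ 0 := by
        intro h0
        apply hv
        apply φ₀.injective
        rw [map_zero]
        exact Subtype.ext h0
      obtain ⟨⟨u, hu, hu'⟩, ⟨u', hu2, hu2'⟩⟩ := hD.decomp.nondegenerate i₀ _ (φ₀ v).2 hv'
      refine ⟨⟨φ₀.symm ⟨u, hu⟩, ?_⟩, ⟨φ₀.symm ⟨u', hu2⟩, ?_⟩⟩
      · simp only [A, LinearEquiv.apply_symm_apply]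
        exact hu'
      · simp only [A, LinearEquiv.apply_symm_apply]
        exact hu2'
    · intro u v
      simp only [A, RingEquiv.refl_apply, one_mul]
      exact pol_symm hQ _ _
  obtain ⟨w, d₀, hd₀, hww, hwuni⟩ := Cfsg.Agent.Lib.AschF.OddC.f3_frame h3 hAf
  -- the vectors
  let κ := Fin t × Fin 3
  let z : κ → ι → F := fun p => ((φ p.1 (w p.2) : D p.1) : ι → F)
  have hzmem : ∀ p : κ, z p ∈ D p.1 := fun p => (φ p.1 (w p.2)).2
  have hz : ∀ p q : κ, pol Q (z p) (z q) = if p = q then d₀ else 0 := by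
    intro p q
    by_cases h12 : p.1 = q.1
    · obtain ⟨p1, p2⟩ := p
      obtain ⟨q1, q2⟩ := q
      simp only at h12
      subst h12
      simp only [z]
      rw [hpolφ, hww]
      by_cases h5 : p2 = q2
      · simp [h5]
      · rw [if_neg h5, if_neg]
        intro h
        exact h5 (Prod.ext_iff.1 h).2
    · rw [if_neg (fun h => h12 (congrArg Prod.fst h))]
      exact hD.decomp.orthogonal p.1 q.1 h12 _ (hzmem p) _ (hzmem q)
  have hcardι : Fintype.card ι = t * 3 := Cfsg.Agent.Lib.AschF.OddA.card_eq_of_decomp hdec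
  have hcardκ : Fintype.card κ = Fintype.card ι := by
    simp [κ, hcardι]
  let dd : Fin (Fintype.card κ) ≃ κ := (Fintype.equivFin κ).symm
  refine ⟨_, _, Cfsg.Agent.Lib.AschF.OddD.lines_decomp hQ h2 z hd₀ hz hcardκ (by simp [κ]; omega) dd, fun h hh => ?_⟩
  refine Cfsg.Agent.Lib.AschF.OddD.stab_of_frame hs z hd₀ hz dd h ?_
  intro p
  obtain ⟨σ, hσ⟩ := hle hh
  have h5 : (h : Matrix ι ι F) *ᵥ z p ∈ D (σ p.1) := by
    rw [← hσ p.1]
    exact ⟨z p, hzmem p, rfl⟩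
  -- coordinates in the target
  let i' := σ p.1
  let x : Fin 3 → F := (φ i').symm ⟨_, h5⟩
  have hx : ((φ i' x : D i') : ι → F) = (h : Matrix ι ι F) *ᵥ z p := by
    simp only [x, LinearEquiv.apply_symm_apply]
  have hAx : A x x = d₀ := by
    rw [← hpolφ i' x x, hx, Cfsg.Agent.Lib.AschF.OddA.polar_isom (hHI hh), hz, if_pos rfl]
  obtain ⟨s, c, hc, hxs⟩ := hwuni x hAx
  refine ⟨(i', s), c, hc, ?_⟩
  rw [← hx, hxs, map_smul]
  rfl

end Forms

section Main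
variable {F : Type u} [Field F] [Fintype F]

theorem two_ne_zero_of_odd (hodd : Odd (Fintype.card F)) : (2 : F) ≠ 0 := by
  intro h
  have hF : ringChar F = 2 := by
    haveI : CharP F 2 := by
      obtain ⟨p, hp⟩ := CharP.exists F
      have h3 : ((2 : ℕ) : F) = 0 := by exact_mod_cast h
      have h4 := (CharP.cast_eq_zero_iff F p 2).1 h3
      have h5 : p.Prime := CharP.char_is_prime F p
      have h6 : p = 2 := (Nat.prime_dvd_prime_iff_eq h5 Nat.prime_two).1 h4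
      rw [h6] at hp
      exact hp
    exact ringChar.eq F 2
  have h7 := FiniteField.even_card_of_char_two hF
  rw [Nat.odd_iff] at hodd
  omega

theorem card_index (m : ℕ) : Fintype.card (Unit ⊕ (Fin m ⊕ Fin m)) = 2 * m + 1 := by
  simp [Fintype.card_sum]
  omega

/-- The structure theorem, for all subgroups of `Ω`. -/
theorem odd_structure (hodd : Odd (Fintype.card F)) (m : ℕ) (hm : 3 ≤ m) (H : Subgroup (Matrix.GeneralLinearGroup (Unit ⊕ (Fin m ⊕ Fin m)) F))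
    (hH : H ≤ Cfsg.Geo.omegaGL (Cfsg.quadFormOdd m F)) :
    (∃ M : Subgroup (Matrix.GeneralLinearGroup (Unit ⊕ (Fin m ⊕ Fin m)) F), Cfsg.Geo.InOrthogonalOddClass m F M ∧ H ≤ M) ∨ Cfsg.Geo.InOrthogonalResidualClass H := by
  classical
  have h2 : (2 : F) ≠ 0 := two_ne_zero_of_odd hodd
  have hQ := Cfsg.Agent.Lib.GeoOmega.Planes.quadFormOdd_nondeg m F h2
  have hHI : H ≤ Cfsg.isometryGroup F (Cfsg.quadFormOdd m F) := by
    refine hH.trans ?_
    rintro _ ⟨g, -, rfl⟩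
    exact g.2
  by_cases hC : ∃ M : Subgroup (Matrix.GeneralLinearGroup (Unit ⊕ (Fin m ⊕ Fin m)) F), Cfsg.Geo.InOrthogonalOddClass m F M ∧ H ≤ M
  · exact Or.inl hC
  right
  haveI : Nonempty (Unit ⊕ (Fin m ⊕ Fin m)) := ⟨Sum.inl ()⟩
  have hcardι : Fintype.card (Unit ⊕ (Fin m ⊕ Fin m)) = 2 * m + 1 := card_index m
  refine Cfsg.Agent.Lib.AschF.OddE.main_of_noclass hQ h2 (by rw [hcardι]; exact ⟨m, rfl⟩) (by rw [hcardι]; omega) ?_ hHI ?_
  · intro F₁ a b
    change QuadraticMap.polar (Cfsg.quadFormOdd m F) _ _ ∈ F₁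
    rw [Cfsg.Agent.Lib.GeoOmega.Planes.polar_quadFormOdd]
    have hs : ∀ (c d : Unit ⊕ (Fin m ⊕ Fin m)), (Pi.single c (1 : F) : Unit ⊕ (Fin m ⊕ Fin m) → F) d ∈ F₁ := by
      intro c d
      exact Cfsg.Agent.Lib.Geo.RatStruct.isRat_single c d
    have h2F : (2 : F) ∈ F₁ := by
      have := F₁.add_mem F₁.one_mem F₁.one_mem
      rwa [one_add_one_eq_two] at this
    refine F₁.add_mem (F₁.mul_mem h2F (F₁.mul_mem (hs _ _) (hs _ _))) (F₁.sum_mem fun i _ => F₁.add_mem (F₁.mul_mem (hs _ _) (hs _ _)) (F₁.mul_mem (hs _ _) (hs _ _)))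
  · refine ⟨?_, ?_, ?_, ?_, ?_, ?_, ?_, ?_⟩
    · intro W h1 h3 h4
      exact hC ⟨_, Or.inl ⟨W, h1, h3, rfl⟩, le_inf h4 hHI⟩
    · intro W h1 h3 h4 h5
      exact hC ⟨_, Or.inr (Or.inl ⟨W, h1, h3, h4, rfl⟩), le_inf h5 hHI⟩
    · intro t k D h1 h3 h4
      exact hC ⟨_, Or.inr (Or.inr (Or.inl ⟨t, k, D, h1, h3, rfl⟩)), le_inf h4 hHI⟩
    · intro t D h1 h3 h4
      exact hC ⟨_, Or.inr (Or.inr (Or.inr (Or.inl ⟨t, D, h1, h3, rfl⟩))), le_inf h4 hHI⟩
    · intro r K h1 h3 h4 h5 h6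
      refine hC ⟨_, Or.inr (Or.inr (Or.inr (Or.inr (Or.inl ⟨r, K, h1, ?_, h4, h5, rfl⟩)))), le_inf h6 hHI⟩
      rw [← hcardι]
      exact h3
    · intro n₁ n₂ e P f₁ f₂ h1 h3 h4 h5 h6 h7
      exact hC ⟨_, Or.inr (Or.inr (Or.inr (Or.inr (Or.inr (Or.inl ⟨n₁, n₂, e, P, f₁, f₂, h1, h3, h4, h5, h6, rfl⟩))))), le_inf h7 hHI⟩
    · intro F₀ r P h1 h3 h4 h5
      exact hC ⟨_, Or.inr (Or.inr (Or.inr (Or.inr (Or.inr (Or.inr (Or.inl ⟨F₀, r, P, h1, h3, h4, rfl⟩)))))), le_inf h5 hHI⟩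
    · intro k t e P f₁ h1 h3 h4 h5 h6 h7
      exact hC ⟨_, Or.inr (Or.inr (Or.inr (Or.inr (Or.inr (Or.inr (Or.inr ⟨k, t, e, P, f₁, h1, h3, h4, h5, h6, rfl⟩)))))), le_inf h7 hHI⟩

/-- A proper subfield from the degree. -/
theorem subfield_ne_top {F₀ : Subfield F} {r : ℕ} (hr : r.Prime) (hc : Fintype.card F = Nat.card F₀ ^ r) : F₀ ≠ ⊤ := by
  rintro rfl
  have h1 : Nat.card (⊤ : Subfield F) = Fintype.card F := by
    rw [← Nat.card_eq_fintype_card]
    exact Nat.card_congr Subfield.topEquiv.toEquiv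
  rw [h1] at hc
  have h3 : 2 ≤ Fintype.card F := Fintype.one_lt_card
  have h4 : Fintype.card F ^ 1 < Fintype.card F ^ r := Nat.pow_lt_pow_right (by omega) hr.one_lt
  rw [pow_one, ← hc] at h4
  exact lt_irrefl _ h4

/-- The maximal subgroups of `Ω` in odd dimension. -/
theorem odd_cmax (hodd : Odd (Fintype.card F)) (m : ℕ) (hm : 3 ≤ m) (H : Subgroup (GL (Unit ⊕ (Fin m ⊕ Fin m)) F))
    (hH : IsMaximalIn (omegaGL (quadFormOdd m F)) H) :
    (∃ W : Submodule F (Unit ⊕ (Fin m ⊕ Fin m) → F), W ≠ ⊥ ∧ IsTotallySingularQuad (quadFormOdd m F) W ∧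
      H = subspaceStabilizer W ⊓ omegaGL (quadFormOdd m F)) ∨
    (∃ W : Submodule F (Unit ⊕ (Fin m ⊕ Fin m) → F), W ≠ ⊥ ∧ Even (finrank F W) ∧
      IsNondegenerateOn (QuadraticMap.polar (quadFormOdd m F)) W ∧
      ¬ (Fintype.card F = 3 ∧ finrank F W = 2 ∧ IsPlusTypeOn (quadFormOdd m F) W) ∧
      H = subspaceStabilizer W ⊓ omegaGL (quadFormOdd m F)) ∨
    ((Fintype.card F).Prime ∧ ∃ D : Fin (2 * m + 1) → Submodule F (Unit ⊕ (Fin m ⊕ Fin m) → F),
      IsOrthogonalMDecomposition (quadFormOdd m F) 1 D ∧ H = decompositionStabilizer D ⊓ omegaGL (quadFormOdd m F)) ∨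
    (∃ (t k : ℕ) (D : Fin t → Submodule F (Unit ⊕ (Fin m ⊕ Fin m) → F)), 1 < k ∧
      IsOrthogonalMDecomposition (quadFormOdd m F) k D ∧ H ≤ decompositionStabilizer D) ∨
    (∃ (r : ℕ) (K : Subalgebra F (Matrix (Unit ⊕ (Fin m ⊕ Fin m)) (Unit ⊕ (Fin m ⊕ Fin m)) F)), r.Prime ∧ 2 * m + 1 ≠ r ∧
      IsFieldSubalgebra r K ∧ IsSelfAdjointFor (QuadraticMap.polar (quadFormOdd m F)) K ∧ H ≤ subalgebraNormalizer K) ∨
    (∃ (n₁ n₂ : ℕ) (e : (Unit ⊕ (Fin m ⊕ Fin m)) ≃ Fin n₁ × Fin n₂) (P : GL (Unit ⊕ (Fin m ⊕ Fin m)) F)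
      (f₁ : (Fin n₁ → F) → (Fin n₁ → F) → F) (f₂ : (Fin n₂ → F) → (Fin n₂ → F) → F),
      3 ≤ n₁ ∧ n₁ < n₂ ∧ IsSymmetricForm f₁ ∧ IsSymmetricForm f₂ ∧ IsTensorFormStructure id (QuadraticMap.polar (quadFormOdd m F)) f₁ f₂ e P ∧
      H ≤ tensorProductSubgroup n₁ n₂ e P) ∨
    (∃ (F₀ : Subfield F) (r : ℕ) (P : GL (Unit ⊕ (Fin m ⊕ Fin m)) F), r.Prime ∧ Fintype.card F = Nat.card F₀ ^ r ∧
      IsQuadFormRationalStructure (quadFormOdd m F) F₀ P ∧ H = subfieldSubgroup F₀ P ⊓ omegaGL (quadFormOdd m F)) ∨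
    (∃ (k t : ℕ) (e : (Unit ⊕ (Fin m ⊕ Fin m)) ≃ (Fin t → Fin k)) (P : GL (Unit ⊕ (Fin m ⊕ Fin m)) F)
      (f₁ : (Fin k → F) → (Fin k → F) → F), 3 ≤ k ∧ 2 ≤ t ∧ ¬ (Fintype.card F = 3 ∧ k = 3) ∧ IsSymmetricForm f₁ ∧
      IsTensorPowerFormStructure id (QuadraticMap.polar (quadFormOdd m F)) f₁ e P ∧ H ≤ tensorWreathSubgroup k t e P) ∨
    InOrthogonalResidualClass H := by
  classical
  have h2 : (2 : F) ≠ 0 := two_ne_zero_of_odd hodd
  have hQ := Cfsg.Agent.Lib.GeoOmega.Planes.quadFormOdd_nondeg m F h2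
  have hcardι := card_index m
  have hι : 7 ≤ Fintype.card (Unit ⊕ (Fin m ⊕ Fin m)) := by omega
  have hoddι : Odd (Fintype.card (Unit ⊕ (Fin m ⊕ Fin m))) := by
    rw [hcardι]
    exact ⟨m, rfl⟩
  haveI : Nonempty (Unit ⊕ (Fin m ⊕ Fin m)) := ⟨Sum.inl ()⟩
  rcases odd_structure hodd m hm H hH.1.le with ⟨M, hM, hHM⟩ | hres
  swap
  · exact Or.inr (Or.inr (Or.inr (Or.inr (Or.inr (Or.inr (Or.inr (Or.inr hres)))))))
  rcases hM with ⟨W, h0, hts, rfl⟩ | ⟨W, h0, h1, hnd, rfl⟩ | ⟨t, k, D, hk, hD, rfl⟩ | ⟨t, D, hp, hD, rfl⟩ | ⟨r, K, hr, hrn, hK, hsa, rfl⟩ |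
    ⟨n₁, n₂, e, P, f₁, f₂, h1, h3, h4, h5, h6, rfl⟩ | ⟨F₀, r, P, hr, hc, hrat, rfl⟩ | ⟨k, t, e, P, f₁, h1, h3, h4, h5, h6, rfl⟩
  · exact Or.inl ⟨W, h0, hts, eq_inf_of_le hH (hHM.trans inf_le_left) (omega_not_le_stab hQ hι h0 (ne_top_of_ts hQ hts))⟩
  · exact Or.inr (Or.inl (nd_normal hQ h2 hoddι hι hH h0 h1 hnd (hHM.trans inf_le_left)))
  · exact Or.inr (Or.inr (Or.inr (Or.inl ⟨t, k, D, hk, hD, hHM.trans inf_le_left⟩)))
  · have ht : t = 2 * m + 1 := by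
      have := Cfsg.Agent.Lib.AschF.OddA.card_eq_of_decomp hD.decomp.decomp
      rw [hcardι, mul_one] at this
      exact this.symm
    subst ht
    exact Or.inr (Or.inr (Or.inl ⟨hp, D, hD, eq_inf_of_le hH (hHM.trans inf_le_left) (omega_not_le_dec hQ h2 hι hD)⟩))
  · exact Or.inr (Or.inr (Or.inr (Or.inr (Or.inl ⟨r, K, hr, hrn, hK, hsa, hHM.trans inf_le_left⟩))))
  · exact Or.inr (Or.inr (Or.inr (Or.inr (Or.inr (Or.inl ⟨n₁, n₂, e, P, f₁, f₂, h1, h3, h4, h5, h6, hHM.trans inf_le_left⟩)))))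
  · exact Or.inr (Or.inr (Or.inr (Or.inr (Or.inr (Or.inr (Or.inl ⟨F₀, r, P, hr, hc, hrat,
      eq_inf_of_le hH (hHM.trans inf_le_left) (omega_not_le_subfield hQ h2 hι (subfield_ne_top hr hc) P)⟩))))))
  · exact Or.inr (Or.inr (Or.inr (Or.inr (Or.inr (Or.inr (Or.inr (Or.inl ⟨k, t, e, P, f₁, h1, h3, h4, h5, h6, hHM.trans inf_le_left⟩)))))))

/-- The maximal subgroups of `Ω` in prime dimension. -/
theorem odd_cmax_prime (hodd : Odd (Fintype.card F)) (m : ℕ) (hm : 3 ≤ m) (hp : (2 * m + 1).Prime) (H : Subgroup (GL (Unit ⊕ (Fin m ⊕ Fin m)) F))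
    (hH : IsMaximalIn (omegaGL (quadFormOdd m F)) H) :
    (∃ W : Submodule F (Unit ⊕ (Fin m ⊕ Fin m) → F), W ≠ ⊥ ∧ IsTotallySingularQuad (quadFormOdd m F) W ∧
      H = subspaceStabilizer W ⊓ omegaGL (quadFormOdd m F)) ∨
    (∃ W : Submodule F (Unit ⊕ (Fin m ⊕ Fin m) → F), W ≠ ⊥ ∧ Even (finrank F W) ∧
      IsNondegenerateOn (QuadraticMap.polar (quadFormOdd m F)) W ∧
      ¬ (Fintype.card F = 3 ∧ finrank F W = 2 ∧ IsPlusTypeOn (quadFormOdd m F) W) ∧
      H = subspaceStabilizer W ⊓ omegaGL (quadFormOdd m F)) ∨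
    ((Fintype.card F).Prime ∧ ∃ D : Fin (2 * m + 1) → Submodule F (Unit ⊕ (Fin m ⊕ Fin m) → F),
      IsOrthogonalMDecomposition (quadFormOdd m F) 1 D ∧ H = decompositionStabilizer D ⊓ omegaGL (quadFormOdd m F)) ∨
    (∃ (F₀ : Subfield F) (r : ℕ) (P : GL (Unit ⊕ (Fin m ⊕ Fin m)) F), r.Prime ∧ Fintype.card F = Nat.card F₀ ^ r ∧
      IsQuadFormRationalStructure (quadFormOdd m F) F₀ P ∧ H = subfieldSubgroup F₀ P ⊓ omegaGL (quadFormOdd m F)) ∨
    InOrthogonalResidualClass H := by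
  have hcardι := card_index m
  haveI : Nonempty (Unit ⊕ (Fin m ⊕ Fin m)) := ⟨Sum.inl ()⟩
  rcases odd_cmax hodd m hm H hH with h | h | h | ⟨t, k, D, hk, hD, -⟩ | ⟨r, K, hr, hrn, hK, -, -⟩ | ⟨n₁, n₂, e, P, f₁, f₂, h1, h3, -, -, -, -⟩ | h |
    ⟨k, t, e, P, f₁, h1, h3, -, -, -, -⟩ | h
  · exact Or.inl h
  · exact Or.inr (Or.inl h)
  · exact Or.inr (Or.inr (Or.inl h))
  · exfalso
    have h4 := Cfsg.Agent.Lib.AschF.OddA.card_eq_of_decomp hD.decomp.decomp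
    have h5 := hD.decomp.decomp.two_le
    rw [hcardι] at h4
    rw [h4] at hp
    exact Nat.not_prime_mul (by omega) (by omega) hp
  · exfalso
    have h4 := Cfsg.Agent.Lib.Asch.MaxSN.field_dvd hK
    rw [hcardι] at h4
    exact hrn ((Nat.prime_dvd_prime_iff_eq hr hp).1 h4).symm
  · exfalso
    have h4 := Fintype.card_congr e
    simp only [Fintype.card_fin, Fintype.card_prod] at h4
    rw [hcardι] at h4
    rw [h4] at hp
    exact Nat.not_prime_mul (by omega) (by omega) hp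
  · exact Or.inr (Or.inr (Or.inr (Or.inl h)))
  · exfalso
    have h4 := Fintype.card_congr e
    simp only [Fintype.card_fin, Fintype.card_fun] at h4
    rw [hcardι] at h4
    rw [h4] at hp
    exact Nat.Prime.not_prime_pow h3 hp
  · exact Or.inr (Or.inr (Or.inr (Or.inr h)))

/-- The maximal subgroups of `Ω₉`. -/
theorem odd_cmax_nine (hodd : Odd (Fintype.card F)) (H : Subgroup (GL (Unit ⊕ (Fin 4 ⊕ Fin 4)) F))
    (hH : IsMaximalIn (omegaGL (quadFormOdd 4 F)) H) :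
    (∃ W : Submodule F (Unit ⊕ (Fin 4 ⊕ Fin 4) → F), W ≠ ⊥ ∧ IsTotallySingularQuad (quadFormOdd 4 F) W ∧
      H = subspaceStabilizer W ⊓ omegaGL (quadFormOdd 4 F)) ∨
    (∃ W : Submodule F (Unit ⊕ (Fin 4 ⊕ Fin 4) → F), W ≠ ⊥ ∧ Even (finrank F W) ∧
      IsNondegenerateOn (QuadraticMap.polar (quadFormOdd 4 F)) W ∧
      ¬ (Fintype.card F = 3 ∧ finrank F W = 2 ∧ IsPlusTypeOn (quadFormOdd 4 F) W) ∧
      H = subspaceStabilizer W ⊓ omegaGL (quadFormOdd 4 F)) ∨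
    ((Fintype.card F).Prime ∧ ∃ D : Fin 9 → Submodule F (Unit ⊕ (Fin 4 ⊕ Fin 4) → F),
      IsOrthogonalMDecomposition (quadFormOdd 4 F) 1 D ∧ H = decompositionStabilizer D ⊓ omegaGL (quadFormOdd 4 F)) ∨
    (5 ≤ Fintype.card F ∧ ∃ D : Fin 3 → Submodule F (Unit ⊕ (Fin 4 ⊕ Fin 4) → F),
      IsOrthogonalMDecomposition (quadFormOdd 4 F) 3 D ∧ H = decompositionStabilizer D ⊓ omegaGL (quadFormOdd 4 F)) ∨
    (∃ K : Subalgebra F (Matrix (Unit ⊕ (Fin 4 ⊕ Fin 4)) (Unit ⊕ (Fin 4 ⊕ Fin 4)) F),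
      IsFieldSubalgebra 3 K ∧ IsSelfAdjointFor (QuadraticMap.polar (quadFormOdd 4 F)) K ∧ H = subalgebraNormalizer K ⊓ omegaGL (quadFormOdd 4 F)) ∨
    (∃ (F₀ : Subfield F) (r : ℕ) (P : GL (Unit ⊕ (Fin 4 ⊕ Fin 4)) F), r.Prime ∧ Fintype.card F = Nat.card F₀ ^ r ∧
      IsQuadFormRationalStructure (quadFormOdd 4 F) F₀ P ∧ H = subfieldSubgroup F₀ P ⊓ omegaGL (quadFormOdd 4 F)) ∨
    (5 ≤ Fintype.card F ∧ ∃ (e : (Unit ⊕ (Fin 4 ⊕ Fin 4)) ≃ (Fin 2 → Fin 3)) (P : GL (Unit ⊕ (Fin 4 ⊕ Fin 4)) F)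
      (f₁ : (Fin 3 → F) → (Fin 3 → F) → F), IsSymmetricForm f₁ ∧
      IsTensorPowerFormStructure id (QuadraticMap.polar (quadFormOdd 4 F)) f₁ e P ∧ H = tensorWreathSubgroup 3 2 e P ⊓ omegaGL (quadFormOdd 4 F)) ∨
    InOrthogonalResidualClass H := by
  classical
  have h2 : (2 : F) ≠ 0 := two_ne_zero_of_odd hodd
  have hQ := Cfsg.Agent.Lib.GeoOmega.Planes.quadFormOdd_nondeg 4 F h2
  have hcardι : Fintype.card (Unit ⊕ (Fin 4 ⊕ Fin 4)) = 9 := card_index 4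
  have hι : 7 ≤ Fintype.card (Unit ⊕ (Fin 4 ⊕ Fin 4)) := by omega
  haveI : Nonempty (Unit ⊕ (Fin 4 ⊕ Fin 4)) := ⟨Sum.inl ()⟩
  have hHI : H ≤ isometryGroup F (quadFormOdd 4 F) := hH.1.le.trans (omegaGL_le_isometryGroup _)
  have h5 : Fintype.card F ≠ 3 → 5 ≤ Fintype.card F := by
    intro h3
    have h4 : 2 ≤ Fintype.card F := Fintype.one_lt_card
    obtain ⟨t, ht⟩ := hodd
    omega
  -- frames
  have hframes : ∀ (t : ℕ) (D : Fin t → Submodule F (Unit ⊕ (Fin 4 ⊕ Fin 4) → F)), (Fintype.card F).Prime →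
      IsOrthogonalMDecomposition (quadFormOdd 4 F) 1 D → H ≤ decompositionStabilizer D →
      ((Fintype.card F).Prime ∧ ∃ D : Fin 9 → Submodule F (Unit ⊕ (Fin 4 ⊕ Fin 4) → F),
      IsOrthogonalMDecomposition (quadFormOdd 4 F) 1 D ∧ H = decompositionStabilizer D ⊓ omegaGL (quadFormOdd 4 F)) := by
    intro t D hp hD hle
    have ht : t = 9 := by
      have := Cfsg.Agent.Lib.AschF.OddA.card_eq_of_decomp hD.decomp.decomp
      rw [hcardι, mul_one] at this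
      exact this.symm
    subst ht
    exact ⟨hp, D, hD, eq_inf_of_le hH hle (omega_not_le_dec hQ h2 hι hD)⟩
  rcases odd_cmax hodd 4 (by norm_num) H hH with h | h | h | ⟨t, k, D, hk, hD, hle⟩ | ⟨r, K, hr, hrn, hK, hsa, hle⟩ |
    ⟨n₁, n₂, e, P, f₁, f₂, h1, h3, -, -, -, -⟩ | h | ⟨k, t, e, P, f₁, h1, h3, h4, h6, h7, hle⟩ | h
  · exact Or.inl h
  · exact Or.inr (Or.inl h)
  · exact Or.inr (Or.inr (Or.inl h))
  · -- `t * k = 9`
    have h4 := Cfsg.Agent.Lib.AschF.OddA.card_eq_of_decomp hD.decomp.decomp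
    have h6 := hD.decomp.decomp.two_le
    rw [hcardι] at h4
    have hk3 : k = 3 := by
      have hkd : k ∣ 9 := ⟨t, by rw [h4, mul_comm]⟩
      have hk9 : k ≤ 9 := Nat.le_of_dvd (by norm_num) hkd
      interval_cases k <;> omega
    subst hk3
    have ht3 : t = 3 := by omega
    subst ht3
    by_cases hc3 : Fintype.card F = 3
    · obtain ⟨t', D', hD', hle'⟩ := dec33_frames hQ hc3 hHI hD hle
      exact Or.inr (Or.inr (Or.inl (hframes t' D' (by rw [hc3]; exact Nat.prime_three) hD' hle')))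
    · exact Or.inr (Or.inr (Or.inr (Or.inl ⟨h5 hc3, D, hD, eq_inf_of_le hH hle (omega_not_le_dec hQ h2 hι hD)⟩)))
  · have h4 := Cfsg.Agent.Lib.Asch.MaxSN.field_dvd hK
    rw [hcardι] at h4
    have hr3 : r = 3 := by
      have : r ∣ 3 ^ 2 := by norm_num; exact h4
      exact (Nat.prime_dvd_prime_iff_eq hr Nat.prime_three).1 (hr.dvd_of_dvd_pow this)
    subst hr3
    exact Or.inr (Or.inr (Or.inr (Or.inr (Or.inl ⟨K, hK, hsa, eq_inf_of_le hH hle (omega_not_le_field hQ hι le_rfl hK)⟩))))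
  · exfalso
    have h4 := Fintype.card_congr e
    simp only [Fintype.card_fin, Fintype.card_prod] at h4
    rw [hcardι] at h4
    have hn : n₁ * n₂ = 9 := h4.symm
    have : 3 < n₂ := by omega
    have h6 : n₁ * n₂ ≥ 3 * 4 := Nat.mul_le_mul h1 this
    omega
  · exact Or.inr (Or.inr (Or.inr (Or.inr (Or.inr (Or.inl h)))))
  · -- `k ^ t = 9`
    have h8 := Fintype.card_congr e
    simp only [Fintype.card_fin, Fintype.card_fun] at h8
    rw [hcardι] at h8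
    have ht2 : t = 2 := by
      by_contra hne
      have h9 : 3 ≤ t := by omega
      have h10 : 3 ^ 3 ≤ k ^ t := (Nat.pow_le_pow_left h1 3).trans (Nat.pow_le_pow_right (by omega) h9)
      omega
    subst ht2
    have hk3 : k = 3 := by
      have h10 : k ^ 2 = 3 ^ 2 := by omega
      exact Nat.pow_left_injective (n := 2) (by norm_num) h10
    subst hk3
    have hc3 : Fintype.card F ≠ 3 := fun h => h4 ⟨h, rfl⟩
    exact Or.inr (Or.inr (Or.inr (Or.inr (Or.inr (Or.inr (Or.inl ⟨h5 hc3, e, P, f₁, h6, h7,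
      eq_inf_of_le hH hle (omega_not_le_wreath2 hQ h2 hι le_rfl e P)⟩))))))
  · exact Or.inr (Or.inr (Or.inr (Or.inr (Or.inr (Or.inr (Or.inr h))))))

end Main

end Cfsg.Agent.Lib.AschF.OddMax
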