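import Mathlib
import Cfsg.Agent.Lib.AschF.Cliff

/-!
# Orthogonal complements of non-degenerate subspaces
-/

set_option autoImplicit false

namespace Cfsg.Agent.Lib.AschF.Perp

open Matrix Module Cfsg Cfsg.Geo
open Cfsg.Agent.Lib.Asch.Forms Cfsg.Agent.Lib.AschF.Adj Cfsg.Agent.Lib.AschF.Cliff

universe u

variable {ι : Type} [Fintype ι] [DecidableEq ι] {F : Type u} [Field F] {σ : F ≃+* F} {ε : F}
  {f : (ι → F) → (ι → F) → F}

/-- The perp of a non-degenerate subspace is a complement. -/
theorem perp_compl (hf : HF σ ε f) {W : Submodule F (ι → F)} (hW : IsNondegenerateOn f W) :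
    IsCompl W (perp hf.sesq W) ∧ finrank F W + finrank F (perp hf.sesq W) = Fintype.card ι := by
  classical
  have hinf : W ⊓ perp hf.sesq W = ⊥ := by
    rw [eq_bot_iff]
    rintro x ⟨hx, hxp⟩
    by_contra hx0
    obtain ⟨⟨y, hy, hne⟩, -⟩ := hW x hx hx0
    exact hne (hxp y hy)
  -- rank-nullity
  let d := finrank F W
  let b := Module.finBasis F W
  let Φ : (ι → F) →ₗ[F] (Fin d → F) :=
    { toFun := fun v i => σ.symm (f (b i : ι → F) v)
      map_add' := fun x y => by
        funext i
        simp [hf.sesq.add_right]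
      map_smul' := fun c x => by
        funext i
        simp [hf.sesq.smul_right] }
  have hker : LinearMap.ker Φ = perp hf.sesq W := by
    ext v
    rw [LinearMap.mem_ker, mem_perp]
    constructor
    · intro h w hw
      have h1 : ∀ i, f (b i : ι → F) v = 0 := by
        intro i
        have := congrFun h i
        simpa [Φ] using this
      have h4 : w = ∑ i, (b.repr ⟨w, hw⟩ i) • (b i : ι → F) := by
        calc w = ((∑ i, (b.repr ⟨w, hw⟩ i) • b i : W) : ι → F) := by rw [b.sum_repr]
          _ = _ := by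
            rw [AddSubmonoidClass.coe_finset_sum]
            rfl
      rw [h4, Sesq_sum_left hf.sesq]
      refine Finset.sum_eq_zero fun i _ => ?_
      rw [hf.sesq.smul_left, h1, mul_zero]
    · intro h
      funext i
      simp [Φ, h _ (b i).2]
  have h1 := LinearMap.finrank_range_add_finrank_ker Φ
  have h3 : finrank F (LinearMap.range Φ) ≤ d := by
    have := Submodule.finrank_le (LinearMap.range Φ)
    simpa using this
  rw [hker, finrank_fintype_fun_eq_card] at h1
  have h4 := Submodule.finrank_sup_add_finrank_inf_eq W (perp hf.sesq W)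
  rw [hinf, finrank_bot, add_zero] at h4
  have h5 : finrank F (W ⊔ perp hf.sesq W : Submodule F (ι → F)) ≤ Fintype.card ι := by
    have := Submodule.finrank_le (W ⊔ perp hf.sesq W : Submodule F (ι → F))
    simpa using this
  have h6 : finrank F W + finrank F (perp hf.sesq W) = Fintype.card ι := by
    have : d = finrank F W := rfl
    omega
  refine ⟨⟨disjoint_iff.2 hinf, codisjoint_iff.2 ?_⟩, h6⟩
  apply Submodule.eq_top_of_finrank_eq
  rw [finrank_fintype_fun_eq_card]
  omega

/-- The perp of a non-degenerate subspace is non-degenerate. -/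
theorem perp_nd (hf : HF σ ε f) {W : Submodule F (ι → F)} (hW : IsNondegenerateOn f W) :
    IsNondegenerateOn f (perp hf.sesq W) := by
  obtain ⟨hc, -⟩ := perp_compl hf hW
  have hdec : ∀ x : ι → F, ∃ w ∈ W, ∃ y ∈ perp hf.sesq W, x = w + y := by
    intro x
    have hx : x ∈ W ⊔ perp hf.sesq W := by
      rw [hc.sup_eq_top]
      trivial
    obtain ⟨w, hw, y, hy, rfl⟩ := Submodule.mem_sup.1 hx
    exact ⟨w, hw, y, hy, rfl⟩
  intro v hv hv0
  obtain ⟨⟨x, hx⟩, ⟨x', hx'⟩⟩ := hf.nd v hv0
  constructor
  · obtain ⟨w, hw, y, hy, rfl⟩ := hdec x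
    refine ⟨y, hy, fun h0 => hx ?_⟩
    rw [hf.sesq.add_left, hv w hw, h0, add_zero]
  · obtain ⟨w, hw, y, hy, rfl⟩ := hdec x'
    refine ⟨y, hy, fun h0 => hx' ?_⟩
    rw [hf.sesq.add_right, hf.refl (hv w hw), h0, add_zero]

/-- A non-degenerate subspace of half the dimension gives a decomposition. -/
theorem dec_of_half (hf : HF σ ε f) {W : Submodule F (ι → F)} (hW : IsNondegenerateOn f W) (hW0 : W ≠ ⊥)
    (hhalf : 2 * finrank F W = Fintype.card ι) :
    IsNondegenerateMDecomposition f (finrank F W) ![W, perp hf.sesq W] := by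
  obtain ⟨hc, hr⟩ := perp_compl hf hW
  have hp : finrank F (perp hf.sesq W) = finrank F W := by omega
  refine ⟨⟨le_refl 2, ?_, ?_, ?_, ?_⟩, ?_, ?_⟩
  · exact Module.finrank_pos_iff.2 (Submodule.nontrivial_iff_ne_bot.2 hW0)
  · intro i
    fin_cases i
    · rfl
    · exact hp
  · rw [iSupIndep_pair (i := 0) (j := 1) (by decide) (by decide)]
    exact hc.disjoint
  · apply le_antisymm le_top
    rw [← hc.sup_eq_top]
    exact sup_le (le_iSup ![W, perp hf.sesq W] 0) (le_iSup ![W, perp hf.sesq W] 1)
  · intro i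
    fin_cases i
    · exact hW
    · exact perp_nd hf hW
  · intro i j hij u hu v hv
    fin_cases i <;> fin_cases j
    · exact absurd rfl hij
    · exact hv u hu
    · exact hf.refl (hu v hv)
    · exact absurd rfl hij

end Cfsg.Agent.Lib.AschF.Perp
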