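import Mathlib
import Cfsg.Agent.Lib.AschF.OddD

/-!
# Tensor powers of a form: the pure tensor law and the multipliers on the factors
-/

set_option autoImplicit false

namespace Cfsg.Agent.Lib.AschF.WFrame

open Matrix Module Cfsg Cfsg.Geo
open Cfsg.Agent.Lib.Asch.Forms Cfsg.Agent.Lib.AschF.Adj
open Cfsg.Agent.Lib.Asch.Cl
open Cfsg.Agent.Lib.Ten.Mm

universe u

variable {ι : Type} [Fintype ι] [DecidableEq ι] {F : Type u} [Field F] {σ : F ≃+* F} {a k : ℕ}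

/-- The tensor power of the Gram matrix on pure tensors. -/
theorem tensor_form_ten_s {A : (Fin a → F) → (Fin a → F) → F} (hA : Sesq σ A) (us vs : Fin k → Fin a → F) :
    ∑ u, ∑ v, ten us u * (∏ i, gramMatrix A (u i) (v i)) * σ (ten vs v) = ∏ i, A (us i) (vs i) := by
  classical
  have h1 : ∀ x y, A x y = ∑ b, ∑ c, x b * gramMatrix A b c * σ (y c) := by
    intro x y
    rw [eq_gram hA]
    simp only [dotProduct, Matrix.mulVec, Finset.mul_sum]
    refine Finset.sum_congr rfl fun b _ => Finset.sum_congr rfl fun c _ => ?_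
    simp only [Function.comp_apply]
    rw [mul_assoc]
    rfl
  simp only [h1]
  rw [Finset.prod_univ_sum, Fintype.piFinset_univ]
  refine Finset.sum_congr rfl fun u _ => ?_
  rw [Finset.prod_univ_sum, Fintype.piFinset_univ]
  refine Finset.sum_congr rfl fun v _ => ?_
  simp only [ten_apply, map_prod, Finset.prod_mul_distrib]

/-- The multipliers on each factor. -/
theorem slot_similarity_s {A : (Fin a → F) → (Fin a → F) → F} {ε₁ : F} (hA : HF σ ε₁ A) (ha : 0 < a)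
    (gs : Fin k → GL (Fin a) F) (τ : Equiv.Perm (Fin k))
    (hstar : ∀ us vs : Fin k → Fin a → F, ∏ i, A ((gs i : Matrix (Fin a) (Fin a) F) *ᵥ us (τ i)) ((gs i : Matrix (Fin a) (Fin a) F) *ᵥ vs (τ i)) =
      ∏ i, A (us i) (vs i)) (j : Fin k) :
    ∃ μ : F, μ ≠ 0 ∧ ∀ x y, A ((gs j : Matrix (Fin a) (Fin a) F) *ᵥ x) ((gs j : Matrix (Fin a) (Fin a) F) *ᵥ y) = μ * A x y := by
  classical
  have hs := hA.sesq
  -- a pair with non-zero value
  have hp : ∃ p p', A p p' ≠ 0 := by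
    let p : Fin a → F := Pi.single ⟨0, ha⟩ 1
    have hp0 : p ≠ 0 := by
      intro h0
      have := congrFun h0 ⟨0, ha⟩
      simp [p] at this
    obtain ⟨⟨x, hx⟩, -⟩ := hA.nd p hp0
    exact ⟨x, p, hx⟩
  obtain ⟨p, p', hpp⟩ := hp
  let inv : Fin k → Matrix (Fin a) (Fin a) F := fun i => ((gs i)⁻¹ : GL (Fin a) F)
  have hgi : ∀ i x, (gs i : Matrix (Fin a) (Fin a) F) *ᵥ (inv i *ᵥ x) = x := by
    intro i x
    simp only [inv]
    rw [Matrix.mulVec_mulVec, ← Units.val_mul, mul_inv_cancel, Units.val_one, Matrix.one_mulVec]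
  let κ : F := ∏ i ∈ Finset.univ.erase j, A p p'
  have hκ : κ ≠ 0 := Finset.prod_ne_zero_iff.2 fun _ _ => hpp
  let ρ : F := ∏ i ∈ Finset.univ.erase j, A (inv i *ᵥ p) (inv i *ᵥ p')
  have hgen : ∀ x y, A ((gs j : Matrix (Fin a) (Fin a) F) *ᵥ x) ((gs j : Matrix (Fin a) (Fin a) F) *ᵥ y) * κ = A x y * ρ := by
    intro x y
    let us : Fin k → Fin a → F := fun l => if l = τ j then x else inv (τ.symm l) *ᵥ p
    let vs : Fin k → Fin a → F := fun l => if l = τ j then y else inv (τ.symm l) *ᵥ p'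
    have h1 := hstar us vs
    have hus : ∀ i, i ≠ j → us (τ i) = inv i *ᵥ p := by
      intro i hi
      simp only [us]
      rw [if_neg (fun h => hi (τ.injective h)), Equiv.symm_apply_apply]
    have hvs : ∀ i, i ≠ j → vs (τ i) = inv i *ᵥ p' := by
      intro i hi
      simp only [vs]
      rw [if_neg (fun h => hi (τ.injective h)), Equiv.symm_apply_apply]
    have husj : us (τ j) = x := by simp [us]
    have hvsj : vs (τ j) = y := by simp [vs]
    rw [← Equiv.prod_comp τ (fun l => A (us l) (vs l))] at h1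
    rw [← Finset.mul_prod_erase Finset.univ _ (Finset.mem_univ j), ← Finset.mul_prod_erase Finset.univ (fun l => A (us (τ l)) (vs (τ l))) (Finset.mem_univ j),
      husj, hvsj] at h1
    have h3 : ∏ i ∈ Finset.univ.erase j, A ((gs i : Matrix (Fin a) (Fin a) F) *ᵥ us (τ i)) ((gs i : Matrix (Fin a) (Fin a) F) *ᵥ vs (τ i)) = κ := by
      refine Finset.prod_congr rfl fun i hi => ?_
      have hi' : i ≠ j := (Finset.mem_erase.1 hi).1
      rw [hus i hi', hvs i hi', hgi, hgi]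
    have h4 : ∏ i ∈ Finset.univ.erase j, A (us (τ i)) (vs (τ i)) = ρ := by
      refine Finset.prod_congr rfl fun i hi => ?_
      have hi' : i ≠ j := (Finset.mem_erase.1 hi).1
      rw [hus i hi', hvs i hi']
    rw [h3, h4] at h1
    exact h1
  refine ⟨ρ / κ, ?_, fun x y => ?_⟩
  · intro h0
    have hρ : ρ = 0 := by
      rcases (div_eq_zero_iff.1 h0) with h3 | h3
      · exact h3
      · exact absurd h3 hκ
    -- then the form vanishes
    have h5 := hgen (inv j *ᵥ p) (inv j *ᵥ p')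
    rw [hgi, hgi, hρ, mul_zero] at h5
    exact mul_ne_zero hpp hκ h5
  · have h5 := hgen x y
    field_simp
    linear_combination h5

/-- The action of a tensor wreath matrix on pure tensors. -/
theorem act_ten (e₂ : ι ≃ (Fin k → Fin a)) (P h : GL ι F) (gs : Fin k → GL (Fin a) F) (τ : Equiv.Perm (Fin k))
    (hh : (h : Matrix ι ι F) * (P : Matrix ι ι F) = (P : Matrix ι ι F) * ((tw gs τ : GL (Fin k → Fin a) F) : Matrix (Fin k → Fin a) (Fin k → Fin a) F).submatrix e₂ e₂)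
    (us : Fin k → Fin a → F) :
    (h : Matrix ι ι F) *ᵥ ((P : Matrix ι ι F) *ᵥ (ten us ∘ e₂)) =
      (P : Matrix ι ι F) *ᵥ (ten (fun i => (gs i : Matrix (Fin a) (Fin a) F) *ᵥ us (τ i)) ∘ e₂) := by
  rw [Matrix.mulVec_mulVec, hh, ← Matrix.mulVec_mulVec, Matrix.submatrix_mulVec_equiv, Function.comp_assoc, Equiv.self_comp_symm, Function.comp_id,
    coe_tw, mm_mulVec_ten]

/-- The law and the action in the basis adapted to a model form. -/
theorem wr_frame {ε₁ : F} {f : (ι → F) → (ι → F) → F} (e₂ : ι ≃ (Fin k → Fin a)) (P₂ : GL ι F)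
    {A B : (Fin a → F) → (Fin a → F) → F} (hA : HF σ ε₁ A) (hB : HF σ ε₁ B) {c : F} (hc : c ≠ 0)
    (hlaw : ∀ x y : (Fin k → Fin a) → F, f ((P₂ : Matrix ι ι F) *ᵥ (x ∘ e₂)) ((P₂ : Matrix ι ι F) *ᵥ (y ∘ e₂)) =
      c * ∑ u, ∑ v, x u * (∏ i, gramMatrix A (u i) (v i)) * σ (y v))
    (g₀ : GL (Fin a) F) (hg₀ : ∀ x y, A ((g₀ : Matrix (Fin a) (Fin a) F) *ᵥ x) ((g₀ : Matrix (Fin a) (Fin a) F) *ᵥ y) = B x y) (ha : 0 < a) :
    ∃ P₃ : GL ι F, (∀ us vs : Fin k → Fin a → F, f ((P₃ : Matrix ι ι F) *ᵥ (ten us ∘ e₂)) ((P₃ : Matrix ι ι F) *ᵥ (ten vs ∘ e₂)) =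
        c * ∏ i, B (us i) (vs i)) ∧
      ∀ h : GL ι F, (∀ u v, f ((h : Matrix ι ι F) *ᵥ u) ((h : Matrix ι ι F) *ᵥ v) = f u v) → h ∈ tensorWreathSubgroup a k e₂ P₂ →
        ∃ (gs : Fin k → GL (Fin a) F) (τ : Equiv.Perm (Fin k)),
          (h : Matrix ι ι F) * (P₃ : Matrix ι ι F) = (P₃ : Matrix ι ι F) * ((tw gs τ : GL (Fin k → Fin a) F) : Matrix (Fin k → Fin a) (Fin k → Fin a) F).submatrix e₂ e₂ ∧
          ∀ j, ∃ μ : F, μ ≠ 0 ∧ ∀ x y, B ((gs j : Matrix (Fin a) (Fin a) F) *ᵥ x) ((gs j : Matrix (Fin a) (Fin a) F) *ᵥ y) = μ * B x y := by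
  classical
  let T₀ : GL (Fin k → Fin a) F := tw (fun _ => g₀) 1
  let R : GL ι F := glReindex e₂.symm T₀
  have hRval : (R : Matrix ι ι F) = (T₀ : Matrix (Fin k → Fin a) (Fin k → Fin a) F).submatrix e₂ e₂ := rfl
  have hRinv : ((R⁻¹ : GL ι F) : Matrix ι ι F) = ((T₀⁻¹ : GL (Fin k → Fin a) F) : Matrix (Fin k → Fin a) (Fin k → Fin a) F).submatrix e₂ e₂ := rfl
  have hten : ∀ us : Fin k → Fin a → F, ((P₂ * R : GL ι F) : Matrix ι ι F) *ᵥ (ten us ∘ e₂) =
      (P₂ : Matrix ι ι F) *ᵥ (ten (fun i => (g₀ : Matrix (Fin a) (Fin a) F) *ᵥ us i) ∘ e₂) := by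
    intro us
    rw [Units.val_mul, ← Matrix.mulVec_mulVec, hRval, Matrix.submatrix_mulVec_equiv, Function.comp_assoc, Equiv.self_comp_symm, Function.comp_id]
    change (P₂ : Matrix ι ι F) *ᵥ ((mm (fun _ => (g₀ : Matrix (Fin a) (Fin a) F)) 1 *ᵥ ten us) ∘ e₂) = _
    rw [mm_mulVec_ten]
    rfl
  have hlawP : ∀ us vs : Fin k → Fin a → F, f (((P₂ * R : GL ι F) : Matrix ι ι F) *ᵥ (ten us ∘ e₂)) (((P₂ * R : GL ι F) : Matrix ι ι F) *ᵥ (ten vs ∘ e₂)) =
        c * ∏ i, B (us i) (vs i) := by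
    intro us vs
    rw [hten, hten, hlaw, tensor_form_ten_s hA.sesq]
    congr 1
    exact Finset.prod_congr rfl fun i _ => hg₀ _ _
  refine ⟨P₂ * R, hlawP, ?_⟩
  intro h hiso hh
  obtain ⟨g, hg, hgh⟩ := (mem_tensorWreathSubgroup_iff e₂ P₂ h).1 hh
  obtain ⟨gs, τ, rfl⟩ := exists_tw_of_mem hg
  let gs' : Fin k → GL (Fin a) F := fun i => g₀⁻¹ * gs i * g₀
  have hmat : ((tw gs τ : GL (Fin k → Fin a) F) : Matrix (Fin k → Fin a) (Fin k → Fin a) F) * (T₀ : Matrix (Fin k → Fin a) (Fin k → Fin a) F) =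
      (T₀ : Matrix (Fin k → Fin a) (Fin k → Fin a) F) * ((tw gs' τ : GL (Fin k → Fin a) F) : Matrix (Fin k → Fin a) (Fin k → Fin a) F) := by
    rw [← Units.val_mul, ← Units.val_mul]
    simp only [T₀]
    rw [tw_mul, tw_mul]
    have h1 : (fun i => gs i * g₀) = fun i => g₀ * gs' ((1 : Equiv.Perm (Fin k)) i) := by
      funext i
      simp only [gs', Equiv.Perm.one_apply]
      group
    rw [h1]
    rfl
  have hact : (h : Matrix ι ι F) * ((P₂ * R : GL ι F) : Matrix ι ι F) =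
      ((P₂ * R : GL ι F) : Matrix ι ι F) * ((tw gs' τ : GL (Fin k → Fin a) F) : Matrix (Fin k → Fin a) (Fin k → Fin a) F).submatrix e₂ e₂ := by
    rw [Units.val_mul, ← mul_assoc, hgh, mul_assoc, mul_assoc, hRval]
    congr 1
    rw [Matrix.submatrix_mul_equiv, Matrix.submatrix_mul_equiv, hmat]
  refine ⟨gs', τ, hact, fun j => ?_⟩
  refine slot_similarity_s hB ha gs' τ (fun us vs => ?_) j
  have h5 := hiso (((P₂ * R : GL ι F) : Matrix ι ι F) *ᵥ (ten us ∘ e₂)) (((P₂ * R : GL ι F) : Matrix ι ι F) *ᵥ (ten vs ∘ e₂))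
  rw [act_ten e₂ _ h gs' τ hact, act_ten e₂ _ h gs' τ hact, hlawP, hlawP] at h5
  exact mul_left_cancel₀ hc h5

end Cfsg.Agent.Lib.AschF.WFrame
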