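import Mathlib
import Cfsg.Agent.Lib.AschF.WFrame
import Cfsg.Agent.Lib.Asch.XT
import Cfsg.Agent.Lib.Asch.H1

/-!
# Tensor powers of a group of matrices
-/

set_option autoImplicit false

namespace Cfsg.Agent.Lib.AschF.TenGrp

open Matrix Module Cfsg Cfsg.Geo
open Cfsg.Agent.Lib.Asch.Forms Cfsg.Agent.Lib.AschF.Adj Cfsg.Agent.Lib.Asch.SC
open Cfsg.Agent.Lib.Ten.Mm

universe u

variable {F : Type u} [Field F]

/-- A spanning set of matrices acts absolutely irreducibly. -/
theorem absIrr_of_span {ι : Type} [Fintype ι] [DecidableEq ι] {S : Set (Matrix ι ι F)} (h : Submodule.span F S = ⊤) :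
    ActsAbsolutelyIrreducibly S := by
  classical
  constructor
  · intro W hW
    have hall : ∀ M : Matrix ι ι F, ∀ v ∈ W, M *ᵥ v ∈ W := by
      intro M
      have hM : M ∈ Submodule.span F S := by
        rw [h]
        trivial
      induction hM using Submodule.span_induction with
      | mem x hx =>
        intro v hv
        have := hW x hx ⟨v, hv, rfl⟩
        simpa using this
      | zero =>
        intro v _
        rw [Matrix.zero_mulVec]
        exact W.zero_mem
      | add x y _ _ hx hy =>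
        intro v hv
        rw [Matrix.add_mulVec]
        exact W.add_mem (hx v hv) (hy v hv)
      | smul c x _ hx =>
        intro v hv
        rw [Matrix.smul_mulVec]
        exact W.smul_mem c (hx v hv)
    by_cases hW0 : W = ⊥
    · exact Or.inl hW0
    right
    obtain ⟨v, hv, hv0⟩ := (Submodule.ne_bot_iff W).1 hW0
    obtain ⟨i, hi⟩ : ∃ i, v i ≠ 0 := by
      by_contra hcon
      push Not at hcon
      exact hv0 (funext hcon)
    rw [eq_top_iff]
    intro u _
    have h1 : u = ∑ j, (u j / v i) • ((Matrix.single j i (1 : F)) *ᵥ v) := by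
      funext l
      simp only [Finset.sum_apply, Pi.smul_apply, smul_eq_mul, Matrix.single_mulVec, Pi.single_apply, Function.const_apply]
      simp only [one_mul, mul_ite, mul_zero, Finset.sum_ite_eq, Finset.mem_univ, if_true]
      rw [Finset.sum_eq_single l]
      · rw [Function.update_self]
        field_simp
      · intro b _ hb
        rw [Function.update_of_ne hb.symm]
        simp
      · intro hl
        exact absurd (Finset.mem_univ l) hl
    rw [h1]
    exact W.sum_mem fun j _ => W.smul_mem _ (hall _ v hv)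
  · intro M hM
    have hcomm : ∀ N : Matrix ι ι F, M * N = N * M := by
      intro N
      have hN : N ∈ Submodule.span F S := by
        rw [h]
        trivial
      induction hN using Submodule.span_induction with
      | mem x hx => exact hM x hx
      | zero => simp
      | add x y _ _ hx hy => rw [mul_add, add_mul, hx, hy]
      | smul c x _ hx => rw [Matrix.mul_smul, Matrix.smul_mul, hx]
    obtain ⟨c, hc⟩ := Matrix.mem_range_scalar_of_commute_single (M := M) fun i j _ => (hcomm _).symm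
    refine ⟨c, ?_⟩
    rw [← hc]
    ext i j
    simp [Matrix.scalar_apply, Matrix.one_apply, Matrix.diagonal_apply]

variable {a k : ℕ}

/-- The tensor power of a group of matrices. -/
def tenGrp (R₀ : Subgroup (GL (Fin a) F)) (k : ℕ) : Subgroup (GL (Fin k → Fin a) F) where
  carrier := {g | ∃ gs : Fin k → GL (Fin a) F, (∀ i, gs i ∈ R₀) ∧ g = tw gs 1}
  mul_mem' := by
    rintro _ _ ⟨gs, hgs, rfl⟩ ⟨gs', hgs', rfl⟩
    refine ⟨fun i => gs i * gs' i, fun i => R₀.mul_mem (hgs i) (hgs' i), ?_⟩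
    rw [tw_mul]
    rfl
  one_mem' := by
    refine ⟨fun _ => 1, fun _ => R₀.one_mem, ?_⟩
    ext1
    rw [coe_tw]
    simp only [Units.val_one]
    exact mm_one.symm
  inv_mem' := by
    rintro _ ⟨gs, hgs, rfl⟩
    refine ⟨fun i => (gs i)⁻¹, fun i => R₀.inv_mem (hgs i), ?_⟩
    ext1
    rw [coe_tw_inv, coe_tw]
    rfl

theorem tw_mem {R₀ : Subgroup (GL (Fin a) F)} {gs : Fin k → GL (Fin a) F} (h : ∀ i, gs i ∈ R₀) : tw gs 1 ∈ tenGrp R₀ k := ⟨gs, h, rfl⟩

theorem tw_pow (gs : Fin k → GL (Fin a) F) (m : ℕ) : (tw gs 1) ^ m = tw (fun i => gs i ^ m) 1 := by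
  induction m with
  | zero =>
    ext1
    rw [coe_tw]
    simp only [pow_zero, Units.val_one]
    exact mm_one.symm
  | succ m ih =>
    rw [pow_succ, ih, tw_mul]
    simp only [pow_succ]
    rfl

theorem pow_eq_one {R₀ : Subgroup (GL (Fin a) F)} {z : ℕ} (h : ∀ x ∈ R₀, x ^ z = 1) : ∀ x ∈ tenGrp R₀ k, x ^ z = 1 := by
  rintro _ ⟨gs, hgs, rfl⟩
  rw [tw_pow]
  ext1
  rw [coe_tw]
  simp only [h _ (hgs _), Units.val_one]
  exact mm_one

theorem mm_smul_slots (c : Fin k → F) (As : Fin k → Matrix (Fin a) (Fin a) F) :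
    mm (fun i => c i • As i) 1 = (∏ i, c i) • mm As 1 := by
  ext x y
  simp only [mm_apply, Matrix.smul_apply, smul_eq_mul, Finset.prod_mul_distrib]

theorem scC {R₀ : Subgroup (GL (Fin a) F)} (h : ScC R₀) : ScC (tenGrp R₀ k) := by
  rintro _ ⟨gs, hgs, rfl⟩ _ ⟨gs', hgs', rfl⟩
  have h1 := fun i => h _ (hgs i) _ (hgs' i)
  choose c hc using h1
  refine ⟨∏ i, c i, ?_⟩
  rw [coe_tw, coe_tw, mm_mul, mm_mul]
  have h2 := mm_smul_slots c (fun i => (gs' i : Matrix (Fin a) (Fin a) F) * (gs i : Matrix (Fin a) (Fin a) F))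
  have h3 : (fun i => (gs i : Matrix (Fin a) (Fin a) F) * (gs' ((1 : Equiv.Perm (Fin k)) i) : Matrix (Fin a) (Fin a) F)) =
      fun i => c i • ((gs' i : Matrix (Fin a) (Fin a) F) * (gs i : Matrix (Fin a) (Fin a) F)) := funext hc
  exact (congrArg (fun As => mm As (Equiv.trans (1 : Equiv.Perm (Fin k)) 1)) h3).trans h2

/-- Every tensor product of matrices is in the span of the tensor power of a spanning group. -/
theorem mm_mem_span {R₀ : Subgroup (GL (Fin a) F)} (hs : Submodule.span F (matrixSet R₀) = ⊤) (As : Fin k → Matrix (Fin a) (Fin a) F) :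
    mm As 1 ∈ Submodule.span F (matrixSet (tenGrp R₀ k)) := by
  classical
  have key : ∀ S : Finset (Fin k), ∀ As : Fin k → Matrix (Fin a) (Fin a) F,
      (∀ i, i ∉ S → ∃ g ∈ R₀, As i = (g : Matrix (Fin a) (Fin a) F)) → mm As 1 ∈ Submodule.span F (matrixSet (tenGrp R₀ k)) := by
    intro S
    induction S using Finset.induction_on with
    | empty =>
      intro As hAs
      have h1 := fun i => hAs i (Finset.notMem_empty i)
      choose g hg hgA using h1
      apply Submodule.subset_span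
      refine ⟨tw g 1, tw_mem hg, ?_⟩
      change ((tw g 1 : GL (Fin k → Fin a) F) : Matrix (Fin k → Fin a) (Fin k → Fin a) F) = _
      rw [coe_tw]
      congr 1
      funext i
      exact (hgA i).symm
    | insert j S hj ih =>
      intro As hAs
      have hup : ∀ (x : Matrix (Fin a) (Fin a) F) (u v : Fin k → Fin a),
          mm (Function.update As j x) 1 u v = x (u j) (v j) * ∏ i ∈ Finset.univ.erase j, As i (u i) (v i) := by
        intro x u v
        rw [mm_apply, ← Finset.mul_prod_erase Finset.univ _ (Finset.mem_univ j)]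
        simp only [Equiv.Perm.one_apply, Function.update_self]
        congr 1
        refine Finset.prod_congr rfl fun i hi => ?_
        rw [Function.update_of_ne (Finset.mem_erase.1 hi).1]
      have hall : ∀ x : Matrix (Fin a) (Fin a) F, mm (Function.update As j x) 1 ∈ Submodule.span F (matrixSet (tenGrp R₀ k)) := by
        intro x
        have hx : x ∈ Submodule.span F (matrixSet R₀) := by
          rw [hs]
          trivial
        induction hx using Submodule.span_induction with
        | mem x hx =>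
          obtain ⟨g, hg, rfl⟩ := hx
          refine ih _ fun i hi => ?_
          by_cases hij : i = j
          · subst hij
            exact ⟨g, hg, Function.update_self _ _ _⟩
          · rw [Function.update_of_ne hij]
            exact hAs i (by
              simp only [Finset.mem_insert, not_or]
              exact ⟨hij, hi⟩)
        | zero =>
          have : mm (Function.update As j 0) 1 = 0 := by
            ext u v
            rw [hup]
            simp
          rw [this]
          exact Submodule.zero_mem _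
        | add x y _ _ hx hy =>
          have : mm (Function.update As j (x + y)) 1 = mm (Function.update As j x) 1 + mm (Function.update As j y) 1 := by
            ext u v
            rw [Matrix.add_apply, hup, hup, hup, Matrix.add_apply, add_mul]
          rw [this]
          exact Submodule.add_mem _ hx hy
        | smul c x _ hx =>
          have : mm (Function.update As j (c • x)) 1 = c • mm (Function.update As j x) 1 := by
            ext u v
            rw [Matrix.smul_apply, hup, hup, Matrix.smul_apply, smul_eq_mul, smul_eq_mul, mul_assoc]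
          rw [this]
          exact Submodule.smul_mem _ c hx
      have := hall (As j)
      rwa [Function.update_eq_self] at this
  exact key Finset.univ As fun i hi => absurd (Finset.mem_univ i) hi

theorem span_tenGrp {R₀ : Subgroup (GL (Fin a) F)} (hs : Submodule.span F (matrixSet R₀) = ⊤) :
    Submodule.span F (matrixSet (tenGrp R₀ k)) = ⊤ := by
  classical
  rw [eq_top_iff]
  intro M _
  rw [Matrix.matrix_eq_sum_single M]
  refine Submodule.sum_mem _ fun u _ => Submodule.sum_mem _ fun v _ => ?_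
  have h1 : Matrix.single u v (M u v) = M u v • mm (fun i => Matrix.single (u i) (v i) (1 : F)) 1 := by
    ext x y
    rw [Matrix.smul_apply, mm_apply, smul_eq_mul, Matrix.single_apply]
    by_cases h : u = x ∧ v = y
    · obtain ⟨rfl, rfl⟩ := h
      rw [if_pos ⟨rfl, rfl⟩, Finset.prod_eq_one, mul_one]
      intro i _
      simp
    · rw [if_neg h]
      have h2 : ∃ i, ¬ (u i = x i ∧ v i = y i) := by
        by_contra hcon
        apply h
        have h3 : ∀ i, u i = x i ∧ v i = y i := fun i => not_not.1 (not_exists.1 hcon i)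
        exact ⟨funext fun i => (h3 i).1, funext fun i => (h3 i).2⟩
      obtain ⟨i, hi⟩ := h2
      rw [Finset.prod_eq_zero (Finset.mem_univ i), mul_zero]
      simp only [Equiv.Perm.one_apply, Matrix.single_apply]
      rw [if_neg hi]
  rw [h1]
  exact Submodule.smul_mem _ _ (mm_mem_span hs _)

/-- Normalising the factors normalises the tensor power. -/
theorem tw_conj_mem {R₀ : Subgroup (GL (Fin a) F)} (t : Fin k → GL (Fin a) F) (τ : Equiv.Perm (Fin k))
    (ht : ∀ i, ∀ x ∈ R₀, t i * x * (t i)⁻¹ ∈ R₀) {g : GL (Fin k → Fin a) F} (hg : g ∈ tenGrp R₀ k) :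
    tw t τ * g * (tw t τ)⁻¹ ∈ tenGrp R₀ k := by
  obtain ⟨gs, hgs, rfl⟩ := hg
  have h1 : tw t τ * tw gs 1 * (tw t τ)⁻¹ = tw (fun i => t i * gs (τ i) * (t i)⁻¹) 1 := by
    rw [mul_inv_eq_iff_eq_mul, tw_mul, tw_mul]
    have h2 : (fun i => t i * gs (τ i)) = fun i => (t i * gs (τ i) * (t i)⁻¹) * t ((1 : Equiv.Perm (Fin k)) i) := by
      funext i
      simp
    rw [h2]
    rfl
  rw [h1]
  exact tw_mem fun i => ht i _ (hgs _)

section Cj

variable {ι κ : Type} [Fintype ι] [DecidableEq ι] [Fintype κ] [DecidableEq κ]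

/-- Transport of a group of matrices. -/
def cjGrp (T : Subgroup (GL κ F)) (e : ι ≃ κ) (P : GL ι F) : Subgroup (GL ι F) :=
  (T.map (glReindex e.symm).toMonoidHom).map (MulAut.conj P).toMonoidHom

theorem mem_cjGrp {T : Subgroup (GL κ F)} {e : ι ≃ κ} {P x : GL ι F} :
    x ∈ cjGrp T e P ↔ ∃ g ∈ T, x = P * glReindex e.symm g * P⁻¹ := by
  constructor
  · rintro ⟨_, ⟨g, hg, rfl⟩, rfl⟩
    exact ⟨g, hg, rfl⟩
  · rintro ⟨g, hg, rfl⟩
    exact ⟨_, ⟨g, hg, rfl⟩, rfl⟩

theorem cj_pow {T : Subgroup (GL κ F)} {e : ι ≃ κ} {P : GL ι F} {z : ℕ} (h : ∀ x ∈ T, x ^ z = 1) : ∀ x ∈ cjGrp T e P, x ^ z = 1 := by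
  intro x hx
  obtain ⟨g, hg, rfl⟩ := mem_cjGrp.1 hx
  rw [conj_pow, ← map_pow, h g hg, map_one]
  simp

theorem cj_val (e : ι ≃ κ) (P : GL ι F) (g : GL κ F) :
    ((P * glReindex e.symm g * P⁻¹ : GL ι F) : Matrix ι ι F) = (P : Matrix ι ι F) * (g : Matrix κ κ F).submatrix e e * ((P⁻¹ : GL ι F) : Matrix ι ι F) := by
  rw [Units.val_mul, Units.val_mul]
  rfl

theorem cj_scC {T : Subgroup (GL κ F)} {e : ι ≃ κ} {P : GL ι F} (h : ScC T) : ScC (cjGrp T e P) := by
  intro x hx y hy
  obtain ⟨g, hg, rfl⟩ := mem_cjGrp.1 hx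
  obtain ⟨g', hg', rfl⟩ := mem_cjGrp.1 hy
  obtain ⟨c, hc⟩ := h g hg g' hg'
  refine ⟨c, ?_⟩
  have hPi : ((P⁻¹ : GL ι F) : Matrix ι ι F) * (P : Matrix ι ι F) = 1 := by
    rw [← Units.val_mul, inv_mul_cancel, Units.val_one]
  have hs : ∀ a b : GL κ F, (P : Matrix ι ι F) * (a : Matrix κ κ F).submatrix e e * ((P⁻¹ : GL ι F) : Matrix ι ι F) *
      ((P : Matrix ι ι F) * (b : Matrix κ κ F).submatrix e e * ((P⁻¹ : GL ι F) : Matrix ι ι F)) =
      (P : Matrix ι ι F) * ((a : Matrix κ κ F) * (b : Matrix κ κ F)).submatrix e e * ((P⁻¹ : GL ι F) : Matrix ι ι F) := by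
    intro a b
    rw [← Matrix.submatrix_mul_equiv _ _ e e e]
    calc _ = (P : Matrix ι ι F) * (a : Matrix κ κ F).submatrix e e * (((P⁻¹ : GL ι F) : Matrix ι ι F) * (P : Matrix ι ι F)) * (b : Matrix κ κ F).submatrix e e * ((P⁻¹ : GL ι F) : Matrix ι ι F) := by
          simp only [mul_assoc]
      _ = _ := by
          rw [hPi, mul_one]
          simp only [mul_assoc]
  rw [cj_val, cj_val, hs, hs, hc]
  have h5 : (c • ((g' : Matrix κ κ F) * (g : Matrix κ κ F))).submatrix e e = c • ((g' : Matrix κ κ F) * (g : Matrix κ κ F)).submatrix e e := by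
    ext i j
    simp
  rw [h5, Matrix.mul_smul, Matrix.smul_mul]

theorem cj_span {T : Subgroup (GL κ F)} {e : ι ≃ κ} {P : GL ι F} (h : Submodule.span F (matrixSet T) = ⊤) :
    Submodule.span F (matrixSet (cjGrp T e P)) = ⊤ := by
  classical
  rw [eq_top_iff]
  intro M _
  have hPi : (P : Matrix ι ι F) * ((P⁻¹ : GL ι F) : Matrix ι ι F) = 1 := by
    rw [← Units.val_mul, mul_inv_cancel, Units.val_one]
  have hPi' : ((P⁻¹ : GL ι F) : Matrix ι ι F) * (P : Matrix ι ι F) = 1 := by
    rw [← Units.val_mul, inv_mul_cancel, Units.val_one]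
  let φ : Matrix κ κ F → Matrix ι ι F := fun X => (P : Matrix ι ι F) * X.submatrix e e * ((P⁻¹ : GL ι F) : Matrix ι ι F)
  have hφ : ∀ X : Matrix κ κ F, φ X ∈ Submodule.span F (matrixSet (cjGrp T e P)) := by
    intro X
    have hX : X ∈ Submodule.span F (matrixSet T) := by
      rw [h]
      trivial
    induction hX using Submodule.span_induction with
    | mem x hx =>
      obtain ⟨g, hg, rfl⟩ := hx
      apply Submodule.subset_span
      exact ⟨_, mem_cjGrp.2 ⟨g, hg, rfl⟩, cj_val e P g⟩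
    | zero =>
      have : φ 0 = 0 := by
        simp only [φ]
        ext i j
        simp
      rw [this]
      exact Submodule.zero_mem _
    | add x y _ _ hx hy =>
      have : φ (x + y) = φ x + φ y := by
        have h5 : (x + y).submatrix e e = x.submatrix e e + y.submatrix e e := by
          ext i j
          simp
        simp only [φ, h5, mul_add, add_mul]
      rw [this]
      exact Submodule.add_mem _ hx hy
    | smul c x _ hx =>
      have : φ (c • x) = c • φ x := by
        have h5 : (c • x).submatrix e e = c • x.submatrix e e := by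
          ext i j
          simp
        simp only [φ, h5, Matrix.mul_smul, Matrix.smul_mul]
      rw [this]
      exact Submodule.smul_mem _ c hx
  have h1 : M = φ ((((P⁻¹ : GL ι F) : Matrix ι ι F) * M * (P : Matrix ι ι F)).submatrix e.symm e.symm) := by
    simp only [φ, Matrix.submatrix_submatrix, Equiv.symm_comp_self, Matrix.submatrix_id_id]
    calc M = ((P : Matrix ι ι F) * ((P⁻¹ : GL ι F) : Matrix ι ι F)) * M * ((P : Matrix ι ι F) * ((P⁻¹ : GL ι F) : Matrix ι ι F)) := by
          rw [hPi, one_mul, mul_one]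
      _ = _ := by simp only [mul_assoc]
  rw [h1]
  exact hφ _

theorem cj_HN {T : Subgroup (GL κ F)} {e : ι ≃ κ} {P h : GL ι F} (G₀ : GL κ F)
    (hh : (h : Matrix ι ι F) * (P : Matrix ι ι F) = (P : Matrix ι ι F) * (G₀ : Matrix κ κ F).submatrix e e)
    (hG : ∀ g ∈ T, G₀ * g * G₀⁻¹ ∈ T) {x : GL ι F} (hx : x ∈ cjGrp T e P) : h * x * h⁻¹ ∈ cjGrp T e P := by
  obtain ⟨g, hg, rfl⟩ := mem_cjGrp.1 hx
  have h1 : h * P = P * glReindex e.symm G₀ := by
    apply Units.ext
    rw [Units.val_mul, Units.val_mul, hh]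
    rfl
  refine mem_cjGrp.2 ⟨_, hG g hg, ?_⟩
  have h2 : h = P * glReindex e.symm G₀ * P⁻¹ := by
    rw [← h1]
    group
  rw [map_mul, map_mul, map_inv, h2]
  group

/-- Isometries are determined on a basis. -/
theorem isom_of_basis {σ : F ≃+* F} {f : (ι → F) → (ι → F) → F} (hf : Sesq σ f) (g : Matrix ι ι F)
    (h : ∀ i j, f (g *ᵥ Pi.single i 1) (g *ᵥ Pi.single j 1) = f (Pi.single i 1) (Pi.single j 1)) (u v : ι → F) :
    f (g *ᵥ u) (g *ᵥ v) = f u v := by
  classical
  have hsum : ∀ w : ι → F, g *ᵥ w = ∑ j, w j • (g *ᵥ Pi.single j 1) := by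
    intro w
    conv_lhs => rw [sum_single w]
    rw [Matrix.mulVec_sum]
    exact Finset.sum_congr rfl fun j _ => Matrix.mulVec_smul _ _ _
  rw [hsum u, hsum v]
  conv_rhs => rw [sum_single u, sum_single v]
  rw [Sesq_sum_left hf, Sesq_sum_left hf]
  refine Finset.sum_congr rfl fun a _ => ?_
  rw [hf.smul_left, hf.smul_left, Sesq_sum_right hf, Sesq_sum_right hf, Finset.mul_sum, Finset.mul_sum]
  refine Finset.sum_congr rfl fun b _ => ?_
  rw [hf.smul_right, hf.smul_right, h]

end Cj

section Sim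

variable {ι : Type} [Fintype ι] [DecidableEq ι]

/-- The transported tensor power of a group of isometries is a group of isometries. -/
theorem cj_isom {σ : F ≃+* F} {f : (ι → F) → (ι → F) → F} (hf : Sesq σ f) (e₂ : ι ≃ (Fin k → Fin a)) (P₃ : GL ι F)
    {B : (Fin a → F) → (Fin a → F) → F} {c : F}
    (hlaw : ∀ us vs : Fin k → Fin a → F, f ((P₃ : Matrix ι ι F) *ᵥ (ten us ∘ e₂)) ((P₃ : Matrix ι ι F) *ᵥ (ten vs ∘ e₂)) = c * ∏ i, B (us i) (vs i))
    {R₀ : Subgroup (GL (Fin a) F)} (hR₀ : ∀ g ∈ R₀, ∀ x y, B ((g : Matrix (Fin a) (Fin a) F) *ᵥ x) ((g : Matrix (Fin a) (Fin a) F) *ᵥ y) = B x y)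
    {x : GL ι F} (hx : x ∈ cjGrp (tenGrp R₀ k) e₂ P₃) (u v : ι → F) :
    f ((x : Matrix ι ι F) *ᵥ u) ((x : Matrix ι ι F) *ᵥ v) = f u v := by
  classical
  obtain ⟨_, ⟨gs, hgs, rfl⟩, rfl⟩ := mem_cjGrp.1 hx
  have hΦ : Sesq σ (fun a b : ι → F => f ((P₃ : Matrix ι ι F) *ᵥ a) ((P₃ : Matrix ι ι F) *ᵥ b)) := by
    refine ⟨fun x y v => ?_, fun t x v => ?_, fun v x y => ?_, fun t v x => ?_⟩
    · simp only [Matrix.mulVec_add]
      exact hf.add_left _ _ _
    · simp only [Matrix.mulVec_smul]
      exact hf.smul_left _ _ _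
    · simp only [Matrix.mulVec_add]
      exact hf.add_right _ _ _
    · simp only [Matrix.mulVec_smul]
      exact hf.smul_right _ _ _
  have hsa : ∀ b : ι, (Pi.single b 1 : ι → F) = ten (fun i => (Pi.single (e₂ b i) 1 : Fin a → F)) ∘ e₂ := by
    intro b
    rw [ten_single (F := F) (e₂ b)]
    funext y
    simp only [Function.comp_apply, Pi.single_apply, e₂.apply_eq_iff_eq]
  have hact : ∀ us : Fin k → Fin a → F, ((tw gs 1 : GL (Fin k → Fin a) F) : Matrix (Fin k → Fin a) (Fin k → Fin a) F).submatrix e₂ e₂ *ᵥ (ten us ∘ e₂) =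
      ten (fun i => (gs i : Matrix (Fin a) (Fin a) F) *ᵥ us i) ∘ e₂ := by
    intro us
    rw [Matrix.submatrix_mulVec_equiv, Function.comp_assoc, Equiv.self_comp_symm, Function.comp_id, coe_tw, mm_mulVec_ten]
    rfl
  have hG : ∀ p q : ι → F, f ((P₃ : Matrix ι ι F) *ᵥ (((tw gs 1 : GL (Fin k → Fin a) F) : Matrix (Fin k → Fin a) (Fin k → Fin a) F).submatrix e₂ e₂ *ᵥ p))
      ((P₃ : Matrix ι ι F) *ᵥ (((tw gs 1 : GL (Fin k → Fin a) F) : Matrix (Fin k → Fin a) (Fin k → Fin a) F).submatrix e₂ e₂ *ᵥ q)) =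
      f ((P₃ : Matrix ι ι F) *ᵥ p) ((P₃ : Matrix ι ι F) *ᵥ q) := by
    refine isom_of_basis hΦ _ (fun i j => ?_)
    rw [hsa i, hsa j, hact, hact, hlaw, hlaw]
    congr 1
    exact Finset.prod_congr rfl fun l _ => hR₀ _ (hgs l) _ _
  rw [cj_val]
  have hstep : ∀ w : ι → F, ((P₃ : Matrix ι ι F) * ((tw gs 1 : GL (Fin k → Fin a) F) : Matrix (Fin k → Fin a) (Fin k → Fin a) F).submatrix e₂ e₂ * ((P₃⁻¹ : GL ι F) : Matrix ι ι F)) *ᵥ w =
      (P₃ : Matrix ι ι F) *ᵥ (((tw gs 1 : GL (Fin k → Fin a) F) : Matrix (Fin k → Fin a) (Fin k → Fin a) F).submatrix e₂ e₂ *ᵥ (((P₃⁻¹ : GL ι F) : Matrix ι ι F) *ᵥ w)) := by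
    intro w
    simp only [Matrix.mulVec_mulVec, mul_assoc]
  rw [hstep, hstep, hG, Cfsg.Agent.Lib.Geo.Basic.mulVec_inv_mulVec, Cfsg.Agent.Lib.Geo.Basic.mulVec_inv_mulVec]

end Sim

end Cfsg.Agent.Lib.AschF.TenGrp
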